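import Cfsg.Agent.Lib.Geometric.Orth.Omega

/-!
Values of a non-degenerate quadratic form on large subspaces, in odd characteristic.
-/

set_option autoImplicit false

namespace CfsgLib.Geometric.Orth

open Matrix QuadraticMap Module CfsgLib.ClassicalForms Polynomial

variable {ι : Type} [Fintype ι] [DecidableEq ι] {F : Type*} [Field F] [Finite F]
variable {Q : QuadraticForm F (ι → F)}

/-- The functional `x ↦ polar Q x u`. -/
def pf (Q : QuadraticForm F (ι → F)) (u : ι → F) : (ι → F) →ₗ[F] F where
  toFun x := polar Q x u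
  map_add' x y := polar_add_left Q x y u
  map_smul' c x := polar_smul_left Q c x u

omit [Fintype ι] [DecidableEq ι] [Finite F] in
@[simp] lemma pf_apply (u x : ι → F) : pf Q u x = polar Q x u := rfl

omit [Fintype ι] [DecidableEq ι] [Finite F] in
lemma polar_self' (x : ι → F) : polar Q x x = 2 * Q x := by
  rw [polar_self, nsmul_eq_mul, Nat.cast_ofNat]

omit [Fintype ι] [DecidableEq ι] in
lemma exists_combination {α β : F} (hα : α ≠ 0) (hβ : β ≠ 0) (h2 : (2 : F) ≠ 0) (t : F) :
    ∃ a b : F, α * a ^ 2 + β * b ^ 2 = t := by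
  classical
  have := Fintype.ofFinite F
  have hchar : Fintype.card F % 2 = 1 := FiniteField.odd_card_of_char_ne_two fun h => h2 (by
    have := ringChar.Nat.cast_ringChar (R := F)
    rw [h] at this
    exact this)
  obtain ⟨a, b, hab⟩ := FiniteField.exists_root_sum_quadratic (R := F)
    (f := Polynomial.C α * X ^ 2) (g := Polynomial.C β * X ^ 2 - Polynomial.C t)
    (Polynomial.degree_C_mul_X_pow 2 hα)
    (by rw [degree_sub_C (by rw [degree_C_mul_X_pow 2 hβ]; norm_num), degree_C_mul_X_pow 2 hβ]; rfl)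
    hchar
  exact ⟨a, b, by simp at hab; linear_combination hab⟩

omit [DecidableEq ι] [Finite F] in
/-- A totally singular subspace has at most half the dimension. -/
lemma two_mul_finrank_le (hQ : Nondeg Q) {W : Submodule F (ι → F)} (h : ∀ w ∈ W, Q w = 0) :
    2 * finrank F W ≤ Fintype.card ι := by
  let ψ : W →ₗ[F] Module.Dual F (ι → F) :=
    { toFun := fun w => pf Q (w : ι → F)
      map_add' := fun a b => LinearMap.ext fun x => by simp [polar_add_right]
      map_smul' := fun c a => LinearMap.ext fun x => by simp [polar_smul_right] }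
  have hψ : Function.Injective ψ := by
    rw [injective_iff_map_eq_zero]
    intro w hw
    refine Subtype.ext (hQ _ fun y => ?_)
    rw [polar_comm]
    exact LinearMap.congr_fun hw y
  have hle : LinearMap.range ψ ≤ W.dualAnnihilator := by
    rintro _ ⟨w, rfl⟩
    rw [Submodule.mem_dualAnnihilator]
    intro x hx
    show polar Q x (w : ι → F) = 0
    rw [QuadraticMap.polar, h _ (W.add_mem hx w.2), h x hx, h _ w.2]
    ring
  have h1 := Subspace.finrank_add_finrank_dualAnnihilator_eq W
  rw [Module.finrank_fintype_fun_eq_card] at h1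
  have h2 := Submodule.finrank_mono hle
  rw [LinearMap.finrank_range_of_inj hψ] at h2
  omega

omit [DecidableEq ι] [Finite F] in
lemma finrank_le_inf_ker (W : Submodule F (ι → F)) (φ : (ι → F) →ₗ[F] F) :
    finrank F W ≤ finrank F ↥(W ⊓ LinearMap.ker φ) + 1 := by
  have h1 := Submodule.finrank_sup_add_finrank_inf_eq W (LinearMap.ker φ)
  have h2 := Submodule.finrank_le (W ⊔ LinearMap.ker φ)
  have h3 := LinearMap.finrank_range_add_finrank_ker φ
  have h4 := Submodule.finrank_le (LinearMap.range φ)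
  rw [Module.finrank_self] at h4
  omega

omit [DecidableEq ι] [Finite F] in
/-- A large subspace has an anisotropic vector. -/
lemma exists_anisotropic (hQ : Nondeg Q) {W : Submodule F (ι → F)}
    (hW : Fintype.card ι < 2 * finrank F W) : ∃ p ∈ W, Q p ≠ 0 := by
  by_contra h
  push Not at h
  have := two_mul_finrank_le hQ h
  omega

omit [DecidableEq ι] in
/-- A large subspace represents every value. -/
theorem exists_value (hQ : Nondeg Q) (h2 : (2 : F) ≠ 0) {W : Submodule F (ι → F)}
    (hW : Fintype.card ι + 2 < 2 * finrank F W) (t : F) : ∃ e ∈ W, Q e = t := by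
  obtain ⟨p, hp, hQp⟩ := exists_anisotropic hQ (W := W) (by omega)
  have h1 := finrank_le_inf_ker W (pf Q p)
  obtain ⟨q, hq, hQq⟩ := exists_anisotropic hQ (W := W ⊓ LinearMap.ker (pf Q p)) (by omega)
  obtain ⟨a, b, hab⟩ := exists_combination hQp hQq h2 t
  refine ⟨a • p + b • q, W.add_mem (W.smul_mem a hp) (W.smul_mem b hq.1), ?_⟩
  have hqp : polar Q q p = 0 := hq.2
  rw [QuadraticMap.map_add (⇑Q), QuadraticMap.map_smul, QuadraticMap.map_smul, polar_smul_left,
    polar_smul_right, polar_comm Q p q, hqp]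
  simp only [smul_eq_mul, mul_zero, add_zero]
  linear_combination hab

omit [DecidableEq ι] in
/-- A subspace of dimension three has a non-zero singular vector. -/
theorem exists_singular (h2 : (2 : F) ≠ 0) {W : Submodule F (ι → F)}
    (hW : 3 ≤ finrank F W) : ∃ e ∈ W, e ≠ 0 ∧ Q e = 0 := by
  have key : ∀ U : Submodule F (ι → F), U ≤ W → 0 < finrank F U →
      (∃ e ∈ W, e ≠ 0 ∧ Q e = 0) ∨ ∃ p ∈ U, Q p ≠ 0 := by
    intro U hU hpos
    obtain ⟨⟨p, hp⟩, hp0⟩ := Module.finrank_pos_iff_exists_ne_zero.mp hpos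
    by_cases h : Q p = 0
    · exact Or.inl ⟨p, hU hp, fun h0 => hp0 (Subtype.ext h0), h⟩
    · exact Or.inr ⟨p, hp, h⟩
  rcases key W le_rfl (by omega) with h | ⟨p, hp, hQp⟩
  · exact h
  have h1 := finrank_le_inf_ker W (pf Q p)
  rcases key (W ⊓ LinearMap.ker (pf Q p)) inf_le_left (by omega) with h | ⟨q, hq, hQq⟩
  · exact h
  have h1' := finrank_le_inf_ker (W ⊓ LinearMap.ker (pf Q p)) (pf Q q)
  rcases key (W ⊓ LinearMap.ker (pf Q p) ⊓ LinearMap.ker (pf Q q))
    (inf_le_left.trans inf_le_left) (by omega) with h | ⟨r, hr, hQr⟩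
  · exact h
  obtain ⟨a, b, hab⟩ := exists_combination hQp hQq h2 (-Q r)
  have hqp : polar Q q p = 0 := hq.2
  have hrp : polar Q r p = 0 := hr.1.2
  have hrq : polar Q r q = 0 := hr.2
  refine ⟨a • p + b • q + r, W.add_mem (W.add_mem (W.smul_mem a hp) (W.smul_mem b hq.1)) hr.1.1, ?_, ?_⟩
  · intro h0
    have := congrArg (fun x => polar Q x r) h0
    simp only [polar_add_left, polar_smul_left, polar_zero_left, polar_comm Q p r, polar_comm Q q r,
      hrp, hrq, polar_self', smul_eq_mul, mul_zero, zero_add, mul_eq_zero, or_iff_right h2] at this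
    exact hQr this
  · rw [QuadraticMap.map_add (⇑Q), QuadraticMap.map_add (⇑Q), QuadraticMap.map_smul, QuadraticMap.map_smul,
      polar_add_left, polar_smul_left, polar_smul_left, polar_smul_left, polar_smul_right,
      polar_comm Q p q, hqp, polar_comm Q p r, hrp, polar_comm Q q r, hrq]
    simp only [smul_eq_mul, mul_zero, add_zero]
    linear_combination hab

omit [DecidableEq ι] in
/-- In a large subspace a vector is half the sum of two singular vectors. -/
theorem exists_halves (hQ : Nondeg Q) (h2 : (2 : F) ≠ 0) {W : Submodule F (ι → F)}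
    (hW : Fintype.card ι + 4 < 2 * finrank F W) {a : ι → F} (ha : a ∈ W) :
    ∃ a₁ ∈ W, ∃ a₂ ∈ W, Q a₁ = 0 ∧ Q a₂ = 0 ∧ (2 : F) • a = a₁ + a₂ := by
  have h1 := finrank_le_inf_ker W (pf Q a)
  obtain ⟨e, he, hQe⟩ := exists_value hQ h2 (W := W ⊓ LinearMap.ker (pf Q a)) (by omega) (-Q a)
  have hea : polar Q a e = 0 := by rw [polar_comm]; exact he.2
  refine ⟨a + e, W.add_mem ha he.1, a - e, W.sub_mem ha he.1, ?_, ?_, ?_⟩
  · rw [QuadraticMap.map_add (⇑Q), hQe, hea]; ring
  · rw [sub_eq_add_neg, QuadraticMap.map_add (⇑Q), QuadraticMap.map_neg, hQe, polar_neg_right, hea]; ring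
  · rw [two_smul]; abel

/-- The vectors orthogonal to a given family. -/
def perpOf {k : ℕ} (Q : QuadraticForm F (ι → F)) (v : Fin k → ι → F) : Submodule F (ι → F) :=
  LinearMap.ker (LinearMap.pi fun i => pf Q (v i))

omit [Fintype ι] [DecidableEq ι] [Finite F] in
lemma mem_perpOf {k : ℕ} {v : Fin k → ι → F} {x : ι → F} :
    x ∈ perpOf Q v ↔ ∀ i, polar Q x (v i) = 0 := by
  simp [perpOf, funext_iff]

omit [DecidableEq ι] [Finite F] in
lemma card_le_finrank_perpOf {k : ℕ} (v : Fin k → ι → F) :
    Fintype.card ι ≤ finrank F (perpOf Q v) + k := by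
  have h := LinearMap.finrank_range_add_finrank_ker (LinearMap.pi fun i => pf Q (v i))
  have h' := Submodule.finrank_le (LinearMap.range (LinearMap.pi fun i => pf Q (v i)))
  rw [Module.finrank_fintype_fun_eq_card] at h
  rw [Module.finrank_fintype_fun_eq_card, Fintype.card_fin] at h'
  unfold perpOf
  omega

omit [DecidableEq ι] [Finite F] in
/-- Prescribed pairings with two independent vectors. -/
lemma exists_pairings (hQ : Nondeg Q) {u v : ι → F} (h : LinearIndependent F ![u, v]) (s t : F) :
    ∃ x, polar Q x u = s ∧ polar Q x v = t := by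
  have hsurj : Function.Surjective ((pf Q u).prod (pf Q v)) := by
    rw [← LinearMap.range_eq_top]
    by_contra hne
    obtain ⟨f, hf0, hf⟩ := Submodule.exists_le_ker_of_lt_top _ (lt_top_iff_ne_top.mpr hne)
    apply hf0
    have h1 : ∀ x, polar Q (f (1, 0) • u + f (0, 1) • v) x = 0 := by
      intro x
      have h2 : f (((pf Q u).prod (pf Q v)) x) = 0 := hf ⟨x, rfl⟩
      have h3 : ((pf Q u).prod (pf Q v)) x = polar Q x u • ((1, 0) : F × F) + polar Q x v • (0, 1) := by
        simp
      rw [h3, map_add, map_smul, map_smul, smul_eq_mul, smul_eq_mul] at h2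
      rw [polar_add_left, polar_smul_left, polar_smul_left, polar_comm Q u, polar_comm Q v,
        smul_eq_mul, smul_eq_mul]
      linear_combination h2
    obtain ⟨e1, e2⟩ := LinearIndependent.pair_iff.mp h _ _ (hQ _ h1)
    refine LinearMap.prod_ext (LinearMap.ext_ring ?_) (LinearMap.ext_ring ?_) <;> simpa
  obtain ⟨x, hx⟩ := hsurj (s, t)
  exact ⟨x, congrArg Prod.fst hx, congrArg Prod.snd hx⟩

omit [DecidableEq ι] in
/-- A singular vector pairing as prescribed with two independent vectors and orthogonal to a third. -/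
theorem exists_singular_pairing (hQ : Nondeg Q) (h2 : (2 : F) ≠ 0) (hn : 11 ≤ Fintype.card ι)
    {u v : ι → F} (h : LinearIndependent F ![u, v]) (s t : F) :
    ∃ y, Q y = 0 ∧ polar Q y u = s ∧ polar Q y v = t := by
  obtain ⟨x, hxu, hxv⟩ := exists_pairings hQ h s t
  have hd := card_le_finrank_perpOf (Q := Q) ![u, v, x]
  obtain ⟨e, he, hQe⟩ := exists_value hQ h2 (W := perpOf Q ![u, v, x]) (by omega) (-Q x)
  rw [mem_perpOf] at he
  have he0 : polar Q e u = 0 := he 0
  have he1 : polar Q e v = 0 := he 1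
  have he2 : polar Q e x = 0 := he 2
  refine ⟨x + e, ?_, ?_, ?_⟩
  · rw [QuadraticMap.map_add (⇑Q), hQe, polar_comm, he2]; ring
  · rw [polar_add_left, hxu, he0, add_zero]
  · rw [polar_add_left, hxv, he1, add_zero]

end CfsgLib.Geometric.Orth
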