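import Cfsg.Agent.Lib.Geometric.Orth.Values
import Cfsg.Agent.Lib.Geometric.Orth.Full
import Cfsg.Agent.Lib.Geometric.Orth.Blocks.Basic

/-!
A group of isometries of a quadratic form containing those elements of `omegaGL` which commute with a
quadratic extension field acting by similitudes, and one element not normalising that field, contains
`omegaGL`.
-/

set_option autoImplicit false
set_option linter.unusedSectionVars false

namespace CfsgLib.Geometric.Orth

open Matrix QuadraticMap Module CfsgLib.ClassicalForms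

variable {ι : Type} [Fintype ι] [DecidableEq ι] {F : Type*} [Field F] [Finite F]
variable {Q : QuadraticForm F (ι → F)}

lemma exists_singular_mem (W : Submodule F (ι → F)) (hW : 3 ≤ finrank F W) :
    ∃ z ∈ W, z ≠ 0 ∧ Q z = 0 := by
  obtain ⟨⟨z, hz⟩, h0, hQz, -⟩ := exists_singular_ker (Q.comp W.subtype)
    (fun i : Fin 0 => (Fin.elim0 i : ↥W →ₗ[F] F)) (by simpa using hW)
  exact ⟨z, hz, fun h => h0 (Subtype.ext h), by simpa using hQz⟩

/-- A singular vector orthogonal to one family and outside the span of another. -/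
lemma exists_singular_off' {k k' : ℕ} (v : Fin k → ι → F) (v' : Fin k' → ι → F)
    (hk : k + k' + 3 ≤ Fintype.card ι) :
    ∃ z, z ∉ Submodule.span F (Set.range v') ∧ Q z = 0 ∧ ∀ i, polar Q z (v i) = 0 := by
  obtain ⟨C, hC⟩ := Submodule.exists_isCompl (Submodule.span F (Set.range v'))
  have h1 := card_le_finrank_perpOf (Q := Q) v
  have h2 := Submodule.finrank_add_eq_of_isCompl hC
  have h3 := finrank_range_le_card (R := F) v'
  have h4 := Submodule.finrank_sup_add_finrank_inf_eq C (perpOf Q v)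
  have h5 := Submodule.finrank_le (C ⊔ perpOf Q v)
  simp only [Set.finrank, Fintype.card_fin, Module.finrank_fintype_fun_eq_card] at h1 h2 h3 h5
  obtain ⟨z, hz, hz0, hQz⟩ := exists_singular_mem (Q := Q) (C ⊓ perpOf Q v) (by omega)
  refine ⟨z, fun h => hz0 ?_, hQz, mem_perpOf.mp hz.2⟩
  exact (Submodule.disjoint_def.mp hC.disjoint) z h hz.1

lemma exists_singular_off {k : ℕ} (v : Fin k → ι → F) (hk : 2 * k + 3 ≤ Fintype.card ι) :
    ∃ z, z ∉ Submodule.span F (Set.range v) ∧ Q z = 0 ∧ ∀ i, polar Q z (v i) = 0 :=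
  exists_singular_off' v v (by omega)

/-- A singular vector with prescribed values, from a singular vector orthogonal to and outside the span. -/
lemma exists_singular_val_of (hQ : Nondeg Q) {k : ℕ} (v : Fin k → ι → F) (θ : (ι → F) →ₗ[F] F)
    {z₀ : ι → F} (hz₀ : z₀ ∉ Submodule.span F (Set.range v)) (hQz₀ : Q z₀ = 0)
    (hperp : ∀ i, polar Q z₀ (v i) = 0) : ∃ z, Q z = 0 ∧ ∀ i, polar Q z (v i) = θ (v i) := by
  obtain ⟨φ, hφ, hφz⟩ := exists_functional_eq_one hz₀
  obtain ⟨p, hp⟩ := exists_eq_polar hQ φ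
  obtain ⟨y₀, hy₀⟩ := exists_eq_polar hQ θ
  set y₁ := y₀ + (1 - θ z₀) • p with hy₁
  have h1 : polar Q z₀ y₁ = 1 := by
    rw [hy₁, polar_add_right, polar_smul_right, hy₀, hp, hφz]
    simp
  refine ⟨y₁ - Q y₁ • z₀, ?_, fun i => ?_⟩
  · rw [map_sub_eq, QuadraticMap.map_smul, hQz₀, polar_smul_right, polar_comm Q y₁, h1]
    simp
  · rw [polar_sub_left, polar_smul_left, hperp, polar_comm Q y₁, hy₁, polar_add_right,
      polar_smul_right, hy₀, hp, hφ _ (Submodule.subset_span ⟨i, rfl⟩)]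
    simp

lemma exists_singular_val (hQ : Nondeg Q) {k : ℕ} (v : Fin k → ι → F) (θ : (ι → F) →ₗ[F] F)
    (hk : 2 * k + 3 ≤ Fintype.card ι) : ∃ z, Q z = 0 ∧ ∀ i, polar Q z (v i) = θ (v i) := by
  obtain ⟨z₀, hz₀, hQz₀, hperp⟩ := exists_singular_off (Q := Q) v hk
  exact exists_singular_val_of hQ v θ hz₀ hQz₀ hperp

/-- A singular vector outside and orthogonal to a family smaller than some totally singular
subspace. -/
lemma exists_singular_off_of_isotropic {k : ℕ} (v : Fin k → ι → F) {W : Submodule F (ι → F)}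
    (hW : ∀ x ∈ W, Q x = 0) (hk : k < finrank F W) :
    ∃ z, z ∉ Submodule.span F (Set.range v) ∧ Q z = 0 ∧ ∀ i, polar Q z (v i) = 0 := by
  set U := Submodule.span F (Set.range v) with hU
  -- a complement of `W ⊓ U` inside `U` carries all conditions
  obtain ⟨C, hC⟩ := Submodule.exists_isCompl ((W ⊓ U).comap U.subtype)
  set C' := C.map U.subtype with hC'
  have hUle : U ≤ W ⊓ U ⊔ C' := by
    intro x hx
    have h : (⟨x, hx⟩ : U) ∈ (W ⊓ U).comap U.subtype ⊔ C := by rw [hC.sup_eq_top]; exact Submodule.mem_top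
    obtain ⟨a, ha, b, hb, hab⟩ := Submodule.mem_sup.1 h
    exact Submodule.mem_sup.2 ⟨a, ha, b, ⟨b, hb, rfl⟩, congrArg Subtype.val hab⟩
  have hd1 := Submodule.finrank_add_eq_of_isCompl hC
  have hd2 : finrank F ((W ⊓ U).comap U.subtype) = finrank F (W ⊓ U : Submodule F (ι → F)) :=
    (Submodule.comapSubtypeEquivOfLe inf_le_right).finrank_eq
  have hd3 : finrank F C' = finrank F C := Submodule.finrank_map_subtype_eq U C
  have hd4 : finrank F U ≤ k := by
    have := finrank_range_le_card (R := F) v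
    simpa [Set.finrank, hU] using this
  let c : Fin (finrank F C') → ι → F := fun i => (Module.finBasis F C' i : ι → F)
  have h1 := card_le_finrank_perpOf (Q := Q) c
  have h4 := Submodule.finrank_sup_add_finrank_inf_eq W (perpOf Q c)
  have h5 := Submodule.finrank_le (W ⊔ perpOf Q c)
  simp only [Fintype.card_fin, Module.finrank_fintype_fun_eq_card] at h1 h5
  obtain ⟨z, ⟨hzW, hzc⟩, hzU⟩ : ∃ z ∈ W ⊓ perpOf Q c, z ∉ U := by
    by_contra! hall
    have := Submodule.finrank_mono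
      (show W ⊓ perpOf Q c ≤ W ⊓ U from fun z hz => ⟨hz.1, hall z hz⟩)
    omega
  refine ⟨z, hzU, hW z hzW, fun i => ?_⟩
  have hle : U ≤ LinearMap.ker (polarBilin Q z) := by
    refine hUle.trans (sup_le (fun x hx => ?_) fun x hx => ?_)
    · rw [LinearMap.mem_ker, polarBilin_apply_apply, QuadraticMap.polar,
        hW _ (W.add_mem hzW hx.1), hW z hzW, hW x hx.1]
      simp
    · have hcle : Submodule.span F (Set.range c) ≤ LinearMap.ker (polarBilin Q z) :=
        Submodule.span_le.2 (by rintro _ ⟨j, rfl⟩; simpa using mem_perpOf.mp hzc j)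
      refine hcle ?_
      rw [show Set.range c = C'.subtype '' Set.range (Module.finBasis F C') by
          rw [← Set.range_comp]; rfl, Submodule.span_image, (Module.finBasis F C').span_eq,
        Submodule.map_top, Submodule.range_subtype]
      exact hx
  simpa using hle (Submodule.subset_span ⟨i, rfl⟩)

/-- A singular vector orthogonal to and outside the span of four vectors, two of which are not
orthogonal. -/
lemma exists_singular_off_four (hn : 10 ≤ Fintype.card ι) (v : Fin 4 → ι → F) {i j : Fin 4}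
    (hij : polar Q (v i) (v j) ≠ 0) :
    ∃ z, z ∉ Submodule.span F (Set.range v) ∧ Q z = 0 ∧ ∀ l, polar Q z (v l) = 0 := by
  set U := Submodule.span F (Set.range v) with hU
  set K := perpOf Q v with hK
  have hlt : U ⊓ K < U := lt_of_le_of_ne inf_le_left fun h =>
    hij (mem_perpOf.mp (inf_eq_left.mp h (Submodule.subset_span ⟨i, rfl⟩)) j)
  obtain ⟨C, hC⟩ := Submodule.exists_isCompl (U ⊓ K)
  have h0 := Submodule.finrank_lt_finrank_of_lt hlt
  have h1 := card_le_finrank_perpOf (Q := Q) v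
  have h2 := Submodule.finrank_add_eq_of_isCompl hC
  have h3 := finrank_range_le_card (R := F) v
  have h4 := Submodule.finrank_sup_add_finrank_inf_eq C K
  have h5 := Submodule.finrank_le (C ⊔ K)
  simp only [Set.finrank, Fintype.card_fin, Module.finrank_fintype_fun_eq_card] at h1 h2 h3 h5
  change finrank F U ≤ _ at h3
  change _ ≤ finrank F K + _ at h1
  obtain ⟨z, hz, hz0, hQz⟩ := exists_singular_mem (Q := Q) (C ⊓ K) (by omega)
  exact ⟨z, fun h => hz0 ((Submodule.disjoint_def.mp hC.disjoint) z ⟨h, hz.2⟩ hz.1), hQz,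
    mem_perpOf.mp hz.2⟩

/-- A singular vector with prescribed values at five vectors, one of them singular with non-zero
value. -/
lemma exists_singular_val_five (hQ : Nondeg Q) (hn : 10 ≤ Fintype.card ι) (v : Fin 5 → ι → F)
    (θ : (ι → F) →ₗ[F] F) {i : Fin 5} (hi : Q (v i) = 0) (hθi : θ (v i) ≠ 0) :
    ∃ z, Q z = 0 ∧ ∀ l, polar Q z (v l) = θ (v l) := by
  obtain ⟨z₀, hz₀⟩ := exists_eq_polar hQ θ
  by_cases hrad : ∀ l, polar Q (v i) (v l) = 0
  · refine ⟨z₀ - (Q z₀ / θ (v i)) • v i, ?_, fun l => ?_⟩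
    · rw [map_sub_eq, QuadraticMap.map_smul, hi, polar_smul_right, polar_comm Q z₀, hz₀]
      simp [hθi]
    · rw [polar_sub_left, polar_smul_left, hrad l, polar_comm Q z₀, hz₀]
      simp
  push Not at hrad
  obtain ⟨j, hij⟩ := hrad
  set U := Submodule.span F (Set.range v) with hU
  set K := perpOf Q v with hK
  -- the plane of the two vectors misses the radical
  set P := Submodule.span F (Set.range ![v i, v j]) with hP
  have hzero : ∀ a b : F, (∀ l, polar Q (a • v i + b • v j) (v l) = 0) → a = 0 ∧ b = 0 := by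
    intro a b h
    have hb : b = 0 := by
      have h' := h i
      rw [polar_add_left, polar_smul_left, polar_smul_left, polar_self' (Q := Q), hi,
        polar_comm Q (v j) (v i)] at h'
      simpa [hij] using h'
    refine ⟨?_, hb⟩
    have h' := h j
    rw [hb, zero_smul, add_zero, polar_smul_left] at h'
    simpa [hij] using h'
  have hP2 : finrank F P = 2 := by
    rw [hP, finrank_span_eq_card, Fintype.card_fin]
    refine linearIndependent_fin2.mpr ⟨?_, fun a => ?_⟩
    · intro h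
      exact hij (by
        rw [show v j = 0 by simpa using h, polar_zero_right])
    · intro h
      have := (hzero (-1) a fun l => by
        rw [show a • v j = v i by simpa using h, neg_one_smul, neg_add_cancel, polar_zero_left]).1
      exact one_ne_zero (neg_eq_zero.mp this)
  have hdisj : P ⊓ (U ⊓ K) = ⊥ := by
    refine (Submodule.eq_bot_iff _).2 fun x hx => ?_
    obtain ⟨c, hc⟩ := (Submodule.mem_span_range_iff_exists_fun F).1 hx.1
    simp only [Fin.sum_univ_two, Matrix.cons_val_zero, Matrix.cons_val_one] at hc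
    obtain ⟨e0, e1⟩ := hzero (c 0) (c 1) (by rw [hc]; exact mem_perpOf.mp hx.2.2)
    rw [← hc, e0, e1]
    simp
  have hPU : P ≤ U := Submodule.span_le.2 (by
    rintro _ ⟨l, rfl⟩; fin_cases l
    · exact Submodule.subset_span ⟨i, rfl⟩
    · exact Submodule.subset_span ⟨j, rfl⟩)
  obtain ⟨C, hC⟩ := Submodule.exists_isCompl (U ⊓ K)
  have h0 := Submodule.finrank_sup_add_finrank_inf_eq P (U ⊓ K)
  have h0' := Submodule.finrank_mono (sup_le hPU inf_le_left : P ⊔ U ⊓ K ≤ U)
  have h1 := card_le_finrank_perpOf (Q := Q) v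
  have h2 := Submodule.finrank_add_eq_of_isCompl hC
  have h3 := finrank_range_le_card (R := F) v
  have h4 := Submodule.finrank_sup_add_finrank_inf_eq C K
  have h5 := Submodule.finrank_le (C ⊔ K)
  rw [hdisj, finrank_bot, hP2] at h0
  simp only [Set.finrank, Fintype.card_fin, Module.finrank_fintype_fun_eq_card] at h1 h2 h3 h5
  change finrank F U ≤ _ at h3
  change _ ≤ finrank F K + _ at h1
  have hKU : ∀ x ∈ K, ∀ y ∈ U, polar Q x y = 0 := fun x hx y hy => by
    have : U ≤ LinearMap.ker (polarBilin Q x) :=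
      Submodule.span_le.2 (by rintro _ ⟨l, rfl⟩; simpa using mem_perpOf.mp hx l)
    simpa using this hy
  have hnd : Cfsg.Geo.IsNondegenerateOn (polar (⇑Q)) (C ⊓ K) := by
    intro c hc hc0
    suffices h : ∃ y ∈ C ⊓ K, polar Q c y ≠ 0 by
      obtain ⟨y, hy, hcy⟩ := h
      exact ⟨⟨y, hy, by rwa [polar_comm]⟩, y, hy, hcy⟩
    by_contra! hall
    by_cases hcU : c ∈ U
    · exact hc0 ((Submodule.disjoint_def.mp hC.disjoint) c ⟨hcU, hc.2⟩ hc.1)
    obtain ⟨w, hwU, hcw⟩ := exists_polar_sep hQ hcU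
    have hwK : w ∈ K := mem_perpOf.mpr fun l => by
      rw [polar_comm]; exact hwU _ (Submodule.subset_span ⟨l, rfl⟩)
    obtain ⟨a, ha, b, hb, hab⟩ := Submodule.mem_sup.1
      (hC.sup_eq_top.symm ▸ Submodule.mem_top : w ∈ U ⊓ K ⊔ C)
    have hbK : b ∈ K := by
      rw [show b = w - a by rw [← hab]; abel]
      exact K.sub_mem hwK ha.2
    rw [← hab, polar_add_right, hKU c hc.2 a ha.1, hall b ⟨hb, hbK⟩, add_zero] at hcw
    exact zero_ne_one hcw
  obtain ⟨a, ha, p, hp, hap⟩ := exists_add_eq hnd z₀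
  obtain ⟨c, hc, hQc⟩ := Blocks.exists_value' hnd (by omega) (-Q p)
  refine ⟨c + p, ?_, fun l => ?_⟩
  · rw [QuadraticMap.map_add (⇑Q), hQc, mem_perpW.mp hp c hc]
    ring
  · have e := hz₀ (v l)
    rw [hap, polar_comm, polar_add_left, mem_perpOf.mp ha.2 l, zero_add] at e
    rw [polar_add_left, mem_perpOf.mp hc.2 l, e, zero_add]

lemma sg_mul_same_centre {u w w' : ι → F} (hu : Q u = 0) (hw : polar Q u w = 0) (hw' : polar Q u w' = 0) :
    sg Q u w hu hw * sg Q u w' hu hw' =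
      sg Q u (w + w') hu (by rw [polar_add_right, hw, hw', add_zero]) := by
  simp only [sg, ← map_mul, siegel_mul]

lemma sg_swap {u z : ι → F} (hu : Q u = 0) (hz : Q z = 0) (s : F)
    (h : polar Q z (s • u) = 0) (h' : polar Q u ((-s) • z) = 0) :
    sg Q z (s • u) hz h = sg Q u ((-s) • z) hu h' := by
  refine gl_ext fun x => ?_
  rw [ap_sg, ap_sg]
  simp only [polar_smul_right, QuadraticMap.map_smul, hu, hz, smul_eq_mul]
  module

/-- A quadratic extension field given by one similitude `D`. -/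
structure QuadExtData (Q : QuadraticForm F (ι → F)) where
  /-- The map. -/
  D : (ι → F) →ₗ[F] (ι → F)
  /-- Its trace. -/
  t : F
  /-- Its norm. -/
  N : F
  sq : ∀ x, D (D x) = t • D x - N • x
  adj : ∀ x y, polar Q (D x) y = polar Q x (t • y - D y)
  map : ∀ x, Q (D x) = N * Q x
  self : ∀ x, polar Q x (D x) = t * Q x
  irred : ∀ x, x ≠ 0 → ∀ c : F, D x ≠ c • x

namespace QuadExtData

variable (S : QuadExtData Q)

/-- The line over the extension field. -/
def L (x : ι → F) : Submodule F (ι → F) := Submodule.span F (Set.range ![x, S.D x])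

lemma mem_L {x z : ι → F} : z ∈ S.L x ↔ ∃ a b : F, a • x + b • S.D x = z := by
  rw [L, Submodule.mem_span_range_iff_exists_fun]
  constructor
  · rintro ⟨c, hc⟩
    exact ⟨c 0, c 1, by simpa [Fin.sum_univ_two] using hc⟩
  · rintro ⟨a, b, h⟩
    exact ⟨![a, b], by simpa [Fin.sum_univ_two] using h⟩

lemma D_mem {x z : ι → F} (h : z ∈ S.L x) : S.D z ∈ S.L x := by
  obtain ⟨a, b, rfl⟩ := S.mem_L.mp h
  refine S.mem_L.mpr ⟨-(b * S.N), a + b * S.t, ?_⟩
  rw [map_add, map_smul, map_smul, S.sq]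
  module

lemma poly_ne {x : ι → F} (hx : x ≠ 0) (c : F) : c * c - S.t * c + S.N ≠ 0 := by
  intro h
  have h0 : S.D x - c • x ≠ 0 := sub_ne_zero.mpr (S.irred x hx c)
  refine S.irred _ h0 (S.t - c) ?_
  rw [map_sub, map_smul, S.sq]
  match_scalars
  · ring
  · linear_combination -h

lemma mem_of_sub_mem {u w : ι → F} (c : F) (h : S.D w - c • w ∈ S.L u) : w ∈ S.L u := by
  by_cases hw : w = 0
  · rw [hw]; exact Submodule.zero_mem _
  have h1 := (S.L u).sub_mem ((S.L u).smul_mem (S.t - c) h) (S.D_mem h)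
  rw [show (S.t - c) • (S.D w - c • w) - S.D (S.D w - c • w) = (c * c - S.t * c + S.N) • w by
    rw [map_sub, map_smul, S.sq]; module] at h1
  rwa [Submodule.smul_mem_iff _ (S.poly_ne hw c)] at h1

lemma L_le {u z : ι → F} (h : z ∈ S.L u) : S.L z ≤ S.L u :=
  Submodule.span_le.2 (by
    rintro _ ⟨i, rfl⟩; fin_cases i
    · exact h
    · exact S.D_mem h)

lemma mem_L_symm {u z : ι → F} (hz : z ≠ 0) (h : z ∈ S.L u) : u ∈ S.L z := by
  obtain ⟨a, b, hab⟩ := S.mem_L.mp h
  by_cases hb : b = 0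
  · have ha : a ≠ 0 := fun ha => hz (by rw [← hab, ha, hb]; simp)
    refine S.mem_L.mpr ⟨a⁻¹, 0, ?_⟩
    rw [← hab, hb]
    simp [smul_smul, ha]
  refine S.mem_of_sub_mem (-(a / b)) (S.mem_L.mpr ⟨b⁻¹, 0, ?_⟩)
  rw [← hab]
  match_scalars <;> field_simp

lemma polar_map (x y : ι → F) : polar Q (S.D x) (S.D y) = S.N * polar Q x y := by
  simp only [QuadraticMap.polar, ← map_add, S.map]
  ring

lemma polar_D_zero {x z : ι → F} (h1 : polar Q x z = 0) (h2 : polar Q x (S.D z) = 0) :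
    polar Q z (S.D x) = 0 := by
  rw [polar_comm, S.adj, polar_sub_right, polar_smul_right, h1, h2]
  simp

lemma value_dual {w : ι → F} (hw : Q w = 0) : Q (S.t • w - S.D w) = 0 := by
  rw [map_sub_eq, QuadraticMap.map_smul, S.map, hw, polar_smul_left, S.self, hw]
  simp

variable (hQ : Nondeg Q)
include hQ

/-- A map keeping every singular line of the extension lies in the extension. -/
lemma eq_combination (hn : 9 ≤ Fintype.card ι) {P : (ι → F) →ₗ[F] (ι → F)}
    (hP : ∀ x, Q x = 0 → P x ∈ S.L x) : ∃ a b : F, ∀ x, P x = a • x + b • S.D x := by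
  choose α β hαβ using fun (x : {x : ι → F // Q x = 0}) => S.mem_L.mp (hP x x.2)
  have hpair : ∀ (v w : {x : ι → F // Q x = 0}), (v : ι → F) ≠ 0 → (w : ι → F) ∉ S.L v →
      polar Q (v : ι → F) w = 0 → α v = α w ∧ β v = β w := by
    rintro ⟨v, hv⟩ ⟨w, hw⟩ hv0 hwv hvw
    dsimp only at hv0 hwv hvw
    have hs : Q (v + w) = 0 := by rw [QuadraticMap.map_add (⇑Q), hv, hw, hvw]; simp
    set p := α ⟨v + w, hs⟩
    set q := β ⟨v + w, hs⟩
    have h := hαβ ⟨v + w, hs⟩
    rw [map_add P v w, ← hαβ ⟨v, hv⟩, ← hαβ ⟨w, hw⟩, map_add] at h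
    have h' : (p - α ⟨w, hw⟩) • w + (q - β ⟨w, hw⟩) • S.D w =
        (α ⟨v, hv⟩ - p) • v + (β ⟨v, hv⟩ - q) • S.D v := by
      linear_combination (norm := module) h
    have hmem : (p - α ⟨w, hw⟩) • w + (q - β ⟨w, hw⟩) • S.D w ∈ S.L v :=
      h' ▸ S.mem_L.mpr ⟨_, _, rfl⟩
    have hq : q = β ⟨w, hw⟩ := by
      by_contra hne
      have hne' := sub_ne_zero.mpr hne
      refine hwv (S.mem_of_sub_mem (-((p - α ⟨w, hw⟩) / (q - β ⟨w, hw⟩))) ?_)
      have := (S.L v).smul_mem (q - β ⟨w, hw⟩)⁻¹ hmem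
      convert this using 1
      match_scalars <;> field_simp
    have hp : p = α ⟨w, hw⟩ := by
      by_contra hne
      refine hwv ?_
      rw [hq, sub_self, zero_smul, add_zero] at hmem
      rwa [Submodule.smul_mem_iff _ (sub_ne_zero.mpr hne)] at hmem
    rw [hp, hq, sub_self, sub_self, zero_smul, zero_smul, zero_add] at h'
    have hv2 : ∀ a b : F, a • v + b • S.D v = 0 → a = 0 ∧ b = 0 := by
      intro a b he
      by_cases hb : b = 0
      · rw [hb, zero_smul, add_zero, smul_eq_zero, or_iff_left hv0] at he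
        exact ⟨he, hb⟩
      · refine absurd ?_ (S.irred v hv0 (-(a / b)))
        linear_combination (norm := skip) b⁻¹ • he
        match_scalars <;> field_simp <;> ring
    obtain ⟨e1, e2⟩ := hv2 _ _ h'.symm
    exact ⟨(sub_eq_zero.mp e1).trans rfl, sub_eq_zero.mp e2⟩
  obtain ⟨v₀, hv₀0, hQv₀⟩ : ∃ v₀ : ι → F, v₀ ≠ 0 ∧ Q v₀ = 0 := by
    obtain ⟨z, hz, hQz, -⟩ := exists_singular_off (Q := Q) (fun i : Fin 0 => (Fin.elim0 i : ι → F))
      (by omega)
    exact ⟨z, fun h => hz (h ▸ Submodule.zero_mem _), hQz⟩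
  refine ⟨α ⟨v₀, hQv₀⟩, β ⟨v₀, hQv₀⟩, ?_⟩
  let R : (ι → F) →ₗ[F] (ι → F) :=
    P - α ⟨v₀, hQv₀⟩ • LinearMap.id - β ⟨v₀, hQv₀⟩ • S.D
  have hR : ∀ x, Q x = 0 → R x = 0 := by
    intro x hx
    by_cases hx0 : x = 0
    · simp [hx0]
    obtain ⟨z, hz, hQz, hzp⟩ :=
      exists_singular_off' (Q := Q) ![v₀, x] ![v₀, S.D v₀, x, S.D x] (by omega)
    have hz1 : z ∉ S.L v₀ := fun h => hz (Submodule.span_mono (by
      rintro _ ⟨i, rfl⟩; fin_cases i
      · exact ⟨0, rfl⟩
      · exact ⟨1, rfl⟩) h)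
    have hz2 : z ∉ S.L x := fun h => hz (Submodule.span_mono (by
      rintro _ ⟨i, rfl⟩; fin_cases i
      · exact ⟨2, rfl⟩
      · exact ⟨3, rfl⟩) h)
    obtain ⟨e1, e2⟩ := hpair ⟨v₀, hQv₀⟩ ⟨z, hQz⟩ hv₀0 hz1 (by rw [polar_comm]; exact hzp 0)
    obtain ⟨e3, e4⟩ := hpair ⟨x, hx⟩ ⟨z, hQz⟩ hx0 hz2 (by rw [polar_comm]; exact hzp 1)
    simp only [R, LinearMap.sub_apply, LinearMap.smul_apply, LinearMap.id_apply, e1, e2, ← e3,
      ← e4, ← hαβ ⟨x, hx⟩]
    abel
  intro x
  by_cases hx0 : x = 0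
  · simp [hx0]
  have hxb : x ∉ (⊥ : Submodule F (ι → F)) := by simpa using hx0
  obtain ⟨θ, -, hθ⟩ := exists_functional_eq_one hxb
  obtain ⟨z, hQz, hz⟩ := exists_singular_val hQ ![x] θ (by omega)
  have h1 : polar Q x z = 1 := by rw [polar_comm]; simpa [hθ] using hz 0
  have h2 : R (x - Q x • z) = 0 := hR _ (by
    rw [map_sub_eq, QuadraticMap.map_smul, hQz, polar_smul_right, h1]; simp)
  rw [map_sub, map_smul, hR z hQz, smul_zero, sub_zero] at h2
  simp only [R, LinearMap.sub_apply, LinearMap.smul_apply, LinearMap.id_apply, sub_sub,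
    sub_eq_zero] at h2
  exact h2

variable (hn : 10 ≤ Fintype.card ι)
include hn

variable {M : Subgroup (GL ι F)} (hM : M ≤ Cfsg.isometryGroup F (⇑Q))
  (hR : ∀ g ∈ Cfsg.Geo.omegaGL (⇑Q), (∀ x, S.D (ap g x) = ap g (S.D x)) → g ∈ M)

include hR in
lemma root_mem {v : ι → F} (hv : Q v = 0) (s : F) (h : polar Q v (s • S.D v) = 0) :
    sg Q v (s • S.D v) hv h ∈ M := by
  refine hR _ (sg_mem hQ (by omega) hv h) fun x => ?_
  rw [ap_sg, ap_sg]
  simp only [QuadraticMap.map_smul, S.map, hv, polar_smul_right, map_add, map_sub, map_smul, S.sq,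
    smul_eq_mul, mul_zero, zero_mul, add_zero, S.adj x v, polar_sub_right, S.polar_map]
  module

/-- The vectors `y` orthogonal to `u` with all Siegel elements at `u` along `y` in `M`. -/
def Y (M : Subgroup (GL ι F)) (u : ι → F) : Submodule F (ι → F) where
  carrier := {y | polar Q u y = 0 ∧
    ∀ (s : F) (hu : Q u = 0) (h : polar Q u (s • y) = 0), sg Q u (s • y) hu h ∈ M}
  zero_mem' := ⟨polar_zero_right _ _, fun s hu h => by
    convert one_mem M
    exact gl_ext fun x => by simp [ap_sg]⟩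
  add_mem' := by
    rintro a b ⟨ha, ha'⟩ ⟨hb, hb'⟩
    refine ⟨by rw [polar_add_right, ha, hb, add_zero], fun s hu h => ?_⟩
    convert mul_mem (ha' s hu (by simp [polar_smul_right, ha]))
      (hb' s hu (by simp [polar_smul_right, hb])) using 1
    rw [sg_mul_same_centre]
    exact sg_congr rfl (smul_add s a b) _ _
  smul_mem' := by
    rintro c a ⟨ha, ha'⟩
    refine ⟨by simp [polar_smul_right, ha], fun s hu h => ?_⟩
    convert ha' (s * c) hu (by simp [polar_smul_right, ha]) using 1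
    exact sg_congr rfl (smul_smul s c a) _ _

omit hQ hn in
lemma mem_Y_symm {u z : ι → F} (hu : Q u = 0) (hz : Q z = 0) (h : z ∈ Y (Q := Q) M u) :
    u ∈ Y (Q := Q) M z := by
  obtain ⟨h0, h'⟩ := h
  refine ⟨by rw [polar_comm, h0], fun s _ hs => ?_⟩
  rw [sg_swap hu hz s hs (by simp [polar_smul_right, h0])]
  exact h' _ hu _

include hM hR

lemma root_smul_mem {u z y : ι → F} (hu : Q u = 0) (hz : Q z = 0) (h1 : polar Q u z = 0)
    (h2 : polar Q u (S.D z) = 0) (hy : y ∈ Y (Q := Q) M u) :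
    polar Q y z • S.D z - polar Q y (S.D z) • z ∈ Y (Q := Q) M u := by
  have hzz : polar Q z ((1 : F) • S.D z) = 0 := by simp [S.self, hz]
  set k := sg Q z ((1 : F) • S.D z) hz hzz with hk
  have hkM : k ∈ M := S.root_mem hQ hn hR hz 1 hzz
  have hku : ap k u = u := ap_sg_fix hz hzz h1 (by simp [h2])
  have hky : ap k y = y + (polar Q y z • S.D z - polar Q y (S.D z) • z) := by
    rw [hk, ap_sg]
    simp [S.map, hz]
    abel
  obtain ⟨hy0, hy'⟩ := hy
  have hmem : ap k y ∈ Y (Q := Q) M u := by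
    refine ⟨by rw [← hku, polar_ap (hM hkM), hy0], fun s _ hs => ?_⟩
    have h3 := mul_mem (mul_mem hkM (hy' s hu (by simp [polar_smul_right, hy0]))) (inv_mem hkM)
    rw [conj_sg (hM hkM)] at h3
    convert h3 using 1
    exact sg_congr hku.symm (by rw [ap_smul]) _ _
  rw [hky] at hmem
  simpa using (Y (Q := Q) M u).sub_mem hmem ⟨hy0, hy'⟩

omit hQ hn hM hR in
lemma exists_functional_two {U : Submodule F (ι → F)} {a b : ι → F} (ha : a ∉ U) (hb : b ∉ U) :
    ∃ θ : (ι → F) →ₗ[F] F, (∀ x ∈ U, θ x = 0) ∧ θ a ≠ 0 ∧ θ b ≠ 0 := by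
  obtain ⟨θ₁, h₁, h₁'⟩ := exists_functional_eq_one ha
  obtain ⟨θ₂, h₂, h₂'⟩ := exists_functional_eq_one hb
  by_cases e1 : θ₁ b = 0
  · by_cases e2 : θ₂ a = 0
    · exact ⟨θ₁ + θ₂, fun x hx => by simp [h₁ x hx, h₂ x hx],
        by simp [h₁', e2], by simp [h₂', e1]⟩
    · exact ⟨θ₂, h₂, e2, by simp [h₂']⟩
  · exact ⟨θ₁, h₁, by simp [h₁'], e1⟩

omit hQ hn hM hR in
lemma dual_notMem {u w : ι → F} (hwL : w ∉ S.L u) :
    S.t • w - S.D w ∉ Submodule.span F (Set.range ![u, S.D u, w]) := by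
  intro h
  rw [Submodule.mem_span_range_iff_exists_fun] at h
  obtain ⟨c, hc⟩ := h
  simp [Fin.sum_univ_three] at hc
  refine hwL (S.mem_of_sub_mem (S.t - c 2) (S.mem_L.mpr ⟨-c 0, -c 1, ?_⟩))
  linear_combination (norm := module) -hc

lemma perp_inf_le {u w : ι → F} (hu : Q u = 0) (hQw : Q w = 0) (hw : w ∈ Y (Q := Q) M u) (hwL : w ∉ S.L u)
    {y : ι → F} (h1 : polar Q y u = 0) (h2 : polar Q y (S.D u) = 0) (h3 : polar Q y w = 0) :
    y ∈ Y (Q := Q) M u := by
  by_contra hy
  obtain ⟨φ, hφ, hφy⟩ := exists_functional_eq_one hy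
  obtain ⟨x, hx⟩ := exists_eq_polar hQ φ
  have hxU : x ∉ Submodule.span F (Set.range ![u, S.D u, w]) := by
    intro h
    rw [Submodule.mem_span_range_iff_exists_fun] at h
    obtain ⟨c, hc⟩ := h
    have := hx y
    rw [← hc, hφy] at this
    simp [Fin.sum_univ_three, polar_add_right, polar_smul_right, h1, h2, h3] at this
  obtain ⟨θ, hθU, hθx₂, hθx⟩ := exists_functional_two (S.dual_notMem hwL) hxU
  obtain ⟨z, hQz, hz⟩ := exists_singular_val_five hQ hn ![u, S.D u, w, S.t • w - S.D w, x] θ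
    (i := 3) (S.value_dual hQw) hθx₂
  have hθ0 : ∀ i, θ (![u, S.D u, w] i) = 0 := fun i => hθU _ (Submodule.subset_span ⟨i, rfl⟩)
  have z1 : polar Q z u = 0 := (hz 0).trans (hθ0 0)
  have z2 : polar Q z (S.D u) = 0 := (hz 1).trans (hθ0 1)
  have z3 : polar Q z w = 0 := (hz 2).trans (hθ0 2)
  have z4 : polar Q z (S.t • w - S.D w) = θ (S.t • w - S.D w) := hz 3
  have z5 : polar Q z x = θ x := hz 4
  have hmem := S.root_smul_mem hQ hn hM hR hu hQz (by rw [polar_comm]; exact z1)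
    (S.polar_D_zero z1 z2) hw
  rw [polar_comm Q w z, z3, zero_smul, zero_sub, Submodule.neg_mem_iff,
    Submodule.smul_mem_iff _ (by rw [polar_comm, S.adj, z4]; exact hθx₂)] at hmem
  exact hθx (by rw [← z5, hx]; exact hφ z hmem)

/-- One pair gives the orthogonal complement of the line. -/
lemma perp_le {u w : ι → F} (hu : Q u = 0) (hQw : Q w = 0) (hw : w ∈ Y (Q := Q) M u) (hwL : w ∉ S.L u)
    {y : ι → F} (hy1 : polar Q y u = 0) (hy2 : polar Q y (S.D u) = 0) : y ∈ Y (Q := Q) M u := by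
  obtain ⟨e, he1, he2, heU⟩ : ∃ e, polar Q e u = 0 ∧ polar Q e (S.D u) = 0 ∧
      e ∉ Submodule.span F (Set.range ![u, S.D u, w]) := by
    obtain ⟨e, he, -, hee⟩ := exists_singular_off (Q := Q) ![u, S.D u, w] (by omega)
    exact ⟨e, hee 0, hee 1, he⟩
  obtain ⟨θ, hθ, hθ1, hθe⟩ := exists_functional_two (S.dual_notMem hwL) heU
  obtain ⟨z, hQz, hz⟩ := exists_singular_val_five hQ hn ![u, S.D u, w, S.t • w - S.D w, e] θ
    (i := 3) (S.value_dual hQw) hθ1
  have hθ0 : ∀ i, θ (![u, S.D u, w] i) = 0 := fun i => hθ _ (Submodule.subset_span ⟨i, rfl⟩)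
  have z1 : polar Q z u = 0 := (hz 0).trans (hθ0 0)
  have z2 : polar Q z (S.D u) = 0 := (hz 1).trans (hθ0 1)
  have z3 : polar Q z w = 0 := (hz 2).trans (hθ0 2)
  have z4 : polar Q (S.D z) w ≠ 0 := by
    rw [S.adj, show polar Q z (S.t • w - S.D w) = θ (S.t • w - S.D w) from hz 3]; exact hθ1
  have hzu : z ∉ S.L u := fun h => by
    obtain ⟨a, b, hab⟩ := S.mem_L.mp h
    refine hθe ((hz 4).symm.trans ?_)
    show polar Q z e = 0
    rw [← hab, polar_add_left, polar_smul_left, polar_smul_left, polar_comm Q u e,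
      polar_comm Q (S.D u) e, he1, he2]
    simp
  have hwU : w ∉ Submodule.span F (Set.range ![u, S.D u, z]) := by
    intro h
    rw [Submodule.mem_span_range_iff_exists_fun] at h
    obtain ⟨c, hc⟩ := h
    refine z4 ?_
    have e1 : polar Q (S.D z) u = 0 := by
      rw [S.adj, polar_sub_right, polar_smul_right, z1, z2]; simp
    have e2 : polar Q (S.D z) z = 0 := by rw [polar_comm, S.self, hQz, mul_zero]
    rw [← hc]
    simp [Fin.sum_univ_three, polar_add_right, polar_smul_right, S.polar_map, z1, e1, e2]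
  obtain ⟨φ, hφ, hφw⟩ := exists_functional_eq_one hwU
  obtain ⟨p, hp⟩ := exists_eq_polar hQ φ
  have p1 : polar Q p u = 0 := by
    rw [polar_comm, hp]; exact hφ _ (Submodule.subset_span ⟨0, rfl⟩)
  have p2 : polar Q p (S.D u) = 0 := by
    rw [polar_comm, hp]; exact hφ _ (Submodule.subset_span ⟨1, rfl⟩)
  have p3 : polar Q p z = 0 := by
    rw [polar_comm, hp]; exact hφ _ (Submodule.subset_span ⟨2, rfl⟩)
  have p4 : polar Q p w = 1 := by rw [polar_comm, hp, hφw]
  have hzY := S.perp_inf_le hQ hn hM hR hu hQw hw hwL z1 z2 z3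
  have hpY := S.perp_inf_le hQ hn hM hR hu hQz hzY hzu p1 p2 p3
  have := S.perp_inf_le hQ hn hM hR hu hQw hw hwL (y := y - polar Q y w • p)
    (by simp [polar_sub_left, polar_smul_left, hy1, p1])
    (by simp [polar_sub_left, polar_smul_left, hy2, p2])
    (by simp [polar_sub_left, polar_smul_left, p4])
  simpa using (Y (Q := Q) M u).add_mem this ((Y (Q := Q) M u).smul_mem (polar Q y w) hpY)

include hM hR in
/-- A group outside the normaliser of the field contains the whole of `omegaGL`. -/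
theorem le_of_not_normalize
    (hnot : ∃ g ∈ M, ¬ ∃ a b : F, ∀ x, ap g (S.D x) = a • ap g x + b • S.D (ap g x)) :
    Cfsg.Geo.omegaGL (⇑Q) ≤ M := by
  obtain ⟨g, hg, hgn⟩ := hnot
  -- a first pair
  obtain ⟨v, hv, hvL⟩ : ∃ v, Q v = 0 ∧ ap g (S.D v) ∉ S.L (ap g v) := by
    by_contra h
    push Not at h
    obtain ⟨a, b, hab⟩ := S.eq_combination hQ (by omega)
      (P := (apEquiv g).toLinearMap ∘ₗ S.D ∘ₗ (apEquiv g⁻¹).toLinearMap) fun x hx => by
        have := h (ap g⁻¹ x) (by rw [mem_isometryGroup_iff.mp (hM (inv_mem hg)), hx])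
        rw [ap_ap_inv] at this
        simpa using this
    exact hgn ⟨a, b, fun x => by simpa [ap_inv_ap] using hab (ap g x)⟩
  set u := ap g v with hu'
  have hu : Q u = 0 := by rw [hu', mem_isometryGroup_iff.mp (hM hg), hv]
  have hDv : Q (S.D v) = 0 := by rw [S.map, hv, mul_zero]
  have hw : ap g (S.D v) ∈ Y (Q := Q) M u := by
    refine ⟨by rw [hu', polar_ap (hM hg), S.self, hv, mul_zero], fun s _ hs => ?_⟩
    have h0 : polar Q v (s • S.D v) = 0 := by simp [polar_smul_right, S.self, hv]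
    have h3 := mul_mem (mul_mem hg (S.root_mem hQ hn hR hv s h0)) (inv_mem hg)
    rw [conj_sg (hM hg)] at h3
    convert h3 using 1
    exact sg_congr rfl (ap_smul g s _).symm _ _
  have hu0 : u ≠ 0 := fun h => hvL (by
    have hv0 : v = 0 := ap_injective g (by rw [← hu', h, ap_zero])
    rw [hv0, map_zero, ap_zero]
    exact Submodule.zero_mem _)
  -- all pairs inside the orthogonal of a line
  have step : ∀ a z, Q a = 0 → a ≠ 0 → Q z = 0 → z ≠ 0 → z ∉ S.L a →
      polar Q z a = 0 → polar Q z (S.D a) = 0 →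
      (∀ y, polar Q y a = 0 → polar Q y (S.D a) = 0 → y ∈ Y (Q := Q) M a) →
      ∀ y, polar Q y z = 0 → polar Q y (S.D z) = 0 → y ∈ Y (Q := Q) M z := by
    intro a z ha ha0 hz hz0 hzL h1 h2 hY y hy1 hy2
    exact S.perp_le hQ hn hM hR hz ha (mem_Y_symm ha hz (hY z h1 h2))
      (fun h => hzL (S.mem_L_symm ha0 h)) hy1 hy2
  have hu_full : ∀ y, polar Q y u = 0 → polar Q y (S.D u) = 0 → y ∈ Y (Q := Q) M u :=
    fun y => S.perp_le hQ hn hM hR hu (by rw [mem_isometryGroup_iff.mp (hM hg), hDv]) hw hvL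
  have hperp : ∀ x, Q x = 0 → x ≠ 0 →
      ∀ y, polar Q y x = 0 → polar Q y (S.D x) = 0 → y ∈ Y (Q := Q) M x := by
    intro x hx hx0
    by_cases hxu : polar Q x u = 0 ∧ polar Q x (S.D u) = 0
    · by_cases hxL : x ∈ S.L u
      · obtain ⟨z, hz, hQz, hzp⟩ := exists_singular_off (Q := Q) ![u, S.D u] (by omega)
        have hle : ∀ y ∈ S.L u, polar Q z y = 0 := fun y hy => by
          obtain ⟨a, b, rfl⟩ := S.mem_L.mp hy
          rw [polar_add_right, polar_smul_right, polar_smul_right,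
            show polar Q z u = 0 from hzp 0, show polar Q z (S.D u) = 0 from hzp 1]
          simp
        have hz0 : z ≠ 0 := fun h => hz (h ▸ Submodule.zero_mem _)
        exact step z x hQz hz0 hx hx0 (fun h => hz (S.L_le hxL (S.mem_L_symm hx0 h)))
          (by rw [polar_comm]; exact hle x hxL) (S.polar_D_zero (hle x hxL) (hle _ (S.D_mem hxL)))
          (step u z hu hu0 hQz hz0 hz (hzp 0) (hzp 1) hu_full)
      · exact step u x hu hu0 hx hx0 hxL hxu.1 hxu.2 hu_full
    obtain ⟨z, hz, hQz, hzp⟩ : ∃ z, z ∉ Submodule.span F (Set.range ![u, S.D u, x, S.D x]) ∧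
        Q z = 0 ∧ ∀ i, polar Q z (![u, S.D u, x, S.D x] i) = 0 := by
      rcases not_and_or.mp hxu with h | h
      · exact exists_singular_off_four hn _ (i := 2) (j := 0) h
      · exact exists_singular_off_four hn _ (i := 2) (j := 1) h
    have hz1 : z ∉ S.L u := fun h => hz (Submodule.span_mono (by
      rintro _ ⟨i, rfl⟩; fin_cases i
      · exact ⟨0, rfl⟩
      · exact ⟨1, rfl⟩) h)
    have hz2 : z ∉ S.L x := fun h => hz (Submodule.span_mono (by
      rintro _ ⟨i, rfl⟩; fin_cases i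
      · exact ⟨2, rfl⟩
      · exact ⟨3, rfl⟩) h)
    have hz0 : z ≠ 0 := fun h => hz (h ▸ Submodule.zero_mem _)
    exact step z x hQz hz0 hx hx0 (fun h => hz2 (S.mem_L_symm hx0 h))
      (by rw [polar_comm]; exact hzp 2) (S.polar_D_zero (hzp 2) (hzp 3))
      (step u z hu hu0 hQz hz0 hz1 (hzp 0) (hzp 1) hu_full)
  -- every singular vector is full
  refine Full.of_forall hQ (by omega) fun x hx hx' a ha => ?_
  by_cases hx0 : x = 0
  · convert one_mem M
    exact gl_ext fun y => by subst hx0; simp [ap_sg]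
  suffices hY : a ∈ Y (Q := Q) M x by
    have := hY.2 1 hx' (by simpa using ha)
    rwa [sg_congr rfl (one_smul F a) hx' (by simpa using ha)] at this
  have hDx : S.D x ∉ Submodule.span F (Set.range ![x]) := by
    rw [Submodule.mem_span_range_iff_exists_fun]
    rintro ⟨c, hc⟩
    exact S.irred x hx0 (c 0) (by simpa using hc.symm)
  obtain ⟨θ, hθ, hθ1⟩ := exists_functional_eq_one hDx
  obtain ⟨p, hQp, hp⟩ := exists_singular_val hQ ![x, S.D x] θ (by omega)
  have p1 : polar Q p x = 0 := (hp 0).trans (hθ _ (Submodule.subset_span ⟨0, rfl⟩))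
  have p2 : polar Q p (S.D x) = 1 := (hp 1).trans hθ1
  obtain ⟨w, hwU, hQw, hwp⟩ := exists_singular_off_four (Q := Q) hn ![x, S.D x, p, S.D p]
    (i := 2) (j := 1) (by simp [p2])
  obtain ⟨θ', hθ', hθ1'⟩ := exists_functional_eq_one hwU
  obtain ⟨y, hQy, hy⟩ := exists_singular_val_five hQ hn ![x, S.D x, p, S.D p, w] θ'
    (i := 4) hQw (by simp [hθ1'])
  have hθ0 : ∀ i, θ' (![x, S.D x, p, S.D p] i) = 0 := fun i =>
    hθ' _ (Submodule.subset_span ⟨i, rfl⟩)
  have y1 : polar Q y x = 0 := (hy 0).trans (hθ0 0)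
  have y2 : polar Q y (S.D x) = 0 := (hy 1).trans (hθ0 1)
  have y3 : polar Q y p = 0 := (hy 2).trans (hθ0 2)
  have y5 : polar Q y w = 1 := (hy 4).trans hθ1'
  have hp0 : p ≠ 0 := fun h => by rw [h] at p2; simp at p2
  obtain ⟨hpw, hpw'⟩ := hperp p hQp hp0 w (hwp 2) (hwp 3)
  have hpw1 : polar Q p ((1 : F) • w) = 0 := by simpa using hpw
  set b := sg Q p ((1 : F) • w) hQp hpw1 with hb
  have hbM : b ∈ M := hpw' 1 hQp hpw1
  have hbx : ap b x = x := ap_sg_fix hQp hpw1 (by rw [polar_comm, p1])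
    (by rw [one_smul, polar_comm]; exact hwp 0)
  have hby : ap b y = y - p := by
    rw [hb, ap_sg, one_smul]
    simp [y3, y5]
  have hyY : y - p ∈ Y (Q := Q) M x := by
    obtain ⟨h0, h'⟩ := hperp x hx hx0 y y1 y2
    refine ⟨by rw [← hby, ← hbx, polar_ap (hM hbM), h0], fun s _ hs => ?_⟩
    have h3 := mul_mem (mul_mem hbM (h' s hx (by simp [polar_smul_right, h0]))) (inv_mem hbM)
    rw [conj_sg (hM hbM)] at h3
    convert h3 using 1
    exact sg_congr hbx.symm (by rw [ap_smul, hby]) _ _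
  have ha' : polar Q a x = 0 := by rw [polar_comm, ha]
  set c := polar Q a (S.D x) with hc
  have := hperp x hx hx0 (a + c • (y - p))
    (by simp [polar_add_left, polar_smul_left, polar_sub_left, y1, p1, ha'])
    (by simp [polar_add_left, polar_smul_left, polar_sub_left, y2, p2, hc])
  simpa using (Y (Q := Q) M x).sub_mem this ((Y (Q := Q) M x).smul_mem c hyY)

omit hM hR in
/-- Some element of `omegaGL` does not normalise the field. -/
theorem exists_not_normalize : ∃ g ∈ Cfsg.Geo.omegaGL (⇑Q),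
    ¬ ∃ a b : F, ∀ x, ap g (S.D x) = a • ap g x + b • S.D (ap g x) := by
  obtain ⟨x, hx0, hQx⟩ : ∃ x : ι → F, x ≠ 0 ∧ Q x = 0 := by
    obtain ⟨z, hz, hQz, -⟩ := exists_singular_off (Q := Q) (fun i : Fin 0 => (Fin.elim0 i : ι → F))
      (by omega)
    exact ⟨z, fun h => hz (h ▸ Submodule.zero_mem _), hQz⟩
  have hDx : S.D x ∉ Submodule.span F (Set.range ![x]) := by
    rw [Submodule.mem_span_range_iff_exists_fun]
    rintro ⟨c, hc⟩
    exact S.irred x hx0 (c 0) (by simpa using hc.symm)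
  obtain ⟨θ, hθ, hθ1⟩ := exists_functional_eq_one hDx
  obtain ⟨p, hQp, hp⟩ := exists_singular_val hQ ![x, S.D x] θ (by omega)
  have p1 : polar Q p x = 0 := (hp 0).trans (hθ _ (Submodule.subset_span ⟨0, rfl⟩))
  have p2 : polar Q p (S.D x) = 1 := (hp 1).trans hθ1
  obtain ⟨w, hwU, hQw, hwp⟩ := exists_singular_off_four (Q := Q) hn ![x, S.D x, p, S.D p]
    (i := 2) (j := 1) (by simp [p2])
  have hpw : polar Q p w = 0 := by rw [polar_comm]; exact hwp 2
  refine ⟨_, sg_mem hQ (by omega) hQp hpw, ?_⟩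
  rintro ⟨a, b, hab⟩
  have h := hab x
  have e1 : polar Q (S.D x) w = 0 := by rw [polar_comm]; exact hwp 1
  rw [ap_sg_fix hQp hpw (x := x) (by rw [polar_comm, p1]) (by rw [polar_comm]; exact hwp 0), ap_sg,
    polar_comm Q (S.D x) p, p2, e1, hQw] at h
  refine hwU (Submodule.span_mono (s := Set.range ![x, S.D x]) (by
      rintro _ ⟨i, rfl⟩; fin_cases i
      · exact ⟨0, rfl⟩
      · exact ⟨1, rfl⟩) (S.mem_L.mpr ⟨a, b - 1, ?_⟩))
  linear_combination (norm := module) -h

end QuadExtData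

end CfsgLib.Geometric.Orth
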