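import Cfsg.Agent.Lib.Geometric.Orth.DecompLink

/-!
In odd characteristic the stabiliser in `omegaGL` of an orthogonal decomposition into isometric
members of dimension at least three is maximal.
-/

namespace CfsgLib.Geometric.Orth

open Matrix QuadraticMap CfsgLib.ClassicalForms

variable {ι : Type} [Fintype ι] [DecidableEq ι] {F : Type*} [Field F] [Finite F]
variable {Q : QuadraticForm F (ι → F)} {t k : ℕ} {D : Fin t → Submodule F (ι → F)}
variable (hQ : Nondeg Q) (h2 : (2 : F) ≠ 0) (hn : 5 ≤ Fintype.card ι)
  (hD : Cfsg.Geo.IsOrthogonalMDecomposition (⇑Q) k D) (hk : 3 ≤ k)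
  (hex : Nat.card F ≤ 3 → 4 ≤ k)

local notation "cp" => Decomp.comp hD.decomp.decomp

include hQ h2 hD hk

/-- An isometry moving the decomposition moves some singular vector of a member out of all
members. -/
lemma exists_singular_moved {g : GL ι F} (hg : g ∈ Cfsg.isometryGroup F (⇑Q))
    (hstab : g ∉ Cfsg.Geo.decompositionStabilizer D) :
    ∃ l, ∃ u ∈ D l, u ≠ 0 ∧ Q u = 0 ∧ ∀ r, ap g u ∉ D r := by
  classical
  by_contra hall
  push Not at hall
  have key : ∀ l, ∃ r, ∀ x ∈ D l, ap g x ∈ D r := by
    intro l
    have hW := hD.decomp.nondegenerate l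
    have hd : 3 ≤ Module.finrank F (D l) := by rw [hD.decomp.decomp.finrank_eq]; exact hk
    obtain ⟨e, he, he0, hQe⟩ := exists_singular (Q := Q) h2 hd
    obtain ⟨r, hr⟩ := hall l e he he0 hQe
    -- singular vectors of the member pairing with `e` follow it
    have hfol : ∀ s ∈ D l, Q s = 0 → polar Q e s ≠ 0 → ap g s ∈ D r := by
      intro s hs hQs hes
      obtain ⟨r', hr'⟩ := hall l s hs (fun h => hes (by rw [h, polar_zero_right])) hQs
      by_cases hrr : r' = r
      · rw [← hrr]; exact hr'
      · exact absurd (by rw [← polar_ap hg]; exact orth_apply_blocks hD (Ne.symm hrr) hr hr') hes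
    obtain ⟨f, hf, hQf, hef⟩ := exists_partner_in hW he he0 hQe
    have hfe : polar Q f e = 1 := by rw [polar_comm, hef]
    have hgf := hfol f hf hQf (by rw [hef]; exact one_ne_zero)
    -- anisotropic vectors orthogonal to the pair
    have haniso : ∀ y ∈ D l, polar Q e y = 0 → polar Q f y = 0 → Q y ≠ 0 → ap g y ∈ D r := by
      intro y hy hey hfy hQy
      have h1 := hfol (e + y - Q y • f)
        ((D l).sub_mem ((D l).add_mem he hy) ((D l).smul_mem _ hf))
        (by
          rw [map_sub_eq, QuadraticMap.map_add (⇑Q), QuadraticMap.map_smul, polar_smul_right,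
            polar_add_left, hef, polar_comm Q y f, hfy, hQe, hQf, hey]
          simp)
        (by
          rw [polar_sub_right, polar_add_right, polar_smul_right, polar_self_mul, hQe, hey, hef]
          simpa using hQy)
      rw [ap_sub, ap_add, ap_smul] at h1
      have h := (D r).add_mem ((D r).sub_mem h1 hr) ((D r).smul_mem (Q y) hgf)
      convert h using 1
      abel
    refine ⟨r, fun x hx => ?_⟩
    set u := x - polar Q x f • e - polar Q x e • f
    have hu : u ∈ D l := (D l).sub_mem ((D l).sub_mem hx ((D l).smul_mem _ he)) ((D l).smul_mem _ hf)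
    have hfu : polar Q f u = 0 := by
      rw [polar_sub_right, polar_sub_right, polar_smul_right, polar_smul_right, hfe, polar_self_mul,
        hQf, polar_comm Q f x]
      simp
    have heu : polar Q e u = 0 := by
      rw [polar_sub_right, polar_sub_right, polar_smul_right, polar_smul_right, hef, polar_self_mul,
        hQe, polar_comm Q e x]
      simp
    have hgu : ap g u ∈ D r := by
      by_cases hQu : Q u = 0
      · obtain ⟨y, hy, hey, hQy⟩ := exists_aniso_perp h2 hW hd he he0 hQe
        set y' := y - polar Q y f • e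
        have hy' : y' ∈ D l := (D l).sub_mem hy ((D l).smul_mem _ he)
        have hfy' : polar Q f y' = 0 := by
          rw [polar_sub_right, polar_smul_right, hfe, smul_eq_mul, mul_one, polar_comm Q f y,
            sub_self]
        have hey' : polar Q e y' = 0 := by
          rw [polar_sub_right, polar_smul_right, hey, polar_self_mul, hQe]; simp
        have hQy' : Q y' = Q y := by
          rw [map_sub_eq, QuadraticMap.map_smul, polar_smul_right, hQe, polar_comm Q y e, hey]
          simp
        obtain ⟨c, hc, hQc⟩ : ∃ c : F, c ≠ 0 ∧ Q (u + c • y') ≠ 0 := by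
          by_cases h : Q (u + (1 : F) • y') = 0
          · refine ⟨2, h2, fun h' => ?_⟩
            rw [QuadraticMap.map_add (⇑Q), QuadraticMap.map_smul, polar_smul_right, hQu] at h h'
            simp only [smul_eq_mul] at h h'
            exact mul_ne_zero h2 (hQy'.symm ▸ hQy) (by linear_combination h' - 2 * h)
          · exact ⟨1, one_ne_zero, h⟩
        have h1 := haniso _ ((D l).add_mem hu ((D l).smul_mem c hy'))
          (by rw [polar_add_right, polar_smul_right, heu, hey', smul_zero, add_zero])
          (by rw [polar_add_right, polar_smul_right, hfu, hfy', smul_zero, add_zero]) hQc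
        have h2' := haniso y' hy' hey' hfy' (hQy'.symm ▸ hQy)
        rw [ap_add, ap_smul] at h1
        simpa using (D r).sub_mem h1 ((D r).smul_mem c h2')
      · exact haniso u hu heu hfu hQu
    rw [ap_sub, ap_sub, ap_smul, ap_smul] at hgu
    have h := (D r).add_mem ((D r).add_mem hgu ((D r).smul_mem (polar Q x e) hgf))
      ((D r).smul_mem (polar Q x f) hr)
    convert h using 1
    abel
  choose π hπ using key
  have hmap : ∀ l, (D l).map (apEquiv g).toLinearMap = D (π l) := fun l =>
    Submodule.eq_of_le_of_finrank_eq (fun _ ⟨x, hx, e⟩ => e ▸ hπ l x hx)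
      ((LinearEquiv.finrank_map_eq _ _).trans (by simp only [hD.decomp.decomp.finrank_eq]))
  have hinj : Function.Injective π := fun a b hab => by
    by_contra hne
    obtain ⟨x, hx, hx0⟩ := Decomp.exists_ne_zero_mem hD.decomp.decomp a
    obtain ⟨y, hy, hyx⟩ := ((hmap b).trans (congrArg D hab.symm)).ge (hπ a x hx)
    have hxy : y = x := ap_injective g hyx
    subst hxy
    have h1 := Decomp.comp_of_mem hD.decomp.decomp (i := a) hx
    rw [Decomp.comp_of_mem hD.decomp.decomp (i := a) hy, if_pos rfl, if_neg hne] at h1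
    exact hx0 h1.symm
  exact hstab (mem_decompStab hD.decomp.decomp
    (π := Equiv.ofBijective π (Finite.injective_iff_bijective.1 hinj)) hπ)

include hn hex

/-- The stabiliser in `omegaGL` of an orthogonal decomposition into members of dimension at least
three is maximal. -/
theorem orthDecomp_isMaximalIn :
    Cfsg.Geo.IsMaximalIn (Cfsg.Geo.omegaGL (⇑Q))
      (Cfsg.Geo.decompositionStabilizer D ⊓ Cfsg.Geo.omegaGL (⇑Q)) := by
  classical
  refine ⟨lt_of_le_of_ne inf_le_right fun he => ?_, fun M hHM hMS => ?_⟩
  · have h2t := hD.decomp.decomp.two_le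
    set a : Fin t := ⟨0, by omega⟩
    set b : Fin t := ⟨1, by omega⟩
    have hab : a ≠ b := by simp [a, b, Fin.ext_iff]
    obtain ⟨e, he', he0, hQe⟩ := exists_singular (Q := Q) h2 (W := D a)
      (by rw [hD.decomp.decomp.finrank_eq]; exact hk)
    obtain ⟨f, hf, hQf, hef⟩ := exists_partner_in (hD.decomp.nondegenerate a) he' he0 hQe
    obtain ⟨y, hy, hy0⟩ := Decomp.exists_ne_zero_mem hD.decomp.decomp b
    have hey := orth_apply_blocks hD hab he' hy
    have hm : sg Q e y hQe hey ∈ Cfsg.Geo.decompositionStabilizer D ⊓ Cfsg.Geo.omegaGL (⇑Q) := by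
      rw [he]; exact sg_mem hQ hn hQe hey
    obtain ⟨π, hπ⟩ := hm.1
    have h1 : ap (sg Q e y hQe hey) f ∈ D (π a) := by rw [← hπ a]; exact ⟨f, hf, rfl⟩
    rw [ap_sg, polar_comm Q f e, hef, one_smul, orth_apply_blocks hD hab hf hy, zero_add,
      mul_one] at h1
    have ha := Decomp.comp_of_mem hD.decomp.decomp (i := a) h1
    have hb := Decomp.comp_of_mem hD.decomp.decomp (i := b) h1
    rw [map_sub, map_add, map_smul, Decomp.comp_of_mem _ hf, Decomp.comp_of_mem _ hy,
      Decomp.comp_of_mem _ he'] at ha hb
    simp only [if_pos, if_neg hab, add_zero] at ha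
    simp only [if_pos, if_neg hab.symm, zero_add, smul_zero, sub_zero] at hb
    by_cases hπb : b = π a
    · rw [if_neg fun h => hab (h.trans hπb.symm), sub_eq_zero] at ha
      have := congrArg (fun z => polar Q z e) ha
      simp [polar_smul_left, polar_self_mul, hQe, polar_comm Q f e, hef] at this
    · rw [if_neg hπb] at hb
      exact hy0 hb
  by_cases hM : M ≤ Cfsg.Geo.decompositionStabilizer D
  · exact Or.inl (le_antisymm (le_inf hM hMS) hHM)
  obtain ⟨g, hgM, hg⟩ := SetLike.not_le_iff_exists.mp hM
  have hMI : M ≤ Cfsg.isometryGroup F (⇑Q) := hMS.trans omegaGL_le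
  obtain ⟨l, u, hu, hu0, hQu, hgu⟩ := exists_singular_moved hQ h2 hD hk (hMI hgM) hg
  obtain ⟨y, hy, huy, hQy⟩ := exists_aniso_perp h2 (hD.decomp.nondegenerate l)
    (by rw [hD.decomp.decomp.finrank_eq]; exact hk) hu hu0 hQu
  have hin := (inn_block hD hQ hn hHM hu hy hQu huy).conj hMI hgM
  refine Or.inr (le_antisymm hMS (omega_le_of_mixed hQ h2 hn hD hk hHM hMI
    (mixed_of_inn hQ h2 hn hD hk hex hHM hMI hin hgu fun h => ?_)))
  obtain ⟨c, hc⟩ := Submodule.mem_span_singleton.1 h
  rw [← ap_smul] at hc
  have := ap_injective g hc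
  rw [← this, QuadraticMap.map_smul, hQu, smul_zero] at hQy
  exact hQy rfl

end CfsgLib.Geometric.Orth

namespace CfsgLib.Geometric.Orth

open CfsgLib.ClassicalForms

variable {ι : Type} [Fintype ι] [DecidableEq ι] {F : Type*} [Field F]

omit [DecidableEq ι] in
/-- The dimension is the product of the number of members and their dimension. -/
lemma decomp_card_eq {t k : ℕ} {D : Fin t → Submodule F (ι → F)}
    (hD : Cfsg.Geo.IsMDecomposition k D) : Fintype.card ι = t * k := by
  classical
  refine le_antisymm (Decomp.card_le hD) ?_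
  let Ψ : ((i : Fin t) → D i) →ₗ[F] (ι → F) := ∑ i, (D i).subtype.comp (LinearMap.proj i)
  have hΨ : ∀ z, Ψ z = ∑ l, (z l : ι → F) := fun z => by simp [Ψ, LinearMap.sum_apply]
  have hinj : Function.Injective Ψ := fun x y h => funext fun i => Subtype.ext (by
    have := congrArg (Decomp.comp hD i) h
    rwa [hΨ, hΨ, Decomp.comp_sum_of_mem hD _ (fun l => (x l).2),
      Decomp.comp_sum_of_mem hD _ (fun l => (y l).2)] at this)
  have := LinearMap.finrank_le_finrank_of_injective hinj
  simpa [Module.finrank_fintype_fun_eq_card, Module.finrank_pi_fintype, hD.finrank_eq] using this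

lemma two_ne_zero_of_odd [Fintype F] (h : Odd (Fintype.card F)) : (2 : F) ≠ 0 := fun h2 => by
  have : (addOrderOf (1 : F)) ∣ 2 := addOrderOf_dvd_of_nsmul_eq_zero (by rw [two_nsmul, one_add_one_eq_two, h2])
  rcases (Nat.dvd_prime Nat.prime_two).1 this with h1 | h1
  · exact one_ne_zero (AddMonoid.addOrderOf_eq_one_iff.1 h1)
  · have h' : 2 ∣ Fintype.card F := h1 ▸ addOrderOf_dvd_card
    exact (Nat.not_even_iff_odd.2 h) (even_iff_two_dvd.2 h')

end CfsgLib.Geometric.Orth
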