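import Cfsg.Agent.Lib.Geometric.Orth.Frames
import Cfsg.Agent.Lib.Geometric.Tensor
import Cfsg.Agent.Lib.Geometric.UnitaryTensor
import Cfsg.Agent.Lib.Geometric.Symp

/-!
Over three elements a tensor factor carrying a symmetric form in dimension three has a canonical
frame, so the stabiliser of such a tensor decomposition is not maximal.
-/

namespace CfsgLib.Geometric.Orth

open Matrix QuadraticMap

/-- A bilinear form is given by its Gram matrix. -/
lemma bilinear_eq_formOfGram {κ : Type} [Fintype κ] [DecidableEq κ] {F : Type*} [Field F]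
    {f : (κ → F) → (κ → F) → F} (hf : Cfsg.Geo.IsBilinearForm f) (x y : κ → F) :
    f x y = Cfsg.Geo.formOfGram id (Cfsg.Geo.gramMatrix f) x y :=
  eq_formOfGram (σ := RingHom.id F) hf.add_left hf.smul_left
    (fun a b v => hf.add_right v a b) (fun c v a => hf.smul_right c v a) x y

variable {ι : Type} [Fintype ι] [DecidableEq ι] {F : Type*} [Field F] [Fintype F]
variable {n : ℕ}

/-- The frame of the factor of dimension three is permuted by the stabiliser. -/
theorem exists_frame (hq : Fintype.card F = 3) (e : ι ≃ Fin 3 × Fin n) (P : GL ι F)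
    {f : (ι → F) → (ι → F) → F} {f₁ : (Fin 3 → F) → (Fin 3 → F) → F}
    {f₂ : (Fin n → F) → (Fin n → F) → F} (hf₁ : Cfsg.Geo.IsSymmetricForm f₁) {c : F} (hc : c ≠ 0)
    (hform : ∀ x x' y y', f (Tensor.pt e P x y) (Tensor.pt e P x' y') = c * (f₁ x x' * f₂ y y'))
    (hf₂ : ∃ y y', f₂ y y' ≠ 0) :
    ∃ U : Fin 3 → Fin 3 → F, (∀ i j, i ≠ j → f₁ (U i) (U j) = 0) ∧ (∀ i, f₁ (U i) (U i) ≠ 0) ∧
      ∀ g ∈ Cfsg.Geo.tensorProductSubgroup 3 n e P,
        (∀ u v, f (ap g u) (ap g v) = f u v) →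
          g ∈ Cfsg.Geo.decompositionStabilizer (Tensor.slices e P U) := by
  classical
  have h2 := two_ne_zero_of_three hq
  have hb := hf₁.bilinear
  let Q₁ : QuadraticForm F (Fin 3 → F) := LinearMap.BilinMap.toQuadraticMap
    (LinearMap.mk₂ F f₁ hb.add_left hb.smul_left hb.add_right hb.smul_right)
  have hQ₁ : ∀ x, Q₁ x = f₁ x x := fun x => rfl
  have hp : ∀ x y, polar Q₁ x y = 2 * f₁ x y := by
    intro x y
    rw [polar, hQ₁, hQ₁, hQ₁, hb.add_left, hb.add_right, hb.add_right, hf₁.symm y x]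
    ring
  have hp0 : ∀ x y, polar Q₁ x y = 0 ↔ f₁ x y = 0 := fun x y => by
    rw [hp, mul_eq_zero, or_iff_right h2]
  have hW : Cfsg.Geo.IsNondegenerateOn (polar ⇑Q₁) (⊤ : Submodule F (Fin 3 → F)) := by
    intro w _ hw
    obtain ⟨⟨x, hx⟩, ⟨y, hy⟩⟩ := hf₁.nondegenerate w hw
    exact ⟨⟨x, trivial, fun h => hx ((hp0 _ _).mp h)⟩, ⟨y, trivial, fun h => hy ((hp0 _ _).mp h)⟩⟩
  obtain ⟨d, hd, ⟨u, -, hu⟩, hframe⟩ := exists_frame_value hq hW (Or.inr (by simp))
  have hframe' : ∀ x y, f₁ x x = d → f₁ y y = d → y = x ∨ y = -x ∨ f₁ y x = 0 := fun x y hx hy =>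
    (hframe x trivial y trivial hx hy).imp_right fun h => h.imp_right (hp0 y x).mp
  have hz0 : ∀ x, f₁ x 0 = 0 := fun x => by simpa using hb.smul_right 0 x 0
  -- two anisotropic vectors orthogonal to `u` with value `d`
  have hsq : ∀ x, f₁ x x ≠ 0 → f₁ x x = d ∨ f₁ x x = -d := fun x hx => by
    rcases sq_eq_one_of_card_le_three hq.le (div_ne_zero hx hd) with h | h
    · exact Or.inl ((div_eq_one_iff_eq hd).mp h)
    · exact Or.inr (by rw [div_eq_iff hd] at h; rw [h]; ring)
  have hperp0 : ∀ x w, f₁ x x = d → f₁ w x = 0 → f₁ w w = 0 → w = 0 := by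
    intro x w hx hwx hww
    have hxw : f₁ (x + w) (x + w) = d := by
      rw [hb.add_left, hb.add_right, hb.add_right, hf₁.symm x w, hwx, hx, hww]; ring
    rcases hframe' x (x + w) hx hxw with h | h | h
    · simpa using h
    · have h0 := congrArg (fun z => f₁ z x) h
      simp only [hb.add_left, hwx, hx, add_zero] at h0
      rw [show f₁ (-x) x = -d by simpa [hx] using hb.smul_left (-1) x x] at h0
      exact absurd h0 fun e => mul_ne_zero h2 hd (by linear_combination e)
    · rw [hb.add_left, hwx, hx, add_zero] at h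
      exact absurd h hd
  obtain ⟨y, -, hy0, hyu⟩ := exists_ne_zero_perp hq hW (by simp) u
  rw [hp0] at hyu
  have hy : f₁ y y ≠ 0 := fun h => hy0 (hperp0 u y hu hyu h)
  obtain ⟨z, hz0', hzu, hzy⟩ : ∃ z, z ≠ 0 ∧ f₁ z u = 0 ∧ f₁ z y = 0 := by
    let Φ : (Fin 3 → F) →ₗ[F] (Fin 2 → F) :=
      LinearMap.pi ![(LinearMap.mk₂ F f₁ hb.add_left hb.smul_left hb.add_right hb.smul_right).flip u,
        (LinearMap.mk₂ F f₁ hb.add_left hb.smul_left hb.add_right hb.smul_right).flip y]
    obtain ⟨v, hv, hv0⟩ := Submodule.exists_mem_ne_zero_of_ne_bot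
      (LinearMap.ker_ne_bot_of_finrank_lt (f := Φ) (by simp))
    exact ⟨v, hv0, congrFun hv 0, congrFun hv 1⟩
  have hz : f₁ z z ≠ 0 := fun h => hz0' (hperp0 u z hu hzu h)
  have hyz : f₁ (y + z) (y + z) = f₁ y y + f₁ z z := by
    rw [hb.add_left, hb.add_right, hb.add_right, hf₁.symm y z, hzy]; ring
  have hne : f₁ y y = -f₁ z z → False := fun h => by
    have h0 : y + z = 0 := hperp0 u (y + z) hu (by rw [hb.add_left, hyu, hzu, add_zero])
      (by rw [hyz, h]; ring)
    have h' := congrArg (fun w => f₁ w y) h0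
    simp only [hb.add_left, hzy, add_zero] at h'
    rw [hf₁.symm 0 y, hz0] at h'
    exact hy h'
  obtain ⟨v, w, hv, hw, hvu, hwu, hwv⟩ : ∃ v w, f₁ v v = d ∧ f₁ w w = d ∧ f₁ v u = 0 ∧
      f₁ w u = 0 ∧ f₁ w v = 0 := by
    rcases hsq y hy with h | h <;> rcases hsq z hz with h' | h'
    · exact ⟨y, z, h, h', hyu, hzu, hzy⟩
    · exact (hne (by rw [h, h']; ring)).elim
    · exact (hne (by rw [h, h'])).elim
    · refine ⟨y + z, y + (-1 : F) • z, ?_, ?_, ?_, ?_, ?_⟩
      · rw [hyz, h, h']; linear_combination -d * three_eq_zero hq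
      · rw [hb.add_left, hb.add_right, hb.add_right, hb.smul_left, hb.smul_right, hb.smul_left,
          hb.smul_right, hf₁.symm y z, hzy, h, h']
        linear_combination -d * three_eq_zero hq
      · rw [hb.add_left, hyu, hzu, add_zero]
      · rw [hb.add_left, hb.smul_left, hyu, hzu]; ring
      · rw [hb.add_left, hb.smul_left, hb.add_right, hb.add_right, hf₁.symm y z, hzy, h, h']; ring
  let U : Fin 3 → Fin 3 → F := ![u, v, w]
  have hU : ∀ i, f₁ (U i) (U i) = d := by intro i; fin_cases i <;> assumption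
  have hUo : ∀ i j, i ≠ j → f₁ (U i) (U j) = 0 := by
    intro i j hij
    fin_cases i <;> fin_cases j <;> first
      | exact absurd rfl hij
      | exact hvu
      | exact hwu
      | exact hwv
      | exact (hf₁.symm _ _).trans hvu
      | exact (hf₁.symm _ _).trans hwu
      | exact (hf₁.symm _ _).trans hwv
  have hspan : ∀ x, f₁ x x = d → ∃ i, x = U i ∨ x = -U i := by
    intro x hx
    by_contra h
    push Not at h
    have h0 : ∀ i, f₁ x (U i) = 0 := fun i =>
      ((hframe' (U i) x (hU i) hx).resolve_left (h i).1).resolve_left (h i).2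
    have hli : LinearIndependent F U := by
      rw [Fintype.linearIndependent_iff]
      intro g hg i
      let L : (Fin 3 → F) →ₗ[F] F :=
        (LinearMap.mk₂ F f₁ hb.add_left hb.smul_left hb.add_right hb.smul_right).flip (U i)
      have h1 := congrArg L hg
      rw [map_sum, Finset.sum_eq_single i (fun j _ hj => by
        simp [L, hUo j i hj]) (by simp)] at h1
      simpa [L, hU i, hd] using h1
    have hs := hli.span_eq_top_of_card_eq_finrank (by simp)
    have hx0 : ∀ z : Fin 3 → F, f₁ x z = 0 := by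
      intro z
      obtain ⟨g, rfl⟩ := Submodule.mem_span_range_iff_exists_fun (R := F) |>.mp
        (hs ▸ Submodule.mem_top : z ∈ Submodule.span F (Set.range U))
      let L : (Fin 3 → F) →ₗ[F] F :=
        LinearMap.mk₂ F f₁ hb.add_left hb.smul_left hb.add_right hb.smul_right x
      change L _ = 0
      rw [map_sum]
      exact Finset.sum_eq_zero fun i _ => by simp [L, h0 i]
    exact hd (hx ▸ hx0 x)
  refine ⟨U, hUo, fun i => (hU i).symm ▸ hd, fun g hg hgf => ?_⟩
  obtain ⟨a, b, hab⟩ := (Tensor.mem_iff e P g).mp hg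
  obtain ⟨y₁, y₂, hy12⟩ := hf₂
  have hmul : ∀ x x', f₁ (ap a x) (ap a x') * f₂ (ap b y₁) (ap b y₂) = f₁ x x' * f₂ y₁ y₂ := by
    intro x x'
    have := hgf (Tensor.pt e P x y₁) (Tensor.pt e P x' y₂)
    rw [hab, hab, hform, hform] at this
    exact mul_left_cancel₀ hc this
  set μ := f₂ (ap b y₁) (ap b y₂) with hμ
  have hμ0 : μ ≠ 0 := fun h => by
    have := hmul u u
    rw [h, mul_zero, show f₁ u u = d from hu] at this
    exact mul_ne_zero hd hy12 this.symm
  set lam := f₂ y₁ y₂ / μ with hlam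
  have hsim : ∀ x x', f₁ (ap a x) (ap a x') = lam * f₁ x x' := fun x x' => by
    rw [hlam, div_mul_eq_mul_div, eq_div_iff hμ0, hmul, mul_comm]
  have hlam1 : lam = 1 := by
    rcases sq_eq_one_of_card_le_three hq.le (div_ne_zero hy12 hμ0) with h | h
    · exact h
    exfalso
    have hv' : ∀ i, f₁ (ap a (U i)) (ap a (U i)) = -d := fun i => by
      rw [hsim, hU, hlam, h]; ring
    have ho : ∀ i j, i ≠ j → f₁ (ap a (U i)) (ap a (U j)) = 0 := fun i j hij => by
      rw [hsim, hUo i j hij, mul_zero]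
    have hval : ∀ i j, i ≠ j → f₁ (ap a (U i) + ap a (U j)) (ap a (U i) + ap a (U j)) = d :=
      fun i j hij => by
        rw [hb.add_left, hb.add_right, hb.add_right, hv', hv', ho i j hij, ho j i hij.symm]
        linear_combination -d * three_eq_zero hq
    have hpair : f₁ (ap a (U 0) + ap a (U 1)) (ap a (U 0) + ap a (U 2)) = -d := by
      rw [hb.add_left, hb.add_right, hb.add_right, hv', ho 0 2 (by decide), ho 1 0 (by decide),
        ho 1 2 (by decide)]
      ring
    rcases hframe' _ _ (hval 0 2 (by decide)) (hval 0 1 (by decide)) with h' | h' | h'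
    · rw [h', hval 0 2 (by decide)] at hpair
      exact mul_ne_zero h2 hd (by linear_combination hpair)
    · have h0 := congrArg (fun z => f₁ z (ap a (U 1))) h'
      rw [← neg_one_smul F (ap a (U 0) + ap a (U 2))] at h0
      simp only [hb.add_left, hb.smul_left, hv', ho 0 1 (by decide), ho 2 1 (by decide)] at h0
      exact hd (by linear_combination -h0)
    · rw [hpair] at h'
      exact hd (neg_eq_zero.mp h')
  have hk : ∀ i, ∃ k, ∃ r : F, r ≠ 0 ∧ ap a (U i) = r • U k := fun i => by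
    obtain ⟨k, hk⟩ := hspan (ap a (U i)) (by rw [hsim, hlam1, one_mul, hU])
    rcases hk with hk | hk
    · exact ⟨k, 1, one_ne_zero, by rw [one_smul, hk]⟩
    · exact ⟨k, -1, neg_ne_zero.mpr one_ne_zero, by rw [neg_one_smul, hk]⟩
  choose k r hr hk using hk
  refine Tensor.mem_decompStab e P (Equiv.ofBijective k (Finite.injective_iff_bijective.mp ?_)) hab
    fun i => ⟨r i, hr i, hk i⟩
  intro i j hij
  by_contra hne
  have h := hsim (U i) (U j)
  rw [hUo i j hne, mul_zero, hk i, hk j, hij, hb.smul_left, hb.smul_right, hU] at h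
  exact mul_ne_zero (hr i) (mul_ne_zero (hr j) hd) h

/-- The symplectic case. -/
theorem exists_between_tensor_symp (hq : Fintype.card F = 3) (e : ι ≃ Fin 3 × Fin n) (P : GL ι F)
    {f : (ι → F) → (ι → F) → F} (hf : Cfsg.Geo.IsSymplecticForm f)
    {f₁ : (Fin 3 → F) → (Fin 3 → F) → F} (hf₁ : Cfsg.Geo.IsSymmetricForm f₁)
    {f₂ : (Fin n → F) → (Fin n → F) → F} (hf₂ : Cfsg.Geo.IsSymplecticForm f₂) {c : F}
    (hc : c ≠ 0)
    (hform : ∀ x x' y y', f (Tensor.pt e P x y) (Tensor.pt e P x' y') = c * (f₁ x x' * f₂ y y'))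
    (hn : 0 < n) :
    ∃ K : Subgroup (GL ι F),
      Cfsg.Geo.tensorProductSubgroup 3 n e P ⊓ isom f < K ∧ K < isom f := by
  obtain ⟨z, hz⟩ : ∃ z : Fin n → F, z ≠ 0 :=
    ⟨Pi.single ⟨0, hn⟩ 1, by simp⟩
  obtain ⟨y, hy⟩ := (hf₂.nondegenerate z hz).1
  obtain ⟨U, hUo, hU, hle⟩ := exists_frame hq e P hf₁ hc hform ⟨y, z, hy⟩
  set D := Tensor.slices e P U with hD
  have hU0 : ∀ i, U i ≠ 0 := fun i h => hU i (by rw [h]; simpa using hf₁.bilinear.smul_left 0 0 0)
  refine ⟨Cfsg.Geo.decompositionStabilizer D ⊓ isom f, ?_, ?_⟩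
  · refine lt_of_le_of_ne (fun g hg => ⟨hle g hg.1 hg.2, hg.2⟩) fun he => ?_
    set w := Tensor.pt e P (U 0) z with hw
    set T₀ := Symp.T hf w 1 with hT₀
    have hfix : ∀ i, i ≠ 0 → ∀ y, ap T₀ (Tensor.pt e P (U i) y) = Tensor.pt e P (U i) y :=
      fun i hi y => Symp.ap_T_fix hf _ (by rw [hw, hform, hUo i 0 hi, zero_mul, mul_zero])
    have hap : ∀ y, ap T₀ (Tensor.pt e P (U 0) y) =
        Tensor.pt e P (U 0) (y + f (Tensor.pt e P (U 0) y) w • z) := fun y => by
      rw [hT₀, Symp.ap_T hf, one_mul, hw, ← Tensor.ptr_apply e P (U 0) (y + _), map_add, map_smul]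
      rfl
    have hmem : T₀ ∈ Cfsg.Geo.decompositionStabilizer D := by
      refine ⟨1, fun i => ?_⟩
      change (D i).map (apEquiv T₀).toLinearMap = D i
      refine Submodule.eq_of_le_of_finrank_eq ?_ (LinearEquiv.finrank_map_eq _ _)
      rintro _ ⟨x, ⟨y, rfl⟩, rfl⟩
      by_cases hi : i = 0
      · subst hi; exact ⟨_, (hap y).symm⟩
      · exact ⟨y, (hfix i hi y).symm⟩
    have hin : T₀ ∈ Cfsg.Geo.tensorProductSubgroup 3 n e P ⊓ isom f := by
      rw [he]; exact ⟨hmem, Symp.T_mem_isom hf _ _⟩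
    have h := Tensor.eq_of_fix hin.1 (hU0 1) hz (hfix 1 (by decide)) (u := U 0)
      (Symp.ap_T_fix hf _ (hf.alternating w)) y
    rw [hap] at h
    have h2 := Tensor.pt_inj_right e P (hU0 0) h
    rw [add_eq_left, smul_eq_zero, hw, hform] at h2
    simp [hz, hc, hU 0, hy] at h2
  · refine lt_of_le_of_ne inf_le_right fun he => ?_
    set w := Tensor.pt e P (U 0) z + Tensor.pt e P (U 1) z with hw
    have hm : Symp.T hf w 1 ∈ Cfsg.Geo.decompositionStabilizer D ⊓ isom f := by
      rw [he]; exact Symp.T_mem_isom hf _ _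
    obtain ⟨π, hπ⟩ := hm.1
    set x := Tensor.pt e P (U 0) y with hx
    have hfx : f x w = c * (f₁ (U 0) (U 0) * f₂ y z) := by
      rw [hw, hx, hf.bilinear.add_right, hform, hform, hUo 0 1 (by decide), zero_mul, mul_zero,
        add_zero]
    obtain ⟨y', hy'⟩ : ap (Symp.T hf w 1) x ∈ D (π 0) := by
      rw [← hπ 0]; exact ⟨x, ⟨y, rfl⟩, rfl⟩
    rw [Symp.ap_T hf, one_mul, hfx] at hy'
    have hzy : f₂ z y ≠ 0 := fun h => hy (by rw [hf₂.skew, h, neg_zero])
    by_cases h0 : π 0 = 0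
    · rw [h0] at hy'
      have h := congrArg (fun v => f v (Tensor.pt e P (U 1) y)) hy'
      simp [hx, hw, hf.bilinear.add_left, hf.bilinear.smul_left, hform, hUo 0 1 (by decide), hc,
        hU 1, hzy, hU 0, hy] at h
    · have h := congrArg (fun v => f v (Tensor.pt e P (U 0) z)) hy'
      simp [hx, hw, hf.bilinear.add_left, hf.bilinear.smul_left, hform, hUo 1 0 (by decide),
        hUo (π 0) 0 h0, hc, hU 0, hy, hf₂.alternating z] at h

/-- The orthogonal case. -/
theorem exists_between_tensor_orth (hq : Fintype.card F = 3) (e : ι ≃ Fin 3 × Fin n) (P : GL ι F)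
    {Q : QuadraticForm F (ι → F)} (hQ : CfsgLib.ClassicalForms.Nondeg Q)
    {f₁ : (Fin 3 → F) → (Fin 3 → F) → F} (hf₁ : Cfsg.Geo.IsSymmetricForm f₁)
    {f₂ : (Fin n → F) → (Fin n → F) → F} (hf₂ : Cfsg.Geo.IsSymmetricForm f₂) {c : F} (hc : c ≠ 0)
    (hform : ∀ x x' y y',
      polar Q (Tensor.pt e P x y) (Tensor.pt e P x' y') = c * (f₁ x x' * f₂ y y'))
    (hn : 3 ≤ n) :
    ∃ K : Subgroup (GL ι F),
      Cfsg.Geo.tensorProductSubgroup 3 n e P ⊓ Cfsg.Geo.omegaGL (⇑Q) < K ∧
        K < Cfsg.Geo.omegaGL (⇑Q) := by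
  have h2 := two_ne_zero_of_three hq
  have hn5 : 5 ≤ Fintype.card ι := by
    rw [Fintype.card_congr e, Fintype.card_prod, Fintype.card_fin, Fintype.card_fin]; omega
  have hb := hf₂.bilinear
  let B := LinearMap.mk₂ F f₂ hb.add_left hb.smul_left hb.add_right hb.smul_right
  obtain ⟨z, hz0, hzz, -⟩ := CfsgLib.ClassicalForms.exists_singular_ker
    (LinearMap.BilinMap.toQuadraticMap B : QuadraticForm F (Fin n → F))
    (Fin.elim0 : Fin 0 → _) (by simp; omega)
  have hzz' : f₂ z z = 0 := hzz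
  obtain ⟨y, hy⟩ := (hf₂.nondegenerate z hz0).1
  obtain ⟨U, hUo, hU, hle⟩ := exists_frame hq e P hf₁ hc hform ⟨y, z, hy⟩
  set D := Tensor.slices e P U with hD
  have hU0 : ∀ i, U i ≠ 0 := fun i h => hU i (by rw [h]; simpa using hf₁.bilinear.smul_left 0 0 0)
  have hQpt : ∀ i, Q (Tensor.pt e P (U i) z) = 0 := fun i => by
    have h := hform (U i) (U i) z z
    rw [CfsgLib.ClassicalForms.polar_self_mul, hzz', mul_zero, mul_zero] at h
    exact (mul_eq_zero.mp h).resolve_left h2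
  refine ⟨Cfsg.Geo.decompositionStabilizer D ⊓ Cfsg.Geo.omegaGL (⇑Q), ?_, ?_⟩
  · refine lt_of_le_of_ne (fun g hg => ⟨hle g hg.1 (polar_ap (omegaGL_le hg.2)), hg.2⟩)
      fun he => ?_
    obtain ⟨z', hz', hzz''⟩ : ∃ z', f₂ z z' = 0 ∧ z' ∉ Submodule.span F {z} := by
      by_contra hcon
      push Not at hcon
      have h1 := (B z).finrank_range_add_finrank_ker
      have h2' : Module.finrank F (LinearMap.range (B z)) ≤ 1 :=
        (Submodule.finrank_le _).trans_eq (Module.finrank_self F)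
      have h3 := Submodule.finrank_mono
        (fun x hx => hcon x hx : LinearMap.ker (B z) ≤ Submodule.span F {z})
      rw [finrank_span_singleton hz0] at h3
      rw [Module.finrank_fintype_fun_eq_card, Fintype.card_fin] at h1
      omega
    set w := Tensor.pt e P (U 0) z' with hw
    have hu : polar Q (Tensor.pt e P (U 0) z) w = 0 := by
      rw [hw, hform, hz', mul_zero, mul_zero]
    set T₀ := sg Q (Tensor.pt e P (U 0) z) w (hQpt 0) hu with hT₀
    have hfix : ∀ i, i ≠ 0 → ∀ y, ap T₀ (Tensor.pt e P (U i) y) = Tensor.pt e P (U i) y :=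
      fun i hi y => ap_sg_fix _ _ (by rw [hform, hUo i 0 hi, zero_mul, mul_zero])
        (by rw [hw, hform, hUo i 0 hi, zero_mul, mul_zero])
    have hap : ∀ y, ∃ y', ap T₀ (Tensor.pt e P (U 0) y) = Tensor.pt e P (U 0) y' := fun y => by
      refine ⟨y + polar Q (Tensor.pt e P (U 0) y) (Tensor.pt e P (U 0) z) • z' -
        (polar Q (Tensor.pt e P (U 0) y) w +
          Q w * polar Q (Tensor.pt e P (U 0) y) (Tensor.pt e P (U 0) z)) • z, ?_⟩
      rw [hT₀, ap_sg, hw, ← Tensor.ptr_apply e P (U 0) (_ - _), map_sub, map_add, map_smul,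
        map_smul]
      rfl
    have hmem : T₀ ∈ Cfsg.Geo.decompositionStabilizer D := by
      refine ⟨1, fun i => ?_⟩
      change (D i).map (apEquiv T₀).toLinearMap = D i
      refine Submodule.eq_of_le_of_finrank_eq ?_ (LinearEquiv.finrank_map_eq _ _)
      rintro _ ⟨x, ⟨y, rfl⟩, rfl⟩
      by_cases hi : i = 0
      · subst hi
        obtain ⟨y', h'⟩ := hap y
        exact ⟨y', h'.symm⟩
      · exact ⟨y, (hfix i hi y).symm⟩
    have hin : T₀ ∈ Cfsg.Geo.tensorProductSubgroup 3 n e P ⊓ Cfsg.Geo.omegaGL (⇑Q) := by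
      rw [he]; exact ⟨hmem, sg_mem hQ hn5 _ _⟩
    have hzfix : ap T₀ (Tensor.pt e P (U 0) z) = Tensor.pt e P (U 0) z :=
      ap_sg_fix _ _ (by rw [CfsgLib.ClassicalForms.polar_self_mul, hQpt, mul_zero]) hu
    have h := Tensor.eq_of_fix hin.1 (hU0 1) hz0 (hfix 1 (by decide)) (u := U 0) hzfix y
    rw [hT₀, ap_sg] at h
    simp only [hw, ← Tensor.ptr_apply e P (U 0)] at h
    rw [← map_smul, ← map_smul, ← map_add, ← map_sub] at h
    simp only [Tensor.ptr_apply] at h
    have h3 := Tensor.pt_inj_right e P (hU0 0) h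
    have hne : polar Q (Tensor.pt e P (U 0) y) (Tensor.pt e P (U 0) z) ≠ 0 := by
      rw [hform]; exact mul_ne_zero hc (mul_ne_zero (hU 0) hy)
    rw [sub_eq_iff_eq_add, add_left_cancel_iff] at h3
    apply hzz''
    have h4 := congrArg ((polar Q (Tensor.pt e P (U 0) y) (Tensor.pt e P (U 0) z))⁻¹ • ·) h3
    simp only [smul_smul, inv_mul_cancel₀ hne, one_smul] at h4
    exact h4 ▸ Submodule.smul_mem _ _ (Submodule.mem_span_singleton_self z)
  · refine lt_of_le_of_ne inf_le_right fun he => ?_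
    have hu : polar Q (Tensor.pt e P (U 0) z) (Tensor.pt e P (U 1) z) = 0 := by
      rw [hform, hUo 0 1 (by decide), zero_mul, mul_zero]
    have hm : sg Q (Tensor.pt e P (U 0) z) (Tensor.pt e P (U 1) z) (hQpt 0) hu ∈
        Cfsg.Geo.decompositionStabilizer D ⊓ Cfsg.Geo.omegaGL (⇑Q) := by
      rw [he]; exact sg_mem hQ hn5 _ _
    obtain ⟨π, hπ⟩ := hm.1
    obtain ⟨y', hy'⟩ : ap (sg Q (Tensor.pt e P (U 0) z) (Tensor.pt e P (U 1) z) (hQpt 0) hu)
        (Tensor.pt e P (U 0) y) ∈ D (π 0) := by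
      rw [← hπ 0]; exact ⟨_, ⟨y, rfl⟩, rfl⟩
    rw [ap_sg] at hy'
    by_cases h0 : π 0 = 0
    · rw [h0] at hy'
      have h := congrArg (fun v => polar Q v (Tensor.pt e P (U 1) y)) hy'
      have hzy : f₂ z y ≠ 0 := fun h' => hy (by rw [hf₂.symm, h'])
      simp [polar_add_left, polar_sub_left, polar_smul_left, hform, hUo 0 1 (by decide), hc,
        hU 1, hU 0, hy, hzy] at h
    · have h := congrArg (fun v => polar Q v (Tensor.pt e P (U 0) z)) hy'
      simp [polar_add_left, polar_sub_left, polar_smul_left, hform, hUo 1 0 (by decide),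
        hUo (π 0) 0 h0, hc, hU 0, hy, hzz'] at h

end CfsgLib.Geometric.Orth
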