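import Cfsg.Agent.Lib.Geometric.Orth.DecompCentre

/-!
Any Siegel element whose centre meets two members yields a mixed one.
-/

namespace CfsgLib.Geometric.Orth

open Matrix QuadraticMap CfsgLib.ClassicalForms

variable {ι : Type} [Fintype ι] [DecidableEq ι] {F : Type*} [Field F] [Finite F]
variable {Q : QuadraticForm F (ι → F)} {t k : ℕ} {D : Fin t → Submodule F (ι → F)}
variable {M : Subgroup (GL ι F)}
variable (hQ : Nondeg Q) (h2 : (2 : F) ≠ 0) (hn : 5 ≤ Fintype.card ι)
  (hD : Cfsg.Geo.IsOrthogonalMDecomposition (⇑Q) k D) (hk : 3 ≤ k)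
  (hex : Nat.card F ≤ 3 → 4 ≤ k)
  (hHM : Cfsg.Geo.decompositionStabilizer D ⊓ Cfsg.Geo.omegaGL (⇑Q) ≤ M)
  (hMI : M ≤ Cfsg.isometryGroup F (⇑Q))

local notation "cp" => Decomp.comp hD.decomp.decomp

include hQ h2 hn hD hk hHM hMI

/-- Moving the centre inside a member where the direction vanishes. -/
lemma mixed_of_move {l r : Fin t} {a b : ι → F} (hab : Inn Q M a b) {g : GL ι F}
    (hg : g ∈ Cfsg.Geo.decompositionStabilizer D ⊓ Cfsg.Geo.omegaGL (⇑Q))
    (hgb : ap g b = b) (hd : ap g a - a ∈ D l) (hbl : cp l b = 0) (hrl : r ≠ l) {c : F}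
    (hc : cp r b = c • cp r a) (ha0 : a ≠ 0) (har : cp r a ≠ 0)
    (h1 : polar Q (ap g a) a * (c - Q b) = -1) (h3 : c - 2 * Q b ≠ 0) : Mixed Q M D := by
  obtain ⟨hQa, hw, -⟩ := id hab
  have hg' := hab.conj hMI (hHM hg)
  rw [hgb] at hg'
  have hmem := hab.mem hQa hw
  have hc' := hg'.conj hMI hmem
  set p := polar Q (ap g a) a
  have hp' : polar Q (ap g a) b = 0 := by
    rw [show ap g a = a + (ap g a - a) by abel, polar_add_left, hw, polar_comm Q (ap g a - a) b,
      polar_comp hD b hd, hbl, polar_zero_left, add_zero]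
  have e1 : ap (sg Q a b hQa hw) (ap g a) = ap g a + p • b - (Q b * p) • a := by
    rw [ap_sg, hp', zero_add]
  have e2 : ap (sg Q a b hQa hw) b = b - (2 * Q b) • a := by
    rw [ap_sg, show polar Q b a = 0 by rw [polar_comm]; exact hw, polar_self_mul, mul_zero, add_zero]
    module
  rw [e1, e2] at hc'
  refine mixed_of_zero hQ h2 hn hD hk hHM hMI hc' (by rw [← e1]; exact ap_ne_zero _ (ap_ne_zero _ ha0))
    (l := r) ?_ ?_
  · have hgr : cp r (ap g a) = cp r a := by
      rw [show ap g a = a + (ap g a - a) by abel, map_add, Decomp.comp_of_mem _ hd, if_neg hrl,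
        add_zero]
    rw [map_sub, map_add, map_smul, map_smul, hgr, hc, smul_smul]
    have : (1 + p * c - Q b * p) • cp r a = 0 := by
      rw [show 1 + p * c - Q b * p = 0 by linear_combination h1, zero_smul]
    linear_combination (norm := module) this
  · rw [map_sub, map_smul, hc, ← sub_smul]
    exact smul_ne_zero h3 har

include hex

/-- Any pair with a centre meeting two members. -/
theorem mixed_of_inn {a b : ι → F} (hab : Inn Q M a b) (ha : ∀ j, a ∉ D j)
    (hb : b ∉ Submodule.span F {a}) : Mixed Q M D := by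
  classical
  by_cases hal : ∃ l, cp l b ∉ Submodule.span F {cp l a}
  · obtain ⟨l, hl⟩ := hal
    by_cases hQl : Q (cp l a) = 0
    · exact mixed_of_singular hQ h2 hn hD hk hHM hMI hab (ha l) hQl hl
    · exact mixed_of_aniso hQ h2 hn hD hk hex hHM hMI hab ha hQl hl
  push Not at hal
  have hQa : Q a = 0 := hab.1
  obtain ⟨j₀⟩ : Nonempty (Fin t) := ⟨⟨0, by have := hD.decomp.decomp.two_le; omega⟩⟩
  have ha0 : a ≠ 0 := fun h => ha j₀ (h ▸ (D j₀).zero_mem)
  -- a member for the move, anisotropic if possible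
  obtain ⟨l, hl0, hlQ⟩ : ∃ l, cp l a ≠ 0 ∧ (Q (cp l a) ≠ 0 ∨ ∀ i, Q (cp i a) = 0) := by
    by_cases h : ∃ l, Q (cp l a) ≠ 0
    · obtain ⟨l, hl⟩ := h
      exact ⟨l, fun h0 => hl (by rw [h0, QuadraticMap.map_zero]), Or.inl hl⟩
    · push Not at h
      obtain ⟨l, hl⟩ : ∃ l, cp l a ≠ 0 := by
        by_contra h'
        push Not at h'
        exact ha0 (Decomp.ext_comp hD.decomp.decomp fun i => by rw [h' i, map_zero])
      exact ⟨l, hl, Or.inr h⟩
  obtain ⟨cl, hcl⟩ := Submodule.mem_span_singleton.1 (hal l)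
  obtain ⟨b', hb', hb'l, hb'al, hb'0⟩ : ∃ b', Inn Q M a b' ∧ cp l b' = 0 ∧
      (∀ i, ∃ c : F, cp i b' = c • cp i a) ∧ b' ≠ 0 := by
    refine ⟨b - cl • a, hab.sub (Inn.centre hQa cl), by rw [map_sub, map_smul, hcl, sub_self],
      fun i => ?_, fun h => hb (Submodule.mem_span_singleton.2 ⟨cl, (sub_eq_zero.1 h).symm⟩)⟩
    obtain ⟨c, hc⟩ := Submodule.mem_span_singleton.1 (hal i)
    exact ⟨c - cl, by rw [map_sub, map_smul, ← hc, sub_smul]⟩
  obtain ⟨r, hr⟩ : ∃ r, cp r b' ≠ 0 := by
    by_contra h'
    push Not at h'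
    exact hb'0 (Decomp.ext_comp hD.decomp.decomp fun i => by rw [h' i, map_zero])
  have hrl : r ≠ l := fun h => hr (h ▸ hb'l)
  obtain ⟨cr, hcr⟩ := hb'al r
  have har : cp r a ≠ 0 := fun h => hr (by rw [hcr, h, smul_zero])
  have hcr0 : cr ≠ 0 := fun h => hr (by rw [hcr, h, zero_smul])
  have hA : cp l a ∈ D l := Decomp.comp_mem _ l a
  -- elements supported on the member `l`
  have hloc : ∀ g : GL ι F, (∀ x, (∀ y ∈ D l, polar Q x y = 0) → ap g x = x) →
      ap g (cp l a) ∈ D l → ap g b' = b' ∧ ap g a - a = ap g (cp l a) - cp l a ∧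
        polar Q (ap g a) a = polar Q (ap g (cp l a) - cp l a) (cp l a) := by
    intro g hfix hmem
    have h1 : ∀ y ∈ D l, polar Q b' y = 0 := fun y hy => by
      rw [polar_comp hD b' hy, hb'l, polar_zero_left]
    have h2' : ap g (a - cp l a) = a - cp l a := hfix _ fun y hy => by
      rw [polar_sub_left, polar_comp hD a hy, sub_self]
    have hd : ap g a - a = ap g (cp l a) - cp l a := by
      rw [ap_sub] at h2'
      linear_combination (norm := module) h2'
    refine ⟨hfix _ h1, hd, ?_⟩
    have hdl : ap g (cp l a) - cp l a ∈ D l := (D l).sub_mem hmem hA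
    rw [show ap g a = a + (ap g (cp l a) - cp l a) by rw [← hd]; abel, polar_add_left,
      polar_self_mul, hQa, mul_zero, zero_add, polar_comm Q _ a, polar_comp hD a hdl, polar_comm]
  rcases hlQ with hQl | hall
  · -- the member is anisotropic
    by_cases hcase : Q b' = 0 ∨ ¬ Nat.card F ≤ 3
    swap
    · push Not at hcase
      obtain ⟨hQb, h3⟩ := hcase
      have hW := hD.decomp.nondegenerate l
      have hd := finrank_le_inf_ker (D l) (pf Q (cp l a))
      obtain ⟨z, hz, hz0, hQz⟩ := exists_singular (Q := Q) h2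
        (W := D l ⊓ LinearMap.ker (pf Q (cp l a)))
        (by have := hex h3; have := hD.decomp.decomp.finrank_eq l; omega)
      have hzA : polar Q z (cp l a) = 0 := hz.2
      have hAz : polar Q (cp l a) z = 0 := by rw [polar_comm]; exact hzA
      set g := sg Q z (cp l a) hQz hzA
      have hg := sg_block_mem hD hQ hn hz.1 hA hQz hzA
      have hgA : ap g (cp l a) = cp l a - (2 * Q (cp l a)) • z := by
        rw [ap_sg, hAz, polar_self_mul, mul_zero, add_zero, zero_smul, add_zero]
      obtain ⟨hgb, hd', hp⟩ := hloc g (fun x hx => ap_sg_fix hQz hzA (hx z hz.1) (hx _ hA))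
        (by rw [hgA]; exact (D l).sub_mem hA ((D l).smul_mem _ hz.1))
      have hga : ap g a = a - (2 * Q (cp l a)) • z := by
        rw [hgA] at hd'
        linear_combination (norm := module) hd'
      have h' := hb'.conj hMI (hHM hg)
      rw [hgb] at h'
      obtain ⟨-, hab', -⟩ := id hb'
      have hmem := hb'.mem hQa hab'
      have haz : polar Q z a = 0 := by rw [polar_comm, polar_comp hD a hz.1]; exact hAz
      have hbz : polar Q z b' = 0 := by
        rw [polar_comm, polar_comp hD b' hz.1, hb'l, polar_zero_left]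
      have hc' := h'.conj hMI hmem
      have e1 : ap (sg Q a b' hQa hab') (ap g a) = ap g a := by
        refine ap_sg_fix hQa hab' ?_ ?_
        · rw [hga, polar_sub_left, polar_smul_left, haz, polar_self_mul, hQa]; simp
        · rw [hga, polar_sub_left, polar_smul_left, hbz, hab']; simp
      have e2 : ap (sg Q a b' hQa hab') b' = b' - (2 * Q b') • a := by
        rw [ap_sg, show polar Q b' a = 0 by rw [polar_comm]; exact hab', polar_self_mul, mul_zero,
          add_zero]
        module
      rw [e1, e2] at hc'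
      have h4 : Inn Q M (ap g a) a := by
        have := (h'.sub hc').smul (2 * Q b')⁻¹
        rwa [sub_sub_cancel, smul_smul, inv_mul_cancel₀ (mul_ne_zero h2 hQb), one_smul] at this
      have h5 := (h4.swap hQa).sub (Inn.centre hQa 1)
      rw [hga, one_smul, sub_sub_cancel_left] at h5
      have h6 := h5.smul (-(2 * Q (cp l a)))⁻¹
      rw [← neg_smul, smul_smul, inv_mul_cancel₀ (neg_ne_zero.2 (mul_ne_zero h2 hQl)), one_smul] at h6
      exact ⟨l, z, hz.1, hz0, a, ha l, h6.swap hQz⟩
    -- choose the scale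
    obtain ⟨c, hc0, hc1, hc2⟩ : ∃ c : F, c ≠ 0 ∧ c * cr - c * c * Q b' ≠ 0 ∧
        c * cr - 2 * (c * c * Q b') ≠ 0 := by
      by_cases hQb : Q b' = 0
      · exact ⟨1, one_ne_zero, by simp [hQb, hcr0], by simp [hQb, hcr0]⟩
      · have := Fintype.ofFinite F
        obtain ⟨c, -, hc⟩ := Finset.exists_mem_notMem_of_card_lt_card
          (s := ({0, cr / Q b', cr / (2 * Q b')} : Finset F)) (t := Finset.univ) (by
            refine lt_of_le_of_lt Finset.card_le_three ?_
            rw [Finset.card_univ, ← Nat.card_eq_fintype_card]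
            have := hcase.resolve_left hQb
            omega)
        simp only [Finset.mem_insert, Finset.mem_singleton, not_or] at hc
        refine ⟨c, hc.1, fun h => hc.2.1 ?_, fun h => hc.2.2 ?_⟩
        · rw [eq_div_iff hQb]
          exact mul_left_cancel₀ hc.1 (by linear_combination -h)
        · rw [eq_div_iff (mul_ne_zero h2 hQb)]
          exact mul_left_cancel₀ hc.1 (by linear_combination -h)
    set b'' := c • b' with hb''
    have hQb'' : Q b'' = c * c * Q b' := by rw [hb'', QuadraticMap.map_smul, smul_eq_mul]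
    set p := -(c * cr - c * c * Q b')⁻¹
    have hp0 : p ≠ 0 := neg_ne_zero.2 (inv_ne_zero hc1)
    -- a reflection pair giving the pairing `p`
    generalize hAdef : cp l a = A at hQl hA hloc hl0
    set U := D l ⊓ LinearMap.ker (pf Q A)
    have hU := nondeg_inf_pf h2 (hD.decomp.nondegenerate l) hA hQl
    have hUd : 2 ≤ Module.finrank F U := by
      have := finrank_le_inf_ker (D l) (pf Q A)
      have := hD.decomp.decomp.finrank_eq l
      show 2 ≤ Module.finrank F (D l ⊓ LinearMap.ker (pf Q A) : Submodule F (ι → F))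
      omega
    set α := 1 + p / (2 * Q A)
    obtain ⟨d, hd, hQd⟩ := exists_value_in h2 hU hUd ((1 - α * α) * Q A)
    have hdA : polar Q d A = 0 := hd.2
    set A' := α • A + d
    have hQA' : Q A' = Q A := by
      rw [QuadraticMap.map_add (⇑Q), QuadraticMap.map_smul, polar_smul_left, polar_comm Q A d, hdA,
        hQd, smul_eq_mul, smul_eq_mul]
      ring
    have hA' : A' ∈ D l := (D l).add_mem ((D l).smul_mem _ hA) hd.1
    have hpol : polar Q (A' - A) A = p := by
      rw [polar_sub_left, polar_add_left, polar_smul_left, hdA, add_zero, polar_self_mul,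
        smul_eq_mul]
      simp only [α]
      field_simp
      ring
    have hQδ : Q (A - A') = -p := by
      rw [map_sub_eq, hQA', polar_comm Q A A',
        show polar Q A' A = p + polar Q A A by rw [← hpol, polar_sub_left, sub_add_cancel],
        polar_self_mul]
      ring
    obtain ⟨v, hv, hQv⟩ := exists_value_in h2 hU hUd (-p)
    set g := rf Q (A - A') * rf Q v
    have hg := rf_pair_mem hD hQ hn ((D l).sub_mem hA hA') hv.1
      (by rw [hQδ]; exact neg_ne_zero.2 hp0) (by rw [hQδ, hQv])
    have hgA : ap g A = A' := by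
      have hvA : polar Q A v = 0 := by rw [polar_comm]; exact hv.2
      rw [ap_mul, ap_rf_fix hvA, ap_rf_sub hQA'.symm (by rw [hQδ]; exact neg_ne_zero.2 hp0)]
    obtain ⟨hgb, hd', hp⟩ := hloc g (fun x hx => by
      rw [ap_mul, ap_rf_fix (hx v hv.1), ap_rf_fix (hx _ ((D l).sub_mem hA hA'))])
      (by rw [hgA]; exact hA')
    refine mixed_of_move hQ h2 hn hD hk hHM hMI (hb'.smul c) hg (by rw [ap_smul, hgb])
      (by rw [hd', hgA]; exact (D l).sub_mem hA' hA) (by rw [map_smul, hb'l, smul_zero]) hrl
      (c := c * cr) (by rw [map_smul, hcr, smul_smul]) ha0 har ?_ ?_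
    · rw [hp, hgA, hpol, ← hb'', hQb'', show p = -(c * cr - c * c * Q b')⁻¹ from rfl, neg_mul,
        inv_mul_cancel₀ hc1]
    · rw [← hb'', hQb'']; exact hc2
  · -- every component is singular, hence so is the direction
    have hQb : Q b' = 0 := by
      have h : polar Q b' b' = 0 := by
        conv_lhs => arg 3; rw [← Decomp.sum_comp hD.decomp.decomp b']
        have hsum : ∀ S : Finset (Fin t), polar Q b' (∑ i ∈ S, cp i b') = 0 := fun S => by
          induction S using Finset.induction_on with
          | empty => simp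
          | insert i S hi ih =>
            obtain ⟨c, hc⟩ := hb'al i
            rw [Finset.sum_insert hi, polar_add_right, ih,
              polar_comp hD b' (Decomp.comp_mem _ i b'), hc, polar_smul_left, polar_smul_right,
              polar_self_mul, hall i]
            simp
        exact hsum _
      rw [polar_self_mul, mul_eq_zero] at h
      exact h.resolve_left h2
    have hW := hD.decomp.nondegenerate l
    obtain ⟨e, he, hQe, hAe⟩ := exists_partner_in hW hA hl0 (hall l)
    have he0 : e ≠ 0 := fun h => by simp [h] at hAe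
    obtain ⟨y, hy, hey, hQy⟩ := exists_aniso_perp h2 hW
      (by rw [hD.decomp.decomp.finrank_eq]; exact hk) he he0 hQe
    set g := sg Q e y hQe hey
    have hgA : ap g (cp l a) = cp l a + y - (polar Q (cp l a) y + Q y) • e := by
      rw [ap_sg, hAe, one_smul, mul_one]
    obtain ⟨hgb, hd', hp⟩ := hloc g (fun x hx => ap_sg_fix hQe hey (hx e he) (hx y hy))
      (by rw [hgA]; exact (D l).sub_mem ((D l).add_mem hA hy) ((D l).smul_mem _ he))
    have hpv : polar Q (ap g a) a = -Q y := by
      rw [hp, hgA, polar_sub_left, polar_sub_left, polar_add_left, polar_smul_left,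
        polar_comm Q e (cp l a), hAe, polar_comm Q y (cp l a)]
      simp [hall l]
    have hne : Q y * cr ≠ 0 := mul_ne_zero hQy hcr0
    refine mixed_of_move hQ h2 hn hD hk hHM hMI (hb'.smul (Q y * cr)⁻¹)
      (sg_block_mem hD hQ hn he hy hQe hey) (by rw [ap_smul, hgb])
      (by rw [hd', hgA]; exact (D l).sub_mem ((D l).sub_mem ((D l).add_mem hA hy)
        ((D l).smul_mem _ he)) hA) (by rw [map_smul, hb'l, smul_zero]) hrl
      (c := (Q y * cr)⁻¹ * cr) (by rw [map_smul, hcr, smul_smul]) ha0 har ?_ ?_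
    · rw [hpv, QuadraticMap.map_smul, hQb, smul_zero, sub_zero]
      field_simp
    · rw [QuadraticMap.map_smul, hQb, smul_zero, mul_zero, sub_zero]
      exact mul_ne_zero (inv_ne_zero hne) hcr0

end CfsgLib.Geometric.Orth
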