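import Cfsg.Agent.Lib.Geometric.Orth.DecompShift

/-!
A Siegel element whose centre meets two members and whose direction is independent of the centre
yields a mixed one.
-/

namespace CfsgLib.Geometric.Orth

open Matrix QuadraticMap CfsgLib.ClassicalForms

variable {ι : Type} [Fintype ι] [DecidableEq ι] {F : Type*} [Field F] [Finite F]
variable {Q : QuadraticForm F (ι → F)} {t k : ℕ} {D : Fin t → Submodule F (ι → F)}
variable {M : Subgroup (GL ι F)}
variable (hQ : Nondeg Q) (h2 : (2 : F) ≠ 0) (hn : 5 ≤ Fintype.card ι)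
  (hD : Cfsg.Geo.IsOrthogonalMDecomposition (⇑Q) k D) (hk : 3 ≤ k)
  (hex : Nat.card F ≤ 3 → 4 ≤ k)
  (hHM : Cfsg.Geo.decompositionStabilizer D ⊓ Cfsg.Geo.omegaGL (⇑Q) ≤ M)
  (hMI : M ≤ Cfsg.isometryGroup F (⇑Q))

local notation "cp" => Decomp.comp hD.decomp.decomp

include h2 hD

omit [Finite F] in
lemma exists_compensator {l : Fin t} {a : ι → F} (hQa : Q a = 0) (hl : Q (cp l a) ≠ 0) :
    ∃ s, s ≠ l ∧ (cp s a = 0 ∨ Q (cp s a) ≠ 0) := by
  by_contra hall
  push Not at hall
  have hsum : ∀ S : Finset (Fin t), l ∉ S → polar Q a (∑ r ∈ S, cp r a) = 0 := fun S hS => by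
    classical
    induction S using Finset.induction_on with
    | empty => simp
    | insert r S hr ih =>
      rw [Finset.sum_insert hr, polar_add_right, ih fun h => hS (Finset.mem_insert_of_mem h),
        polar_comp hD a (Decomp.comp_mem _ r a), polar_self_mul,
        (hall r fun h => hS (h ▸ Finset.mem_insert_self r S)).2, mul_zero, add_zero]
  have h := polar_self_mul (Q := Q) a
  conv_lhs at h => arg 3; rw [← Decomp.sum_comp hD.decomp.decomp a,
    ← Finset.add_sum_erase _ _ (Finset.mem_univ l)]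
  rw [polar_add_right, hsum _ (Finset.notMem_erase l _), add_zero,
    polar_comp hD a (Decomp.comp_mem _ l a), polar_self_mul, hQa, mul_zero] at h
  exact mul_ne_zero h2 hl h

include hQ hn hk hex

/-- An element negating the components of `a` outside the member `l`. -/
lemma exists_negate {l : Fin t} (a : ι → F) (hl : Q (cp l a) ≠ 0) (S : Finset (Fin t))
    (hS : l ∉ S) :
    ∃ g ∈ Cfsg.Geo.decompositionStabilizer D ⊓ Cfsg.Geo.omegaGL (⇑Q),
      (∀ i, ∀ x ∈ D i, ap g x ∈ D i) ∧ ap g (cp l a) = cp l a ∧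
        (∀ r ∈ S, ap g (cp r a) = -cp r a) ∧
        ∀ r, r ∉ S → r ≠ l → ∀ x ∈ D r, ap g x = x := by
  classical
  induction S using Finset.induction_on with
  | empty => exact ⟨1, one_mem _, fun i x hx => by rwa [ap_one], ap_one _, by simp,
      fun r _ _ x _ => ap_one x⟩
  | insert r S hr ih =>
    obtain ⟨g, hg, hgb, hgl, hgS, hgo⟩ := ih fun h => hS (Finset.mem_insert_of_mem h)
    have hrl : r ≠ l := fun h => hS (h ▸ Finset.mem_insert_self r S)
    have hW := hD.decomp.nondegenerate l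
    have hU := nondeg_inf_pf h2 hW (Decomp.comp_mem hD.decomp.decomp l a) hl
    have hUd : 2 ≤ Module.finrank F
        (D l ⊓ LinearMap.ker (pf Q (cp l a)) : Submodule F (ι → F)) := by
      have := finrank_le_inf_ker (D l) (pf Q (cp l a))
      have := hD.decomp.decomp.finrank_eq l
      omega
    -- a pair acting on `D r` as one reflection
    have hpair : ∀ v ∈ D r, Q v ≠ 0 → ∃ p ∈ Cfsg.Geo.decompositionStabilizer D ⊓
        Cfsg.Geo.omegaGL (⇑Q), (∀ i, ∀ x ∈ D i, ap p x ∈ D i) ∧ ap p (cp l a) = cp l a ∧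
          (∀ x ∈ D r, ap p x = ap (rf Q v) x) ∧
          ∀ i, i ≠ r → i ≠ l → ∀ x ∈ D i, ap p x = x := by
      intro v hv hQv
      obtain ⟨w, hw, hQw⟩ := exists_value_in h2 hU hUd (Q v)
      refine ⟨rf Q v * rf Q w, rf_pair_mem hD hQ hn hv hw.1 hQv hQw.symm,
        rf_pair_blocks hD hv hw.1, ?_, fun x hx => ?_, fun i hir hil x hx => ?_⟩
      · have hwa : polar Q w (cp l a) = 0 := hw.2
        rw [ap_mul, ap_rf_fix (show polar Q (cp l a) w = 0 by rwa [polar_comm]),
          ap_rf_fix (orth_apply_blocks hD hrl.symm (Decomp.comp_mem _ l a) hv)]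
      · rw [ap_mul, ap_rf_fix (orth_apply_blocks hD hrl hx hw.1)]
      · rw [ap_mul, ap_rf_fix (orth_apply_blocks hD hil hx hw.1),
          ap_rf_fix (orth_apply_blocks hD hir hx hv)]
    obtain ⟨p, hp, hpb, hpl, hpr, hpo⟩ : ∃ p ∈ Cfsg.Geo.decompositionStabilizer D ⊓
        Cfsg.Geo.omegaGL (⇑Q), (∀ i, ∀ x ∈ D i, ap p x ∈ D i) ∧ ap p (cp l a) = cp l a ∧
          ap p (cp r a) = -cp r a ∧ ∀ i, i ≠ r → i ≠ l → ∀ x ∈ D i, ap p x = x := by
      have he : cp r a ∈ D r := Decomp.comp_mem _ r a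
      by_cases hQr : Q (cp r a) = 0
      · by_cases h0 : cp r a = 0
        · exact ⟨1, one_mem _, fun i x hx => by rwa [ap_one], ap_one _, by rw [ap_one, h0, neg_zero],
            fun i _ _ x _ => ap_one x⟩
        obtain ⟨f, hf, hQf, hef⟩ := exists_partner_in (hD.decomp.nondegenerate r) he h0 hQr
        generalize hE : cp r a = E at he hQr hef ⊢
        have hv : Q (E + f) = 1 := by rw [QuadraticMap.map_add (⇑Q), hQr, hQf, hef]; ring
        have hv' : Q (E - f) = -1 := by rw [map_sub_eq, hQr, hQf, hef]; ring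
        obtain ⟨p₁, hp₁, hpb₁, hpl₁, hpr₁, hpo₁⟩ := hpair (E + f) ((D r).add_mem he hf)
          (by rw [hv]; exact one_ne_zero)
        obtain ⟨p₂, hp₂, hpb₂, hpl₂, hpr₂, hpo₂⟩ := hpair (E - f) ((D r).sub_mem he hf)
          (by rw [hv']; exact neg_ne_zero.2 one_ne_zero)
        refine ⟨p₁ * p₂, mul_mem hp₁ hp₂, fun i x hx => ?_, ?_, ?_, fun i hir hil x hx => ?_⟩
        · rw [ap_mul]; exact hpb₁ i _ (hpb₂ i x hx)
        · rw [ap_mul, hpl₂, hpl₁]
        · have h1 : ap (rf Q (E - f)) E = f := ap_rf_sub (by rw [hQr, hQf])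
            (by rw [hv']; exact neg_ne_zero.2 one_ne_zero)
          have h3 : ap (rf Q (E + f)) f = -E := by
            have := ap_rf_sub (Q := Q) (u := f) (w := -E) (by rw [QuadraticMap.map_neg, hQr, hQf])
              (by rw [sub_neg_eq_add, add_comm, hv]; exact one_ne_zero)
            rwa [sub_neg_eq_add, add_comm] at this
          rw [ap_mul, hpr₂ E he, h1, hpr₁ f hf, h3]
        · rw [ap_mul, hpo₂ i hir hil x hx, hpo₁ i hir hil x hx]
      · obtain ⟨p, hp, hpb, hpl, hpr, hpo⟩ := hpair _ he hQr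
        refine ⟨p, hp, hpb, hpl, ?_, hpo⟩
        rw [hpr _ he, ap_rf, polar_self_mul, mul_comm (2 : F), ← mul_assoc, inv_mul_cancel₀ hQr,
          one_mul, two_smul]
        abel
    refine ⟨p * g, mul_mem hp hg, fun i x hx => ?_, ?_, ?_, fun i hi hil x hx => ?_⟩
    · rw [ap_mul]; exact hpb i _ (hgb i x hx)
    · rw [ap_mul, hgl, hpl]
    · intro i hi
      rw [ap_mul]
      rcases Finset.mem_insert.1 hi with h | h
      · subst h
        rw [hgo i hr hrl _ (Decomp.comp_mem _ i a), hpr]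
      · have hir : i ≠ r := fun e => hr (e ▸ h)
        have hil : i ≠ l := fun e => hS (e ▸ Finset.mem_insert_of_mem h)
        rw [hgS i h, show ap p (-cp i a) = -ap p (cp i a) from map_neg (apEquiv p) _,
          hpo i hir hil _ (Decomp.comp_mem _ i a)]
    · have hiS : i ∉ S := fun h => hi (Finset.mem_insert_of_mem h)
      have hir : i ≠ r := fun e => hi (e ▸ Finset.mem_insert_self r S)
      rw [ap_mul, hgo i hiS hil x hx, hpo i hir hil x hx]

include hHM hMI

/-- An anisotropic component of the centre and a direction not aligned with it. -/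
theorem mixed_of_aniso {l : Fin t} {a b : ι → F} (hab : Inn Q M a b) (ha : ∀ j, a ∉ D j)
    (hal : Q (cp l a) ≠ 0) (hbl : cp l b ∉ Submodule.span F {cp l a}) : Mixed Q M D := by
  classical
  have hQa : Q a = 0 := hab.1
  set A := cp l a with hA
  have hAl : A ∈ D l := Decomp.comp_mem _ l a
  set U := D l ⊓ LinearMap.ker (pf Q A) with hUdef
  have hU := nondeg_inf_pf h2 (hD.decomp.nondegenerate l) hAl hal
  have hdl := hD.decomp.decomp.finrank_eq l
  have hUd : 2 ≤ Module.finrank F U ∧ (Nat.card F ≤ 3 → 3 ≤ Module.finrank F U) := by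
    have := finrank_le_inf_ker (D l) (pf Q A)
    exact ⟨by rw [← hUdef] at this; omega, fun h => by
      have := hex h; rw [← hUdef] at *; omega⟩
  have hperp : ∀ x ∈ U, polar Q a x = 0 := fun x hx => by
    rw [polar_comp hD a hx.1, polar_comm]; exact hx.2
  -- one direction inside `U`
  obtain ⟨w₀, hw₀, hw₀0, hin₀⟩ : ∃ w ∈ U, w ≠ 0 ∧ Inn Q M a w := by
    have hAA : polar Q A A ≠ 0 := by rw [polar_self_mul]; exact mul_ne_zero h2 hal
    set c := polar Q (cp l b) A / polar Q A A
    have hu : cp l b - c • A ∈ U := ⟨(D l).sub_mem (Decomp.comp_mem _ l b) ((D l).smul_mem _ hAl), by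
      show polar Q (cp l b - c • A) A = 0
      rw [polar_sub_left, polar_smul_left, smul_eq_mul, div_mul_cancel₀ _ hAA, sub_self]⟩
    have hu0 : cp l b - c • A ≠ 0 := fun h =>
      hbl (Submodule.mem_span_singleton.2 ⟨c, (sub_eq_zero.1 h).symm⟩)
    obtain ⟨v, hv, w, hw, hQv, hvw, hne⟩ := exists_pair_moving h2 hU hUd.1 hUd.2 hu hu0
    have hfix : ∀ x, polar Q x v = 0 → polar Q x w = 0 → ap (rf Q v * rf Q w) x = x :=
      fun x h₁ h₂ => by rw [ap_mul, ap_rf_fix h₂, ap_rf_fix h₁]
    have hb := inn_shift hQ hn hD hHM hMI hab (rf_pair_mem hD hQ hn hv.1 hw.1 hQv hvw)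
      (hfix a (hperp v hv) (hperp w hw))
    have hval : ap (rf Q v * rf Q w) b - b =
        ap (rf Q v * rf Q w) (cp l b - c • A) - (cp l b - c • A) := by
      have hrest : ap (rf Q v * rf Q w) (b - (cp l b - c • A)) = b - (cp l b - c • A) := by
        refine hfix _ ?_ ?_
        · rw [polar_sub_left, polar_sub_left, polar_smul_left, ← polar_comp hD b hv.1,
            show polar Q A v = 0 by rw [polar_comm]; exact hv.2]
          simp
        · rw [polar_sub_left, polar_sub_left, polar_smul_left, ← polar_comp hD b hw.1,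
            show polar Q A w = 0 by rw [polar_comm]; exact hw.2]
          simp
      rw [ap_sub] at hrest
      linear_combination (norm := module) hrest
    rw [hval] at hb
    refine ⟨_, U.sub_mem ?_ hu, sub_ne_zero.2 hne, hb⟩
    rw [ap_mul]
    exact ap_rf_mem hv (ap_rf_mem hw hu)
  -- every direction inside `U`
  obtain ⟨s, hsl, hs⟩ := exists_compensator h2 hD hQa hal
  let L : Submodule F (ι → F) :=
    { carrier := {w | w ∈ U ∧ Inn Q M a w}
      zero_mem' := ⟨U.zero_mem, Inn.zero hQa⟩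
      add_mem' := fun hx hy => ⟨U.add_mem hx.1 hy.1, hx.2.add hy.2⟩
      smul_mem' := fun c x hx => ⟨U.smul_mem c hx.1, hx.2.smul c⟩ }
  have hLU : L = U := by
    refine eq_of_invariant hQ hU (fun h3 h2' => absurd h2' (ne_of_gt (hUd.2 h3)))
      (fun x hx => hx.1)
      (fun h => hw₀0 ((Submodule.mem_bot F).1 (h ▸ (show w₀ ∈ L from ⟨hw₀, hin₀⟩))))
      (fun v hv hQv x hx => ?_) (fun e he y hy hQe hey x hx => ?_)
    · have hT : ∃ T : Submodule F (ι → F), T ≤ D s ∧
          Cfsg.Geo.IsNondegenerateOn (polar (⇑Q)) T ∧ 2 ≤ Module.finrank F T ∧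
          ∀ y ∈ T, polar Q a y = 0 := by
        rcases hs with hs | hs
        · exact ⟨D s, le_rfl, hD.decomp.nondegenerate s,
            by rw [hD.decomp.decomp.finrank_eq]; omega,
            fun y hy => by rw [polar_comp hD a hy, hs, polar_zero_left]⟩
        · refine ⟨_, inf_le_left,
            nondeg_inf_pf h2 (hD.decomp.nondegenerate s) (Decomp.comp_mem _ s a) hs, ?_,
            fun y hy => by rw [polar_comp hD a hy.1, polar_comm]; exact hy.2⟩
          have := finrank_le_inf_ker (D s) (pf Q (cp s a))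
          have := hD.decomp.decomp.finrank_eq s
          omega
      obtain ⟨T, hTs, hT, hTd, hTa⟩ := hT
      obtain ⟨z, hz, hQz⟩ := exists_value_in h2 hT hTd (Q v)
      have hmem := rf_pair_mem hD hQ hn hv.1 (hTs hz) hQv hQz.symm
      have hxz : polar Q x z = 0 := orth_apply_blocks hD hsl.symm hx.1.1 (hTs hz)
      have hc := hx.2.conj hMI (hHM hmem)
      rw [ap_mul, ap_rf_fix (hTa z hz), ap_rf_fix (hperp v hv), ap_mul, ap_rf_fix hxz, ap_rf] at hc
      exact ⟨U.sub_mem hx.1 (U.smul_mem _ hv), hc⟩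
    · have hc := hx.2.conj hMI (hHM (sg_block_mem hD hQ hn he.1 hy.1 hQe hey))
      rw [ap_sg_fix hQe hey (hperp e he) (hperp y hy)] at hc
      refine ⟨?_, hc⟩
      rw [ap_sg]
      exact U.sub_mem (U.add_mem hx.1 (U.smul_mem _ hy)) (U.smul_mem _ he)
  have hall : ∀ w ∈ U, Inn Q M a w := fun w hw => (show w ∈ L by rw [hLU]; exact hw).2
  -- reflect the centre
  obtain ⟨g, hg, hgb, hgl, hgS, -⟩ :=
    exists_negate hQ h2 hn hD hk hex a hal (Finset.univ.erase l) (Finset.notMem_erase l _)
  have hga : ap g a = (2 : F) • A - a := by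
    refine Decomp.ext_comp hD.decomp.decomp fun i => ?_
    rw [comp_ap hD hgb, map_sub, map_smul]
    by_cases hil : i = l
    · subst hil
      rw [hgl, Decomp.comp_of_mem _ hAl, if_pos rfl, two_smul]
      abel
    · rw [hgS i (Finset.mem_erase.2 ⟨hil, Finset.mem_univ i⟩), Decomp.comp_of_mem _ hAl,
        if_neg hil, smul_zero, zero_sub]
  have hgU : ∀ w ∈ U, Inn Q M ((2 : F) • A - a) w := fun w hw => by
    have hgI := hMI (hHM hg)
    have hw' : ap g⁻¹ w ∈ U := by
      have hmap : (D l).map (apEquiv g).toLinearMap = D l :=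
        Submodule.eq_of_le_of_finrank_eq (fun _ ⟨x, hx, e⟩ => e ▸ hgb l x hx)
          (LinearEquiv.finrank_map_eq _ _)
      obtain ⟨x, hx, hxw⟩ := (hmap.ge hw.1 : w ∈ (D l).map (apEquiv g).toLinearMap)
      have hxw' : ap g⁻¹ w = x := by
        rw [show w = ap g x from hxw.symm, ap_inv_ap]
      refine ⟨by rw [hxw']; exact hx, ?_⟩
      show polar Q (ap g⁻¹ w) A = 0
      rw [← polar_ap hgI, ap_ap_inv, hgl]
      exact hw.2
    have := (hall _ hw').conj hMI (hHM hg)
    rwa [hga, ap_ap_inv] at this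
  obtain ⟨w, hw, hQw⟩ := exists_value_in h2 hU hUd.1 (-((4 : F) * Q A))⁻¹
  have hm := hMI.trans le_rfl
  have hin := hall w hw
  have haw : polar Q a w = 0 := hperp w hw
  have hmem := hin.mem hQa haw
  have hc := (hgU w hw).conj hMI hmem
  set a' := (2 : F) • A - a
  have hAa : polar Q a A = 2 * Q A := by rw [polar_comp hD a hAl, ← hA, polar_self_mul]
  have hp1 : polar Q a' a = 4 * Q A := by
    rw [polar_sub_left, polar_smul_left, polar_self_mul, hQa, polar_comm Q A a, hAa]
    simp; ring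
  have hp2 : polar Q a' w = 0 := by
    rw [polar_sub_left, polar_smul_left, haw, show polar Q A w = 0 by rw [polar_comm]; exact hw.2]
    simp
  have hp3 : polar Q w a = 0 := by rw [polar_comm]; exact haw
  have h4 : (4 : F) * Q A ≠ 0 :=
    mul_ne_zero (by rw [show (4 : F) = 2 * 2 by norm_num]; exact mul_ne_zero h2 h2) hal
  have hQw4 : Q w * (4 * Q A) = -1 := by
    rw [hQw, inv_neg, neg_mul, inv_mul_cancel₀ h4]
  have hQw0 : Q w ≠ 0 := fun h => by simp [h] at hQw4
  have ha' : ap (sg Q a w hQa haw) a' = (2 : F) • A + (4 * Q A) • w := by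
    rw [ap_sg, hp1, hp2, zero_add, hQw4]
    simp only [a']
    module
  have hw' : ap (sg Q a w hQa haw) w = w - (2 * Q w) • a := by
    rw [ap_sg, hp3, polar_self_mul, mul_zero, add_zero]
    module
  rw [ha', hw'] at hc
  refine ⟨l, _, (D l).add_mem ((D l).smul_mem _ hAl) ((D l).smul_mem _ hw.1), ?_, _, ?_, hc⟩
  · intro h0
    have := congrArg (fun z => polar Q z A) h0
    simp only [polar_add_left, polar_smul_left, polar_self_mul, show polar Q w A = 0 from hw.2,
      polar_zero_left, smul_eq_mul, mul_zero, add_zero] at this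
    exact mul_ne_zero h2 (mul_ne_zero h2 hal) this
  · intro h
    have h' := (D l).sub_mem hw.1 h
    rw [sub_sub_cancel] at h'
    have := (D l).smul_mem (2 * Q w)⁻¹ h'
    rw [smul_smul, inv_mul_cancel₀ (mul_ne_zero h2 hQw0), one_smul] at this
    exact ha l this

end CfsgLib.Geometric.Orth
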