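import Cfsg.Agent.Lib.Geometric.Orth.DecompAligned

/-!
A mixed Siegel element generates the whole group: transport between the members.
-/

namespace CfsgLib.Geometric.Orth

open Matrix QuadraticMap CfsgLib.ClassicalForms

variable {ι : Type} [Fintype ι] [DecidableEq ι] {F : Type*} [Field F] [Finite F]
variable {Q : QuadraticForm F (ι → F)} {t k : ℕ} {D : Fin t → Submodule F (ι → F)}
variable {M : Subgroup (GL ι F)}
variable (hQ : Nondeg Q) (h2 : (2 : F) ≠ 0) (hn : 5 ≤ Fintype.card ι)
  (hD : Cfsg.Geo.IsOrthogonalMDecomposition (⇑Q) k D) (hk : 3 ≤ k)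
  (hHM : Cfsg.Geo.decompositionStabilizer D ⊓ Cfsg.Geo.omegaGL (⇑Q) ≤ M)
  (hMI : M ≤ Cfsg.isometryGroup F (⇑Q))

local notation "cp" => Decomp.comp hD.decomp.decomp

include hQ h2 hn hD hk

/-- An element exchanging two members and preserving a third one. -/
lemma exists_exchange {l s j : Fin t} (hls : l ≠ s) (hjl : j ≠ l) (hjs : j ≠ s) :
    ∃ g ∈ Cfsg.Geo.decompositionStabilizer D ⊓ Cfsg.Geo.omegaGL (⇑Q),
      (∀ x ∈ D j, ap g x ∈ D j) ∧ ∀ y ∈ D s, ∃ x ∈ D l, ap g x = y := by
  obtain ⟨φ, hφ⟩ := hD.isometric l s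
  have hpol : ∀ x y : D l, polar Q (φ x : ι → F) (φ y : ι → F) = polar Q (x : ι → F) (y : ι → F) := by
    intro x y
    have h := hφ (x + y)
    rw [map_add, Submodule.coe_add, Submodule.coe_add] at h
    simp only [polar, h, hφ x, hφ y]
  have key : ∀ d, ∀ U : Submodule F (ι → F), U ≤ D l → Module.finrank F U = d →
      Cfsg.Geo.IsNondegenerateOn (polar (⇑Q)) U → ∃ g ∈ Cfsg.Geo.omegaGL (⇑Q),
        (∀ x ∈ D j, ap g x ∈ D j) ∧ (∀ i, i ≠ l → i ≠ s → i ≠ j → ∀ x ∈ D i, ap g x = x) ∧
        (∀ x : D l, (x : ι → F) ∈ U →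
          ap g x = (φ x : ι → F) ∧ ap g (φ x : ι → F) = (x : ι → F)) ∧
        ∀ x : D l, (∀ u ∈ U, polar Q (x : ι → F) u = 0) →
          ap g x = (x : ι → F) ∧ ap g (φ x : ι → F) = (φ x : ι → F) := by
    intro d
    induction d with
    | zero =>
      intro U hU hd _
      refine ⟨1, one_mem _, fun x hx => by rwa [ap_one], fun i _ _ _ x _ => ap_one x, fun x hx => ?_,
        fun x _ => ⟨ap_one _, ap_one _⟩⟩
      rw [Submodule.finrank_eq_zero.1 hd, Submodule.mem_bot] at hx
      have : x = 0 := Subtype.ext hx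
      subst this
      simp
    | succ d ih =>
      intro U hU hd hUn
      obtain ⟨u, hu, hu0⟩ := Submodule.exists_mem_ne_zero_of_ne_bot
        (show U ≠ ⊥ from fun h => by rw [h, finrank_bot] at hd; omega)
      obtain ⟨a, ha, hQa, -⟩ := exists_aniso_pairing h2 hUn hu hu0
      have hle := finrank_le_inf_ker U (pf Q a)
      have hlt : Module.finrank F (U ⊓ LinearMap.ker (pf Q a) : Submodule F (ι → F)) <
          Module.finrank F U := by
        refine Submodule.finrank_lt_finrank_of_lt (lt_of_le_of_ne inf_le_left fun e => ?_)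
        have h : a ∈ U ⊓ LinearMap.ker (pf Q a) := e.ge ha
        have h' : polar Q a a = 0 := h.2
        rw [polar_self_mul] at h'
        exact mul_ne_zero h2 hQa h'
      obtain ⟨g, hg, hgj, hgo, hgU, hgp⟩ := ih (U ⊓ LinearMap.ker (pf Q a))
        (inf_le_left.trans hU) (by omega) (nondeg_inf_pf h2 hUn ha hQa)
      set a' : D l := ⟨a, hU ha⟩
      have hax : ∀ x ∈ D s, polar Q a x = 0 := fun x hx => orth_apply_blocks hD hls (hU ha) hx
      have hQd : Q (a - (φ a' : ι → F)) = 2 * Q a := by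
        rw [map_sub_eq, hφ, hax _ (φ a').2]; ring
      have hd0 : Q (a - (φ a' : ι → F)) ≠ 0 := by rw [hQd]; exact mul_ne_zero h2 hQa
      obtain ⟨v, hv, hQv⟩ := exists_value_in h2 (hD.decomp.nondegenerate j)
        (by rw [hD.decomp.decomp.finrank_eq]; omega) (Q (a - (φ a' : ι → F)))
      set δ := a - (φ a' : ι → F)
      set p := rf Q δ * rf Q v
      have hpfix : ∀ i, i ≠ j → ∀ x ∈ D i, polar Q x δ = 0 → ap p x = x := fun i hij x hx hxd => by
        rw [ap_mul, ap_rf_fix (orth_apply_blocks hD hij hx hv), ap_rf_fix hxd]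
      have hδ : ∀ i, i ≠ l → i ≠ s → ∀ x ∈ D i, polar Q x δ = 0 := fun i hil his x hx => by
        rw [polar_sub_right, orth_apply_blocks hD hil hx (hU ha),
          orth_apply_blocks hD his hx (φ a').2, sub_zero]
      have hδl : ∀ x : D l, polar Q (x : ι → F) a = 0 → polar Q (x : ι → F) δ = 0 ∧
          polar Q (φ x : ι → F) δ = 0 := fun x hx => by
        constructor
        · rw [polar_sub_right, hx, orth_apply_blocks hD hls x.2 (φ a').2, sub_zero]
        · rw [polar_sub_right, orth_apply_blocks hD hls.symm (φ x).2 (hU ha), hpol x a', hx,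
            sub_zero]
      have hp1 : ap p a = (φ a' : ι → F) := by
        rw [ap_mul, ap_rf_fix (orth_apply_blocks hD hjl.symm (hU ha) hv),
          ap_rf_sub (by rw [hφ]) hd0]
      have hp2 : ap p (φ a' : ι → F) = a := by
        rw [ap_mul, ap_rf_fix (orth_apply_blocks hD hjs.symm (φ a').2 hv)]
        rw [ap_rf, polar_sub_right, polar_self_mul, hφ, polar_comm Q (φ a' : ι → F) a,
          hax _ (φ a').2, hQd]
        simp only [δ]
        match_scalars <;> field_simp <;> ring
      refine ⟨p * g, mul_mem (rf_mul_rf_mem hQ hn hd0 hQv.symm) hg, fun x hx => ?_,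
        fun i hil his hij x hx => ?_, fun x hx => ?_, fun x hx => ?_⟩
      · rw [ap_mul, ap_mul, ap_rf_fix (hδ j hjl hjs _ (ap_rf_mem hv (hgj x hx)))]
        exact ap_rf_mem hv (hgj x hx)
      · rw [ap_mul, hgo i hil his hij x hx, hpfix i hij x hx (hδ i hil his x hx)]
      · set c := polar Q (x : ι → F) a / polar Q a a
        set x' : D l := x - c • a'
        have haa : polar Q a a ≠ 0 := by rw [polar_self_mul]; exact mul_ne_zero h2 hQa
        have hx'a : polar Q (x' : ι → F) a = 0 := by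
          show polar Q ((x : ι → F) - c • a) a = 0
          rw [polar_sub_left, polar_smul_left, smul_eq_mul, div_mul_cancel₀ _ haa, sub_self]
        obtain ⟨e1, e2⟩ := hgU x' ⟨U.sub_mem hx (U.smul_mem _ ha), hx'a⟩
        obtain ⟨f1, f2⟩ := hgp a' fun u hu => by rw [polar_comm]; exact hu.2
        obtain ⟨d1, d2⟩ := hδl x' hx'a
        have e : x = c • a' + x' := by simp [x']
        rw [e, map_add, map_smul, Submodule.coe_add, Submodule.coe_add, Submodule.coe_smul,
          Submodule.coe_smul, ap_mul p g, ap_mul p g, ap_add, ap_add, ap_smul, ap_smul, f1, e1,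
          ap_add, ap_add, ap_smul, ap_smul, f2, e2, hp2, hpfix s hjs.symm _ (φ x').2 d2,
          hpfix l hjl.symm _ x'.2 d1, show (a' : ι → F) = a from rfl, hp1]
        exact ⟨rfl, rfl⟩
      · obtain ⟨e1, e2⟩ := hgp x fun u hu => hx u hu.1
        obtain ⟨d1, d2⟩ := hδl x (hx a ha)
        rw [ap_mul p g, ap_mul p g, e1, e2]
        exact ⟨hpfix l hjl.symm _ x.2 d1, hpfix s hjs.symm _ (φ x).2 d2⟩
  obtain ⟨g, hg, hgj, hgo, hgU, -⟩ := key _ (D l) le_rfl rfl (hD.decomp.nondegenerate l)
  have hgs : ∀ y ∈ D s, ∃ x ∈ D l, ap g x = y ∧ ap g y = x := fun y hy => by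
    obtain ⟨h1, h2'⟩ := hgU (φ.symm ⟨y, hy⟩) (φ.symm _).2
    rw [LinearEquiv.apply_symm_apply] at h1 h2'
    exact ⟨_, (φ.symm ⟨y, hy⟩).2, h1, h2'⟩
  refine ⟨g, ⟨mem_decompStab hD.decomp.decomp (π := Equiv.swap l s) fun i x hx => ?_, hg⟩, hgj,
    fun y hy => (hgs y hy).imp fun x hx => ⟨hx.1, hx.2.1⟩⟩
  by_cases hil : i = l
  · subst hil
    rw [Equiv.swap_apply_left, (hgU ⟨x, hx⟩ hx).1]
    exact (φ _).2
  · by_cases his : i = s
    · subst his
      rw [Equiv.swap_apply_right]
      obtain ⟨x', hx', -, e⟩ := hgs x hx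
      rw [e]; exact hx'
    · rw [Equiv.swap_apply_of_ne_of_ne hil his]
      by_cases hij : i = j
      · subst hij; exact hgj x hx
      · rw [hgo i hil his hij x hx]; exact hx

include hHM hMI

/-- A singular direction in another member spreads to the whole member. -/
lemma inn_member {l : Fin t} {z e : ι → F} (hze : Inn Q M z e) (he : e ∈ D l) (he0 : e ≠ 0)
    (hQe : Q e = 0) (hz : ∀ y ∈ D l, polar Q z y = 0) {d : ι → F} (hd : d ∈ D l) :
    Inn Q M z d := by
  have hW := hD.decomp.nondegenerate l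
  obtain ⟨f, hf, hQf, hef⟩ := exists_partner_in hW he he0 hQe
  have hfe : polar Q f e = 1 := by rw [polar_comm, hef]
  have key : ∀ y (hy : y ∈ D l) (hfy : polar Q f y = 0), polar Q e y = 0 →
      Inn Q M z (y - Q y • f) := fun y hy hfy hey => by
    have h := inn_shift hQ hn hD hHM hMI hze (sg_block_mem hD hQ hn hf hy hQf hfy)
      (ap_sg_fix hQf hfy (hz f hf) (hz y hy))
    rwa [ap_sg, hef, hey, one_smul, zero_add, mul_one, add_sub_assoc, add_sub_cancel_left] at h
  obtain ⟨y, hy, hey, hQy⟩ := exists_aniso_perp h2 hW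
    (by rw [hD.decomp.decomp.finrank_eq]; exact hk) he he0 hQe
  set y' := y - polar Q y f • e
  have hy' : y' ∈ D l := (D l).sub_mem hy ((D l).smul_mem _ he)
  have hfy' : polar Q f y' = 0 := by
    rw [polar_sub_right, polar_smul_right, hfe, smul_eq_mul, mul_one, polar_comm Q f y, sub_self]
  have hey' : polar Q e y' = 0 := by
    rw [polar_sub_right, polar_smul_right, hey, polar_self_mul, hQe]; simp
  have hQy' : Q y' = Q y := by
    rw [map_sub_eq, QuadraticMap.map_smul, polar_smul_right, hQe, polar_comm Q y e, hey]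
    simp
  have hinf : Inn Q M z f := by
    have h1 := key y' hy' hfy' hey'
    have h3 := key (-y') ((D l).neg_mem hy') (by rw [polar_neg_right, hfy', neg_zero])
      (by rw [polar_neg_right, hey', neg_zero])
    rw [QuadraticMap.map_neg] at h3
    have hQy'0 : Q y' ≠ 0 := hQy'.symm ▸ hQy
    have := (h1.add h3).smul (-(2 * Q y'))⁻¹
    convert this using 1
    match_scalars <;> field_simp <;> ring
  have hd' : d = (polar Q d f • e + polar Q d e • f) + (d - polar Q d f • e - polar Q d e • f) := by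
    abel
  rw [hd']
  refine ((hze.smul _).add (hinf.smul _)).add ?_
  set u := d - polar Q d f • e - polar Q d e • f
  have hu : u ∈ D l := (D l).sub_mem ((D l).sub_mem hd ((D l).smul_mem _ he)) ((D l).smul_mem _ hf)
  have h1 : polar Q f u = 0 := by
    rw [polar_sub_right, polar_sub_right, polar_smul_right, polar_smul_right, hfe, polar_self_mul,
      hQf, polar_comm Q f d]
    simp
  have h2' : polar Q e u = 0 := by
    rw [polar_sub_right, polar_sub_right, polar_smul_right, polar_smul_right, hef, polar_self_mul,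
      hQe, polar_comm Q e d]
    simp
  have := (key u hu h1 h2').add (hinf.smul (Q u))
  rwa [sub_add_cancel] at this

/-- A mixed element gives everything. -/
theorem omega_le_of_mixed (hM : Mixed Q M D) : Cfsg.Geo.omegaGL (⇑Q) ≤ M := by
  classical
  obtain ⟨j, z, hz, hz0, w, hw, hin⟩ := hM
  have hcj : ∀ (i : Fin t) (x : ι → F), x ∈ D i → ∀ r, r ≠ i → cp r x = 0 := fun i x hx r hr => by
    rw [Decomp.comp_of_mem _ hx, if_neg hr]
  obtain ⟨l, hlj, hl⟩ : ∃ l, l ≠ j ∧ cp l w ≠ 0 := by
    by_contra h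
    push Not at h
    refine hw ?_
    have e : w = cp j w := Decomp.ext_comp hD.decomp.decomp fun i => by
      rw [Decomp.comp_of_mem _ (Decomp.comp_mem _ j w)]
      split_ifs with hi
      · rw [hi]
      · exact h i hi
    rw [e]; exact Decomp.comp_mem _ j w
  obtain ⟨e, he, he0, hQe, hze⟩ :=
    inn_singular_of_zero hQ h2 hn hD hk hHM hMI hin (hcj j z hz l hlj) hl
  have horth : ∀ {i r : Fin t}, i ≠ r → ∀ x ∈ D i, ∀ y ∈ D r, polar Q x y = 0 :=
    fun h x hx y hy => orth_apply_blocks hD h hx hy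
  -- both members, in both orders
  have hlink : ∀ z' ∈ D j, Q z' = 0 → ∀ d ∈ D l, Inn Q M z' d := by
    intro z' hz' hQz' d hd
    exact inn_member hQ h2 hn hD hk hHM hMI
      ((inn_member hQ h2 hn hD hk hHM hMI (hze.swap hQe) hz hz0 hze.1
        (fun y hy => horth hlj e he y hy) hz').swap hQz') he he0 hQe
      (fun y hy => horth hlj.symm z' hz' y hy) hd
  have hall : ∀ s, s ≠ j → ∀ z' ∈ D j, Q z' = 0 → ∀ d ∈ D s, Inn Q M z' d := by
    intro s hs z' hz' hQz' d hd
    by_cases hsl : s = l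
    · subst hsl; exact hlink z' hz' hQz' d hd
    obtain ⟨g, hg, hgj, hgs⟩ := exists_exchange hQ h2 hn hD hk (Ne.symm hsl) hlj.symm hs.symm
    obtain ⟨x, hx, rfl⟩ := hgs d hd
    have hmap : (D j).map (apEquiv g).toLinearMap = D j :=
      Submodule.eq_of_le_of_finrank_eq (fun _ ⟨y, hy, e⟩ => e ▸ hgj y hy)
        (LinearEquiv.finrank_map_eq _ _)
    obtain ⟨y, hy, hyz⟩ := (hmap.ge hz' : z' ∈ (D j).map (apEquiv g).toLinearMap)
    have hyz' : ap g y = z' := hyz
    have hQy : Q y = 0 := by
      rw [← mem_isometryGroup_iff.mp (hMI (hHM hg)) y, hyz']; exact hQz'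
    have := (hlink y hy hQy x hx).conj hMI (hHM hg)
    rwa [hyz'] at this
  have hfull : ∀ z' ∈ D j, Full Q M z' := by
    intro z' hz' hQz' v hv
    have hsum : ∀ S : Finset (Fin t), Inn Q M z' (∑ r ∈ S, cp r v) := fun S => by
      induction S using Finset.induction_on with
      | empty => simpa using Inn.zero (Q := Q) (M := M) hQz'
      | insert r S hr ih =>
        rw [Finset.sum_insert hr]
        refine Inn.add ?_ ih
        by_cases hrj : r = j
        · subst hrj
          refine inn_block hD hQ hn hHM hz' (Decomp.comp_mem _ r v) hQz' ?_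
          rw [polar_comm, ← polar_comp hD v hz', polar_comm]; exact hv
        · exact hall r hrj z' hz' hQz' _ (Decomp.comp_mem _ r v)
    have := hsum Finset.univ
    rw [Decomp.sum_comp] at this
    exact this.mem hQz' hv
  obtain ⟨f, hf, hQf, hzf⟩ := exists_partner_in (hD.decomp.nondegenerate j) hz hz0 hin.1
  exact Full.le_of_pair hQ hn hMI (hfull z hz) (hfull f hf) hin.1 hQf
    (by rw [hzf]; exact one_ne_zero)

end CfsgLib.Geometric.Orth
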