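import Cfsg.Agent.Lib.Geometric.Orth.Perp

/-!
A subspace of a non-degenerate subspace `W` invariant under the reflections and the Siegel elements
of `W` is zero or `W`, unless `W` is a hyperbolic plane over at most three elements.
-/

namespace CfsgLib.Geometric.Orth

open Matrix QuadraticMap CfsgLib.ClassicalForms

variable {ι : Type} [Fintype ι] [DecidableEq ι] {F : Type*} [Field F]
variable {Q : QuadraticForm F (ι → F)} {W : Submodule F (ι → F)}
omit [DecidableEq ι] in
lemma finrank_le_two_of_le {W : Submodule F (ι → F)} {a b : ι → F}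
    (h : W ≤ Submodule.span F {a, b}) : Module.finrank F W ≤ 2 := by
  classical
  refine (Submodule.finrank_mono h).trans ?_
  have : Submodule.span F {a, b} ≤ Submodule.span F ↑({a, b} : Finset (ι → F)) := by simp
  exact (Submodule.finrank_mono this).trans
    ((finrank_span_finset_le_card _).trans Finset.card_le_two)

variable (hQ : Nondeg Q) (hW : Cfsg.Geo.IsNondegenerateOn (polar (⇑Q)) W)
include hQ hW

/-- Separation inside a non-degenerate subspace. -/
lemma exists_sep_in {U : Submodule F (ι → F)} (hU : U ≤ W) {x : ι → F} (hx : x ∈ W)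
    (hxU : x ∉ U) : ∃ y ∈ W, (∀ u ∈ U, polar Q u y = 0) ∧ polar Q x y = 1 := by
  obtain ⟨y, hy, hxy⟩ := exists_polar_sep hQ hxU
  refine ⟨y - (secW hW).π y, sub_secW_π_mem hW y, fun u hu => ?_, ?_⟩
  · rw [polar_sub_right, hy u hu,
      mem_perpW.mp ((mem_secW hW).mp ((secW hW).mem_proj y)) u (hU hu), sub_zero]
  · rw [polar_sub_right, hxy,
      mem_perpW.mp ((mem_secW hW).mp ((secW hW).mem_proj y)) x hx, sub_zero]

theorem eq_of_invariant [Finite F]
    (hex : Nat.card F ≤ 3 → Module.finrank F W = 2 → ∀ x ∈ W, Q x = 0 → x = 0)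
    {L : Submodule F (ι → F)} (hLW : L ≤ W) (hL0 : L ≠ ⊥)
    (hrefl : ∀ v ∈ W, Q v ≠ 0 → ∀ x ∈ L, x - ((Q v)⁻¹ * polar Q x v) • v ∈ L)
    (hsg : ∀ s ∈ W, ∀ w ∈ W, ∀ (hs : Q s = 0) (hsw : polar Q s w = 0),
      ∀ x ∈ L, ap (sg Q s w hs hsw) x ∈ L) : L = W := by
  by_contra hne
  set L' := W ⊓ perpW Q L with hL'
  have hmem' : ∀ x, x ∈ L' ↔ x ∈ W ∧ ∀ l ∈ L, polar Q l x = 0 := fun x => Iff.rfl
  have hdich : ∀ v ∈ W, Q v ≠ 0 → v ∈ L ∨ v ∈ L' := by
    intro v hv hQv
    by_cases hvL : v ∈ L
    · exact Or.inl hvL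
    refine Or.inr ((hmem' v).2 ⟨hv, fun l hl => ?_⟩)
    by_contra hlv
    have h := L.sub_mem hl (hrefl v hv hQv l hl)
    rw [sub_sub_cancel] at h
    refine hvL ?_
    have := L.smul_mem ((Q v)⁻¹ * polar Q l v)⁻¹ h
    rwa [smul_smul, inv_mul_cancel₀ (mul_ne_zero (inv_ne_zero hQv) hlv), one_smul] at this
  obtain ⟨a, ha, ha0⟩ := Submodule.exists_mem_ne_zero_of_ne_bot hL0
  obtain ⟨c, hc, hc0⟩ : ∃ c ∈ L', c ≠ 0 := by
    obtain ⟨x, hx, hxL⟩ := SetLike.exists_of_lt (lt_of_le_of_ne hLW hne)
    obtain ⟨y, hy, hLy, hxy⟩ := exists_sep_in hQ hW hLW hx hxL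
    exact ⟨y, (hmem' y).2 ⟨hy, hLy⟩, fun h => by simp [h] at hxy⟩
  by_cases hr : ∃ r, r ∈ L ∧ r ∈ L' ∧ r ≠ 0
  · obtain ⟨r, hrL, hrL', hr0⟩ := hr
    obtain ⟨x, hx, -, hrx⟩ := exists_sep_in hQ hW (U := ⊥) bot_le (hLW hrL) (by simpa using hr0)
    have key : ∀ z ∈ W, polar Q r z = 1 → Q z = 0 := by
      intro z hz hrz
      by_contra hQz
      rcases hdich z hz hQz with h | h
      · have h1 := ((hmem' r).1 hrL').2 z h
        rw [polar_comm, hrz] at h1
        exact one_ne_zero h1
      · have h1 := ((hmem' z).1 h).2 r hrL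
        rw [hrz] at h1
        exact one_ne_zero h1
    have hrr : polar Q r r = 0 := ((hmem' r).1 hrL').2 r hrL
    have ht : ∀ t : F, t * t * Q r + t = 0 := by
      intro t
      have h1 := key (x + t • r) (W.add_mem hx (W.smul_mem _ (hLW hrL)))
        (by rw [polar_add_right, polar_smul_right, hrr, hrx, smul_zero, add_zero])
      rwa [QuadraticMap.map_add (⇑Q), key x hx hrx, QuadraticMap.map_smul, polar_smul_right,
        polar_comm Q x r, hrx, smul_eq_mul, smul_eq_mul, mul_one, zero_add] at h1
    have hQr : Q r = -1 := by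
      have := ht 1
      rw [one_mul, one_mul] at this
      exact eq_neg_of_add_eq_zero_left this
    have hcard : Nat.card F ≤ 3 := by
      classical
      have := Fintype.ofFinite F
      rw [Nat.card_eq_fintype_card, ← Finset.card_univ]
      refine (Finset.card_le_card (t := ({0, 1} : Finset F)) fun t _ => ?_).trans
        (Finset.card_le_two.trans (by norm_num))
      have h := ht t
      rw [hQr] at h
      have h' : t * (1 - t) = 0 := by linear_combination h
      rcases mul_eq_zero.1 h' with h0 | h1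
      · simp [h0]
      · simp [(sub_eq_zero.1 h1).symm]
    have hx0 : x ≠ 0 := fun h => by simp [h] at hrx
    refine hx0 (hex hcard ?_ x hx (key x hx hrx))
    have hsp : W ≤ Submodule.span F {r, x} := by
      intro y hy
      by_contra hy'
      set y' := y - polar Q r y • x with hy'def
      have hy'W : y' ∈ W := W.sub_mem hy (W.smul_mem _ hx)
      have hy'r : polar Q r y' = 0 := by
        rw [hy'def, polar_sub_right, polar_smul_right, hrx, smul_eq_mul, mul_one, sub_self]
      have hnot : y' ∉ Submodule.span F {r} := fun h => by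
        refine hy' ?_
        have e : y = y' + polar Q r y • x := by rw [hy'def]; abel
        rw [e]
        exact Submodule.add_mem _ (Submodule.span_mono (by simp) h)
          (Submodule.smul_mem _ _ (Submodule.subset_span (by simp)))
      obtain ⟨w, hw, hrw, hyw⟩ := exists_sep_in hQ hW
        (U := Submodule.span F {r}) ((Submodule.span_singleton_le_iff_mem _ _).2 (hLW hrL))
        hy'W hnot
      have hrw' := hrw r (Submodule.mem_span_singleton_self r)
      have h1 := key (x + y') (W.add_mem hx hy'W) (by rw [polar_add_right, hrx, hy'r, add_zero])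
      have h2 := key (x + w) (W.add_mem hx hw) (by rw [polar_add_right, hrx, hrw', add_zero])
      have h3 := key (x + (y' + w)) (W.add_mem hx (W.add_mem hy'W hw))
        (by rw [polar_add_right, polar_add_right, hrx, hy'r, hrw', add_zero, add_zero])
      rw [QuadraticMap.map_add (⇑Q)] at h1 h2 h3
      rw [QuadraticMap.map_add (⇑Q) y' w, polar_add_right, hyw, key x hx hrx] at h3
      rw [key x hx hrx] at h1 h2
      exact one_ne_zero (by linear_combination h3 - h1 - h2 : (1 : F) = 0)
    refine le_antisymm (finrank_le_two_of_le hsp) ?_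
    have hli : LinearIndependent F ![(⟨r, hLW hrL⟩ : W), ⟨x, hx⟩] := by
        refine LinearIndependent.pair_iff.2 fun s t hst => ?_
        have h : s • r + t • x = 0 := congrArg Subtype.val hst
        have ht0 : t = 0 := by
          have h1 := congrArg (polar Q r) h
          simpa [polar_add_right, polar_smul_right, hrr, hrx] using h1
        rw [ht0, zero_smul, add_zero, smul_eq_zero] at h
        exact ⟨h.resolve_right hr0, ht0⟩
    simpa using hli.fintype_card_le_finrank
  push Not at hr
  have hac : ∀ a ∈ L, ∀ c ∈ L', a ≠ 0 → c ≠ 0 → Q c = -Q a := by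
    intro a ha c hc ha0 hc0
    have hac : polar Q a c = 0 := ((hmem' c).1 hc).2 a ha
    have h : Q (a + c) = 0 := by
      by_contra h
      rcases hdich _ (W.add_mem (hLW ha) ((hmem' c).1 hc).1) h with h' | h'
      · exact hc0 (hr c (by simpa using L.sub_mem h' ha) hc)
      · exact ha0 (hr a ha (by simpa using L'.sub_mem h' hc))
    rw [QuadraticMap.map_add (⇑Q), hac, add_zero] at h
    exact eq_neg_of_add_eq_zero_right h
  have hQa : Q a ≠ 0 := by
    intro h
    have hL : ∀ l ∈ L, Q l = 0 := fun l hl => by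
      by_cases hl0 : l = 0
      · simp [hl0]
      have h1 := hac l hl c hc hl0 hc0
      rw [hac a ha c hc ha0 hc0, h, neg_zero] at h1
      exact (neg_eq_zero.1 h1.symm)
    exact ha0 (hr a ha ((hmem' a).2 ⟨hLW ha, fun l hl => polar_eq_zero_of_singular hL hl ha⟩))
  have hconst : ∀ l ∈ L, l ≠ 0 → Q l = Q a := fun l hl hl0 =>
    neg_injective ((hac l hl c hc hl0 hc0).symm.trans (hac a ha c hc ha0 hc0))
  have hconst' : ∀ l ∈ L', l ≠ 0 → Q l = Q c := fun l hl hl0 =>
    (hac a ha l hl ha0 hl0).trans (hac a ha c hc ha0 hc0).symm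
  have hQc : Q c = -Q a := hac a ha c hc ha0 hc0
  have hQs : Q (a + c) = 0 := by
    rw [QuadraticMap.map_add (⇑Q), ((hmem' c).1 hc).2 a ha, hQc]; ring
  have hs0 : a + c ≠ 0 := fun h =>
    ha0 (hr a ha (by rw [eq_neg_of_add_eq_zero_left h]; exact L'.neg_mem hc))
  by_cases h2 : (2 : F) = 0
  · obtain ⟨w, hw, hsw, haw⟩ := exists_sep_in hQ hW (U := Submodule.span F {a + c})
      ((Submodule.span_singleton_le_iff_mem _ _).2 (W.add_mem (hLW ha) ((hmem' c).1 hc).1))
      (hLW ha) (fun h => by
        obtain ⟨t, ht⟩ := Submodule.mem_span_singleton.1 h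
        have ht' : (1 - t) • a = t • c := by
          rw [smul_add] at ht
          rw [sub_smul, one_smul, sub_eq_iff_eq_add', ht]
        have h1 : t • c = 0 := hr _ (ht' ▸ L.smul_mem _ ha) (L'.smul_mem _ hc)
        rw [h1, smul_eq_zero] at ht'
        have ht1 : (1 : F) - t = 0 := ht'.resolve_right ha0
        rw [← sub_eq_zero.1 ht1, one_smul] at h1
        exact hc0 h1)
    have h := hsg (a + c) (W.add_mem (hLW ha) ((hmem' c).1 hc).1) w hw hQs
      (hsw _ (Submodule.mem_span_singleton_self _)) a ha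
    rw [ap_sg, polar_add_right, polar_self_mul, h2, ((hmem' c).1 hc).2 a ha, haw] at h
    have hcL : c ∈ L := by
      have h' := L.neg_mem h
      simpa using h'
    exact hc0 (hr c hcL hc)
  · have hspan : ∀ (K : Submodule F (ι → F)) (b : ι → F), Q b ≠ 0 →
        (∀ l ∈ K, l ≠ 0 → Q l = Q b) → b ∈ K → ∀ l ∈ K, l ∈ Submodule.span F {b} := by
      intro K b hQb hK hb l hl
      by_contra hlb
      have e1 := hK (b + l) (K.add_mem hb hl) fun h => hlb (by
        rw [eq_neg_of_add_eq_zero_right h]
        exact Submodule.neg_mem _ (Submodule.mem_span_singleton_self b))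
      have e2 := hK (b - l) (K.sub_mem hb hl) fun h => hlb (by
        rw [← sub_eq_zero.1 h]; exact Submodule.mem_span_singleton_self b)
      have e3 := hK l hl fun h => hlb (by rw [h]; exact zero_mem _)
      rw [QuadraticMap.map_add (⇑Q), e3] at e1
      rw [CfsgLib.ClassicalForms.map_sub_eq, e3] at e2
      exact mul_ne_zero h2 hQb (by linear_combination e1 + e2)
    have hcard : Nat.card F ≤ 3 := by
      classical
      have := Fintype.ofFinite F
      rw [Nat.card_eq_fintype_card, ← Finset.card_univ]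
      refine (Finset.card_le_card (t := ({0, 1, -1} : Finset F)) fun t _ => ?_).trans
        Finset.card_le_three
      by_cases ht : t = 0
      · simp [ht]
      have h := hconst (t • a) (L.smul_mem _ ha) (smul_ne_zero ht ha0)
      rw [QuadraticMap.map_smul, smul_eq_mul] at h
      have h1 : t * t = 1 := mul_right_cancel₀ hQa (by rw [one_mul, h])
      rcases mul_self_eq_one_iff.1 h1 with h1 | h1 <;> simp [h1]
    have hQc0 : Q c ≠ 0 := by rw [hQc]; exact neg_ne_zero.2 hQa
    have hsW : W ≤ Submodule.span F {a, c} := by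
      intro y hy
      set α := polar Q a y / (2 * Q a) with hα
      set y₁ := y - α • a with hy₁
      have hy₁L' : y₁ ∈ L' := by
        refine (hmem' y₁).2 ⟨W.sub_mem hy (W.smul_mem _ (hLW ha)), fun l hl => ?_⟩
        obtain ⟨t, rfl⟩ := Submodule.mem_span_singleton.1 (hspan L a hQa hconst ha l hl)
        rw [polar_smul_left, hy₁, polar_sub_right, polar_smul_right, polar_self_mul, hα,
          smul_eq_mul, smul_eq_mul, div_mul_cancel₀ _ (mul_ne_zero h2 hQa), sub_self, mul_zero]
      obtain ⟨t, ht⟩ := Submodule.mem_span_singleton.1 (hspan L' c hQc0 hconst' hc y₁ hy₁L')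
      have e : y = α • a + t • c := by rw [ht, hy₁]; abel
      rw [e]
      exact Submodule.add_mem _ (Submodule.smul_mem _ _ (Submodule.subset_span (by simp)))
        (Submodule.smul_mem _ _ (Submodule.subset_span (by simp)))
    refine hs0 (hex hcard ?_ _ (W.add_mem (hLW ha) ((hmem' c).1 hc).1) hQs)
    refine le_antisymm (finrank_le_two_of_le hsW) ?_
    have hli : LinearIndependent F ![(⟨a, hLW ha⟩ : W), ⟨c, ((hmem' c).1 hc).1⟩] := by
        refine LinearIndependent.pair_iff.2 fun s t hst => ?_
        have h : s • a + t • c = 0 := congrArg Subtype.val hst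
        have h1 : s • a ∈ L' := by
          rw [eq_neg_of_add_eq_zero_left h]; exact L'.neg_mem (L'.smul_mem _ hc)
        have hs : s = 0 := (smul_eq_zero.1 (hr _ (L.smul_mem _ ha) h1)).resolve_right ha0
        rw [hs, zero_smul, zero_add, smul_eq_zero] at h
        exact ⟨hs, h.resolve_right hc0⟩
    simpa using hli.fintype_card_le_finrank

end CfsgLib.Geometric.Orth
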