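import Cfsg.Agent.Lib.Geometric.Orth.Values
import Cfsg.Agent.Lib.Geometric.Orth.NondegInvariant
import Cfsg.Agent.Lib.Geometric.Decomp

/-!
Reflections of a quadratic form in odd characteristic and the products of two reflections of equal
value inside a non-degenerate subspace.
-/

namespace CfsgLib.Geometric.Orth

open Matrix QuadraticMap CfsgLib.ClassicalForms

variable {ι : Type} [Fintype ι] [DecidableEq ι] {F : Type*} [Field F]
variable {Q : QuadraticForm F (ι → F)}

open Classical in
/-- The reflection along `v`, the identity if `v` is singular. -/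
noncomputable def rf (Q : QuadraticForm F (ι → F)) (v : ι → F) : GL ι F :=
  if h : Q v = 0 then 1 else orthToGL Q (refl Q v h)

lemma ap_rf (v x : ι → F) : ap (rf Q v) x = x - ((Q v)⁻¹ * polar Q x v) • v := by
  unfold rf
  split_ifs with h
  · simp [h]
  · rw [ap_orthToGL, refl_apply]

lemma rf_mem_isom (v : ι → F) : rf Q v ∈ Cfsg.isometryGroup F (⇑Q) := by
  unfold rf
  split_ifs with h
  · exact one_mem _
  · exact orthToGL_mem _

lemma ap_rf_fix {v x : ι → F} (h : polar Q x v = 0) : ap (rf Q v) x = x := by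
  rw [ap_rf, h, mul_zero, zero_smul, sub_zero]

lemma ap_rf_mem {S : Submodule F (ι → F)} {v x : ι → F} (hv : v ∈ S) (hx : x ∈ S) :
    ap (rf Q v) x ∈ S := by
  rw [ap_rf]; exact S.sub_mem hx (S.smul_mem _ hv)

/-- The reflection along `u - w` maps `u` to `w`. -/
lemma ap_rf_sub {u w : ι → F} (hQ : Q u = Q w) (h : Q (u - w) ≠ 0) : ap (rf Q (u - w)) u = w := by
  have h1 : polar Q u (u - w) = Q (u - w) := by
    rw [polar_sub_right, polar_self_mul, map_sub_eq, ← hQ]; ring
  rw [ap_rf, h1, inv_mul_cancel₀ h, one_smul, sub_sub_cancel]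

lemma rf_mul_rf_mem [Finite F] (hQ : Nondeg Q) (hn : 5 ≤ Fintype.card ι) {v w : ι → F}
    (hv : Q v ≠ 0) (h : Q v = Q w) : rf Q v * rf Q w ∈ Cfsg.Geo.omegaGL (⇑Q) := by
  have hw : Q w ≠ 0 := h ▸ hv
  rw [rf, dif_neg hv, rf, dif_neg hw, ← map_mul]
  refine orthToGL_mem_omega' hQ hn ?_
  have := refl_div_mem_siegelGroup hQ (by simpa using hn) hv hw
    (by rw [h, mul_inv_cancel₀ hw]; exact ⟨1, (one_mul 1).symm⟩)
  rwa [refl_inv] at this

variable (h2 : (2 : F) ≠ 0) {W : Submodule F (ι → F)}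
  (hW : Cfsg.Geo.IsNondegenerateOn (polar (⇑Q)) W)
include h2 hW

/-- A non-degenerate subspace has an anisotropic vector pairing with a given one. -/
lemma exists_aniso_pairing {u : ι → F} (hu : u ∈ W) (hu0 : u ≠ 0) :
    ∃ v ∈ W, Q v ≠ 0 ∧ polar Q u v ≠ 0 := by
  by_cases hQu : Q u = 0
  · obtain ⟨x, hx, hxu⟩ := (hW u hu hu0).2
    by_cases hQx : Q x = 0
    · refine ⟨x + u, W.add_mem hx hu, ?_, ?_⟩
      · rw [QuadraticMap.map_add (⇑Q), hQx, hQu, polar_comm, zero_add, zero_add]; exact hxu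
      · rw [polar_add_right, polar_self_mul, hQu, mul_zero, add_zero]; exact hxu
    · exact ⟨x, hx, hQx, hxu⟩
  · exact ⟨u, hu, hQu, by rw [polar_self_mul]; exact mul_ne_zero h2 hQu⟩

omit [DecidableEq ι] in
/-- The orthogonal complement of an anisotropic vector inside a non-degenerate subspace. -/
lemma nondeg_inf_pf {a : ι → F} (ha : a ∈ W) (hQa : Q a ≠ 0) :
    Cfsg.Geo.IsNondegenerateOn (polar (⇑Q)) (W ⊓ LinearMap.ker (pf Q a)) := by
  intro x hx hx0
  obtain ⟨y, hy, hxy⟩ := (hW x hx.1 hx0).2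
  have hxa : polar Q x a = 0 := hx.2
  have haa : polar Q a a ≠ 0 := by rw [polar_self_mul]; exact mul_ne_zero h2 hQa
  set y' := y - (polar Q y a / polar Q a a) • a
  have hy' : y' ∈ W ⊓ LinearMap.ker (pf Q a) := ⟨W.sub_mem hy (W.smul_mem _ ha), by
    show polar Q y' a = 0
    rw [polar_sub_left, polar_smul_left, smul_eq_mul, div_mul_cancel₀ _ haa, sub_self]⟩
  have hxy' : polar Q x y' ≠ 0 := by
    rwa [polar_sub_right, polar_smul_right, hxa, smul_zero, sub_zero]
  exact ⟨⟨y', hy', by rwa [polar_comm]⟩, ⟨y', hy', hxy'⟩⟩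

/-- Every value is taken on a non-degenerate subspace of dimension at least two. -/
lemma exists_value_in [Finite F] (hd : 2 ≤ Module.finrank F W) (t : F) : ∃ x ∈ W, Q x = t := by
  have hbot : W ≠ ⊥ := fun h => by rw [h, finrank_bot] at hd; omega
  obtain ⟨a, ha, ha0⟩ := Submodule.exists_mem_ne_zero_of_ne_bot hbot
  obtain ⟨v, hv, hQv, -⟩ := exists_aniso_pairing h2 hW ha ha0
  have hd' := finrank_le_inf_ker W (pf Q v)
  obtain ⟨b, hb, hb0⟩ := Submodule.exists_mem_ne_zero_of_ne_bot
    (show W ⊓ LinearMap.ker (pf Q v) ≠ ⊥ from fun h => by rw [h, finrank_bot] at hd'; omega)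
  obtain ⟨y, hy, hQy, -⟩ := exists_aniso_pairing h2 (nondeg_inf_pf h2 hW hv hQv) hb hb0
  obtain ⟨α, β, hαβ⟩ := exists_combination hQv hQy h2 t
  have hvy : polar Q v y = 0 := by rw [polar_comm]; exact hy.2
  refine ⟨α • v + β • y, W.add_mem (W.smul_mem _ hv) (W.smul_mem _ hy.1), ?_⟩
  rw [QuadraticMap.map_add (⇑Q), QuadraticMap.map_smul, QuadraticMap.map_smul, polar_smul_left,
    polar_smul_right, hvy]
  simp only [smul_eq_mul, mul_zero, add_zero]
  linear_combination hαβ

/-- A product of two reflections of equal value inside the subspace moves any given vector. -/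
lemma exists_pair_moving [Finite F] (hd : 2 ≤ Module.finrank F W)
    (hex : Nat.card F ≤ 3 → 3 ≤ Module.finrank F W) {u : ι → F} (hu : u ∈ W) (hu0 : u ≠ 0) :
    ∃ v ∈ W, ∃ w ∈ W, Q v ≠ 0 ∧ Q v = Q w ∧ ap (rf Q v * rf Q w) u ≠ u := by
  obtain ⟨v, hv, hQv, huv⟩ := exists_aniso_pairing h2 hW hu hu0
  have hW' := nondeg_inf_pf h2 hW hv hQv
  have hd' := finrank_le_inf_ker W (pf Q v)
  -- `x` is neither parallel nor orthogonal to `v`
  obtain ⟨y, hy, hy0, hQx⟩ : ∃ y ∈ W ⊓ LinearMap.ker (pf Q v), y ≠ 0 ∧ Q v + Q y ≠ 0 := by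
    by_cases h3 : Nat.card F ≤ 3
    · obtain ⟨y, hy, hQy⟩ := exists_value_in h2 hW' (by have := hex h3; omega) (Q v)
      exact ⟨y, hy, fun h => hQv (by rw [← hQy, h, QuadraticMap.map_zero]),
        by rw [hQy, ← two_mul]; exact mul_ne_zero h2 hQv⟩
    · obtain ⟨b, hb, hb0⟩ := Submodule.exists_mem_ne_zero_of_ne_bot
        (show W ⊓ LinearMap.ker (pf Q v) ≠ ⊥ from fun h => by rw [h, finrank_bot] at hd'; omega)
      by_cases hbad : Q v + Q b = 0
      · classical
        have := Fintype.ofFinite F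
        obtain ⟨s, hs⟩ : ∃ s : F, s ∉ ({0, 1, -1} : Finset F) := by
          obtain ⟨s, -, hs⟩ := Finset.exists_mem_notMem_of_card_lt_card
            (s := ({0, 1, -1} : Finset F)) (t := Finset.univ) (by
              refine lt_of_le_of_lt Finset.card_le_three ?_
              rw [Finset.card_univ, ← Nat.card_eq_fintype_card]
              omega)
          exact ⟨s, hs⟩
        simp only [Finset.mem_insert, Finset.mem_singleton, not_or] at hs
        refine ⟨s • b, Submodule.smul_mem _ _ hb, smul_ne_zero hs.1 hb0, fun h => ?_⟩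
        rw [QuadraticMap.map_smul, smul_eq_mul] at h
        have hfac : (s - 1) * (s + 1) * Q b = 0 := by linear_combination h - hbad
        rcases mul_eq_zero.1 hfac with h' | h'
        · rcases mul_eq_zero.1 h' with h'' | h''
          · exact hs.2.1 (sub_eq_zero.1 h'')
          · exact hs.2.2 (eq_neg_of_add_eq_zero_left h'')
        · exact hQv (by linear_combination hbad - h')
      · exact ⟨b, hb, hb0, hbad⟩
  have hyv : polar Q y v = 0 := hy.2
  set x := v + y with hx
  have hQx' : Q x ≠ 0 := by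
    rw [hx, QuadraticMap.map_add (⇑Q), polar_comm Q v y, hyv, add_zero]
    exact hQx
  set w := ap (rf Q x) v with hw
  have hQw : Q w = Q v := mem_isometryGroup_iff.mp (rf_mem_isom x) v
  have hww : w = v - ((Q x)⁻¹ * polar Q v x) • x := ap_rf x v
  set c := (Q x)⁻¹ * polar Q v x with hc
  have hvx : polar Q v x = 2 * Q v := by
    rw [hx, polar_add_right, polar_self_mul, polar_comm Q v y, hyv, add_zero]
  have hc0 : c ≠ 0 := mul_ne_zero (inv_ne_zero hQx') (by rw [hvx]; exact mul_ne_zero h2 hQv)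
  refine ⟨v, hv, w, ap_rf_mem (W.add_mem hv hy.1) hv, hQv, hQw.symm, fun h => ?_⟩
  rw [ap_mul, ap_rf w u, ap_rf v] at h
  set e := (Q w)⁻¹ * polar Q u w
  set d := (Q v)⁻¹ * polar Q (u - e • w) v
  have hsum : e • w + d • v = 0 := by linear_combination (norm := module) -h
  have h' : (e * (1 - c) + d) • v = (e * c) • y := by
    rw [hww, hx] at hsum
    linear_combination (norm := module) hsum
  have h0 : (e * c) * polar Q y y = 0 := by
    have := congrArg (fun z => polar Q z y) h'
    simp only [polar_smul_left, smul_eq_mul, polar_comm Q v y, hyv, mul_zero] at this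
    exact this.symm
  have hey : (e * c) • y = 0 := by
    have := congrArg (fun z => polar Q z v) h'
    simp only [polar_smul_left, smul_eq_mul, hyv, mul_zero, polar_self_mul] at this
    rw [mul_eq_zero, or_iff_left (mul_ne_zero h2 hQv)] at this
    rw [← h', this, zero_smul]
  have he : e = 0 := ((smul_eq_zero.1 hey).resolve_right hy0 |> mul_eq_zero.1).resolve_right hc0
  rw [he, zero_smul, zero_add, smul_eq_zero] at hsum
  have hd0 : d = 0 := hsum.resolve_right fun h0' => hQv (by rw [h0', QuadraticMap.map_zero])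
  rw [show d = (Q v)⁻¹ * polar Q (u - e • w) v from rfl, he, zero_smul, sub_zero,
    mul_eq_zero] at hd0
  exact hd0.elim (inv_ne_zero hQv) huv

end CfsgLib.Geometric.Orth
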