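import Cfsg.Agent.Lib.Geometric.Orth.DecompSiegel

/-!
A Siegel element with a direction not aligned to its centre yields one whose centre lies in a
single member of the decomposition.
-/

namespace CfsgLib.Geometric.Orth

open Matrix QuadraticMap CfsgLib.ClassicalForms

variable {ι : Type} [Fintype ι] [DecidableEq ι] {F : Type*} [Field F] [Finite F]
variable {Q : QuadraticForm F (ι → F)} {t k : ℕ} {D : Fin t → Submodule F (ι → F)}
variable {M : Subgroup (GL ι F)}

/-- A Siegel element of centre in one member and direction outside it lies in `M`. -/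
def Mixed (Q : QuadraticForm F (ι → F)) (M : Subgroup (GL ι F))
    (D : Fin t → Submodule F (ι → F)) : Prop :=
  ∃ j, ∃ z ∈ D j, z ≠ 0 ∧ ∃ w, w ∉ D j ∧ Inn Q M z w

variable (hQ : Nondeg Q) (h2 : (2 : F) ≠ 0) (hn : 5 ≤ Fintype.card ι)
  (hD : Cfsg.Geo.IsOrthogonalMDecomposition (⇑Q) k D) (hk : 3 ≤ k)
  (hex : Nat.card F ≤ 3 → 4 ≤ k)
  (hHM : Cfsg.Geo.decompositionStabilizer D ⊓ Cfsg.Geo.omegaGL (⇑Q) ≤ M)
  (hMI : M ≤ Cfsg.isometryGroup F (⇑Q))

local notation "cp" => Decomp.comp hD.decomp.decomp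

omit [DecidableEq ι] [Finite F] in
/-- A singular partner inside a non-degenerate subspace. -/
lemma exists_partner_in {W : Submodule F (ι → F)}
    (hW : Cfsg.Geo.IsNondegenerateOn (polar (⇑Q)) W) {e : ι → F} (he : e ∈ W) (he0 : e ≠ 0)
    (hQe : Q e = 0) : ∃ f ∈ W, Q f = 0 ∧ polar Q e f = 1 := by
  obtain ⟨x, hx, hxe⟩ := (hW e he he0).2
  obtain ⟨x', hx', h1⟩ : ∃ x' ∈ W, polar Q e x' = 1 := ⟨(polar Q e x)⁻¹ • x, W.smul_mem _ hx, by
    rw [polar_smul_right, smul_eq_mul, inv_mul_cancel₀ hxe]⟩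
  refine ⟨x' - Q x' • e, W.sub_mem hx' (W.smul_mem _ he), ?_, ?_⟩
  · rw [map_sub_eq, QuadraticMap.map_smul, polar_smul_right, polar_comm Q x' e, h1, hQe]
    simp
  · rw [polar_sub_right, h1, polar_smul_right, polar_self_mul, hQe]
    simp

omit [Finite F] in
include h2 in
/-- An anisotropic vector orthogonal to a singular one. -/
lemma exists_aniso_perp {W : Submodule F (ι → F)}
    (hW : Cfsg.Geo.IsNondegenerateOn (polar (⇑Q)) W) (hd : 3 ≤ Module.finrank F W) {e : ι → F}
    (he : e ∈ W) (he0 : e ≠ 0) (hQe : Q e = 0) :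
    ∃ y ∈ W, polar Q e y = 0 ∧ Q y ≠ 0 := by
  obtain ⟨f, hf, hQf, hef⟩ := exists_partner_in hW he he0 hQe
  have hfe : polar Q f e = 1 := by rw [polar_comm, hef]
  have hv : Q (e + f) = 1 := by rw [QuadraticMap.map_add (⇑Q), hQe, hQf, hef]; ring
  have hv' : Q (e - f) = -1 := by rw [map_sub_eq, hQe, hQf, hef]; ring
  have hW1 := nondeg_inf_pf h2 hW (W.add_mem he hf) (by rw [hv]; exact one_ne_zero)
  have hvv : polar Q (e - f) (e + f) = 0 := by
    rw [polar_sub_left, polar_add_right, polar_add_right, polar_self_mul, polar_self_mul, hQe, hQf,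
      hef, hfe]
    ring
  have hW2 := nondeg_inf_pf h2 hW1 (a := e - f) ⟨W.sub_mem he hf, hvv⟩
    (by rw [hv']; exact neg_ne_zero.2 one_ne_zero)
  have hd1 := finrank_le_inf_ker W (pf Q (e + f))
  have hd2 := finrank_le_inf_ker (W ⊓ LinearMap.ker (pf Q (e + f))) (pf Q (e - f))
  obtain ⟨u, hu, hu0⟩ := Submodule.exists_mem_ne_zero_of_ne_bot
    (show W ⊓ LinearMap.ker (pf Q (e + f)) ⊓ LinearMap.ker (pf Q (e - f)) ≠ ⊥ from fun h => by
      rw [h, finrank_bot] at hd2; omega)
  obtain ⟨y, hy, hQy, -⟩ := exists_aniso_pairing h2 hW2 hu hu0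
  have ha : polar Q y (e + f) = 0 := hy.1.2
  have hb : polar Q y (e - f) = 0 := hy.2
  refine ⟨y, hy.1.1, ?_, hQy⟩
  rw [polar_add_right] at ha
  rw [polar_sub_right] at hb
  have h : (2 : F) * polar Q y e = 0 := by linear_combination ha + hb
  rw [polar_comm]
  exact (mul_eq_zero.1 h).resolve_left h2

include hQ hn hD hHM hMI

/-- An element preserving the members and fixing the centre shifts the direction. -/
lemma inn_shift {a b : ι → F} (hab : Inn Q M a b) {g : GL ι F}
    (hg : g ∈ Cfsg.Geo.decompositionStabilizer D ⊓ Cfsg.Geo.omegaGL (⇑Q)) (ha : ap g a = a) :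
    Inn Q M a (ap g b - b) := by
  have := hab.conj hMI (hHM hg)
  rw [ha] at this
  exact this.sub hab

include h2 hk in
/-- A direction with a component not orthogonal to, or not aligned with, a singular vector fixed by
the stabiliser of the centre gives that vector as a direction. -/
lemma inn_singular {l : Fin t} {a b e : ι → F} (hab : Inn Q M a b) (he : e ∈ D l) (he0 : e ≠ 0)
    (hQe : Q e = 0) (hae : polar Q a e = 0)
    (hay : ∀ y ∈ D l, polar Q e y = 0 → polar Q a y = 0)
    (hb : cp l b ∉ Submodule.span F {e}) : Inn Q M a e := by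
  have hW := hD.decomp.nondegenerate l
  have key : ∀ y (hy : y ∈ D l) (hey : polar Q e y = 0),
      Inn Q M a (polar Q b e • y - (polar Q b y + Q y * polar Q b e) • e) := fun y hy hey => by
    have h := inn_shift hQ hn hD hHM hMI hab (sg_block_mem hD hQ hn he hy hQe hey)
      (ap_sg_fix hQe hey hae (hay y hy hey))
    rwa [ap_sg, add_sub_assoc, add_sub_cancel_left] at h
  by_cases hbe : polar Q b e = 0
  · obtain ⟨y, hy, hyp, hby⟩ := exists_sep_in hQ hW ((Submodule.span_singleton_le_iff_mem _ _).2 he)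
      (Decomp.comp_mem _ l b) hb
    have h := key y hy (hyp e (Submodule.mem_span_singleton_self e))
    rw [hbe, polar_comp hD b hy, hby] at h
    have := h.smul (-1 : F)
    simpa using this
  · obtain ⟨y, hy, hey, hQy⟩ := exists_aniso_perp h2 hW
      (by rw [hD.decomp.decomp.finrank_eq]; exact hk) he he0 hQe
    have h := (key y hy hey).add (key (-y) ((D l).neg_mem hy)
      (by rw [polar_neg_right, hey, neg_zero]))
    rw [QuadraticMap.map_neg, polar_neg_right] at h
    have hc : (2 : F) * Q y * polar Q b e ≠ 0 := mul_ne_zero (mul_ne_zero h2 hQy) hbe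
    have := h.smul (-((2 : F) * Q y * polar Q b e))⁻¹
    convert this using 1
    match_scalars <;> field_simp <;> ring

include h2 hk in
/-- A centre avoiding a member with a direction meeting it has a singular direction in it. -/
lemma inn_singular_of_zero {l : Fin t} {a b : ι → F} (hab : Inn Q M a b)
    (hal : cp l a = 0) (hbl : cp l b ≠ 0) : ∃ e ∈ D l, e ≠ 0 ∧ Q e = 0 ∧ Inn Q M a e := by
  have hW := hD.decomp.nondegenerate l
  have hd : 3 ≤ Module.finrank F (D l) := by rw [hD.decomp.decomp.finrank_eq]; exact hk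
  have ha : ∀ y ∈ D l, polar Q a y = 0 := fun y hy => by
    rw [polar_comp hD a hy, hal, polar_zero_left]
  set u := cp l b
  have hu : u ∈ D l := Decomp.comp_mem _ l b
  -- a singular vector of the member which is not parallel to `u`
  obtain ⟨e, he, he0, hQe, hsp⟩ : ∃ e ∈ D l, e ≠ 0 ∧ Q e = 0 ∧ u ∉ Submodule.span F {e} := by
    obtain ⟨e, he, he0, hQe⟩ := exists_singular (Q := Q) h2 hd
    by_cases hsp : u ∈ Submodule.span F {e}
    · obtain ⟨f, hf, hQf, hef⟩ := exists_partner_in hW he he0 hQe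
      refine ⟨f, hf, fun h0 => by simp [h0] at hef, hQf, fun hsp' => hbl ?_⟩
      obtain ⟨c, hc⟩ := Submodule.mem_span_singleton.1 hsp
      obtain ⟨c', hc'⟩ := Submodule.mem_span_singleton.1 hsp'
      have h := congrArg (fun z => polar Q z e) (hc.trans hc'.symm)
      simp only [polar_smul_left, smul_eq_mul, polar_self_mul, hQe, polar_comm Q f e, hef,
        mul_zero, mul_one] at h
      change u = 0
      rw [← hc', ← h, zero_smul]
    · exact ⟨e, he, he0, hQe, hsp⟩
  have hin := inn_singular hQ h2 hn hD hk hHM hMI hab he he0 hQe (ha e he)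
    (fun y hy _ => ha y hy) hsp
  exact ⟨e, he, he0, hQe, hin⟩

include h2 hk in
/-- A centre avoiding a member with a direction meeting it. -/
lemma mixed_of_zero {l : Fin t} {a b : ι → F} (hab : Inn Q M a b) (ha0 : a ≠ 0)
    (hal : cp l a = 0) (hbl : cp l b ≠ 0) : Mixed Q M D := by
  obtain ⟨e, he, he0, hQe, hin⟩ := inn_singular_of_zero hQ h2 hn hD hk hHM hMI hab hal hbl
  refine ⟨l, e, he, he0, a, fun h => ha0 ?_, hin.swap hQe⟩
  have := Decomp.comp_of_mem hD.decomp.decomp (i := l) h
  rw [if_pos rfl, hal] at this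
  exact this.symm

include h2 hk in
/-- A direction not aligned with the centre in some member. -/
theorem mixed_of_singular {l : Fin t} {a b : ι → F} (hab : Inn Q M a b) (ha : a ∉ D l)
    (hal : Q (cp l a) = 0) (hbl : cp l b ∉ Submodule.span F {cp l a}) : Mixed Q M D := by
  by_cases h0 : cp l a = 0
  · exact mixed_of_zero hQ h2 hn hD hk hHM hMI hab (fun h => ha (h ▸ (D l).zero_mem)) h0
      fun h => hbl (h ▸ Submodule.zero_mem _)
  have he := Decomp.comp_mem hD.decomp.decomp l a
  have hpe : polar Q a (cp l a) = 0 := by rw [polar_comp hD a he, polar_self_mul, hal, mul_zero]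
  exact ⟨l, _, he, h0, a, ha, (inn_singular hQ h2 hn hD hk hHM hMI hab he h0 hal hpe
    (fun y hy hy' => by rwa [polar_comp hD a hy]) hbl).swap hal⟩

end CfsgLib.Geometric.Orth
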