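import Cfsg.Agent.Lib.Geometric.Orth.DecompReflect

/-!
Elements preserving an orthogonal decomposition and the relation "every Siegel element of this
centre and direction lies in the subgroup".
-/

namespace CfsgLib.Geometric.Orth

open Matrix QuadraticMap CfsgLib.ClassicalForms

variable {ι : Type} [Fintype ι] [DecidableEq ι] {F : Type*} [Field F]
variable {Q : QuadraticForm F (ι → F)}

/-- The Siegel elements of centre `a` and direction in the line of `b` lie in `M`. -/
def Inn (Q : QuadraticForm F (ι → F)) (M : Subgroup (GL ι F)) (a b : ι → F) : Prop :=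
  ∃ (hu : Q a = 0) (hw : polar Q a b = 0),
    ∀ c : F, sg Q a (c • b) hu (by rw [polar_smul_right, hw, smul_zero]) ∈ M

variable {M : Subgroup (GL ι F)}

lemma Inn.mem {a b : ι → F} (h : Inn Q M a b) (hu : Q a = 0) (hw : polar Q a b = 0) :
    sg Q a b hu hw ∈ M := by
  obtain ⟨_, _, h⟩ := h
  have := h 1
  rwa [sg_congr rfl (one_smul F b)] at this

lemma sg_add' {u w w' : ι → F} (hu : Q u = 0) (hw : polar Q u w = 0) (hw' : polar Q u w' = 0) :
    sg Q u w hu hw * sg Q u w' hu hw' =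
      sg Q u (w + w') hu (by rw [polar_add_right, hw, hw', add_zero]) := by
  rw [sg, sg, ← map_mul, siegel_mul]
  rfl

lemma Inn.zero {a : ι → F} (hu : Q a = 0) : Inn Q M a 0 := by
  refine ⟨hu, by simp, fun c => ?_⟩
  rw [show sg Q a (c • (0 : ι → F)) hu (by simp) = 1 from gl_ext fun x => by
    rw [ap_sg, ap_one]; simp]
  exact one_mem M

lemma Inn.centre {a : ι → F} (hu : Q a = 0) (c : F) : Inn Q M a (c • a) := by
  refine ⟨hu, by rw [polar_smul_right, polar_self_mul, hu]; simp, fun d => ?_⟩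
  rw [show sg Q a (d • c • a) hu
      (by rw [polar_smul_right, polar_smul_right, polar_self_mul, hu]; simp) = 1 from
    gl_ext fun x => by
      rw [ap_sg, ap_one]
      simp only [QuadraticMap.map_smul, polar_smul_right, hu, smul_eq_mul, mul_zero, zero_mul,
        add_zero]
      module]
  exact one_mem M

lemma Inn.add {a b b' : ι → F} (h : Inn Q M a b) (h' : Inn Q M a b') : Inn Q M a (b + b') := by
  obtain ⟨hu, hw, hm⟩ := h
  obtain ⟨hu', hw', hm'⟩ := h'
  refine ⟨hu, by rw [polar_add_right, hw, hw', add_zero], fun c => ?_⟩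
  have := mul_mem (hm c) (hm' c)
  rwa [sg_add', sg_congr rfl (smul_add c b b').symm] at this

lemma Inn.smul {a b : ι → F} (h : Inn Q M a b) (c : F) : Inn Q M a (c • b) := by
  obtain ⟨hu, hw, hm⟩ := h
  refine ⟨hu, by rw [polar_smul_right, hw, smul_zero], fun d => ?_⟩
  have := hm (d * c)
  rwa [sg_congr rfl (mul_smul d c b)] at this

lemma Inn.sub {a b b' : ι → F} (h : Inn Q M a b) (h' : Inn Q M a b') : Inn Q M a (b - b') := by
  rw [sub_eq_add_neg, show -b' = (-1 : F) • b' by simp]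
  exact h.add (h'.smul _)

lemma Inn.smul_centre {a b : ι → F} (h : Inn Q M a b) (c : F) : Inn Q M (c • a) b := by
  obtain ⟨hu, hw, hm⟩ := h
  refine ⟨by rw [QuadraticMap.map_smul, hu, smul_zero], by rw [polar_smul_left, hw, smul_zero],
    fun d => ?_⟩
  have := hm (c * d)
  convert this using 1
  refine gl_ext fun x => ?_
  rw [ap_sg, ap_sg]
  simp only [QuadraticMap.map_smul, polar_smul_right, smul_eq_mul]
  module

lemma Inn.swap {a b : ι → F} (h : Inn Q M a b) (hb : Q b = 0) : Inn Q M b a := by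
  obtain ⟨hu, hw, hm⟩ := h
  refine ⟨hb, by rw [polar_comm]; exact hw, fun c => ?_⟩
  have := hm (-c)
  convert this using 1
  refine gl_ext fun x => ?_
  rw [ap_sg, ap_sg]
  simp only [QuadraticMap.map_smul, polar_smul_right, hu, hb, smul_eq_mul]
  module

lemma Inn.conj (hM : M ≤ Cfsg.isometryGroup F (⇑Q)) {g : GL ι F} (hg : g ∈ M) {a b : ι → F}
    (h : Inn Q M a b) : Inn Q M (ap g a) (ap g b) := by
  obtain ⟨hu, hw, hm⟩ := h
  refine ⟨by rw [mem_isometryGroup_iff.mp (hM hg)]; exact hu, by rw [polar_ap (hM hg)]; exact hw,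
    fun c => ?_⟩
  have := mul_mem (mul_mem hg (hm c)) (inv_mem hg)
  rw [conj_sg (hM hg)] at this
  rwa [sg_congr rfl (ap_smul g c b)] at this

variable [Finite F] {t k : ℕ} {D : Fin t → Submodule F (ι → F)}
  (hD : Cfsg.Geo.IsOrthogonalMDecomposition (⇑Q) k D)

omit [Finite F] in
/-- An element mapping every member into a member is in the stabiliser. -/
lemma mem_decompStab (hd : Cfsg.Geo.IsMDecomposition k D) {g : GL ι F} {π : Equiv.Perm (Fin t)}
    (h : ∀ i, ∀ x ∈ D i, ap g x ∈ D (π i)) : g ∈ Cfsg.Geo.decompositionStabilizer D := by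
  refine ⟨π, fun i => Submodule.eq_of_le_of_finrank_eq ?_ ?_⟩
  · rintro _ ⟨x, hx, rfl⟩
    exact h i x hx
  · rw [hd.finrank_eq]
    exact (LinearEquiv.finrank_map_eq (apEquiv g) (D i)).trans (hd.finrank_eq i)

include hD

omit [Finite F] in
lemma orth_apply_blocks {i j : Fin t} (hij : i ≠ j) {x y : ι → F} (hx : x ∈ D i) (hy : y ∈ D j) :
    polar Q x y = 0 :=
  hD.decomp.orthogonal i j hij x hx y hy

omit [Finite F] in
lemma polar_comp {i : Fin t} (x : ι → F) {y : ι → F} (hy : y ∈ D i) :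
    polar Q x y = polar Q (Decomp.comp hD.decomp.decomp i x) y := by
  conv_lhs => rw [← Decomp.sum_comp hD.decomp.decomp x]
  have hsum : ∀ s : Finset (Fin t), polar Q (∑ l ∈ s, Decomp.comp hD.decomp.decomp l x) y =
      ∑ l ∈ s, polar Q (Decomp.comp hD.decomp.decomp l x) y := fun s => by
    classical
    induction s using Finset.induction_on with
    | empty => simp
    | insert a s ha ih => rw [Finset.sum_insert ha, Finset.sum_insert ha, polar_add_left, ih]
  rw [hsum, Finset.sum_eq_single i]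
  · intro l _ hl
    exact orth_apply_blocks hD hl (Decomp.comp_mem _ l x) hy
  · simp

omit [Finite F] in
lemma comp_ap {g : GL ι F} (hg : ∀ i, ∀ x ∈ D i, ap g x ∈ D i) (i : Fin t) (x : ι → F) :
    Decomp.comp hD.decomp.decomp i (ap g x) = ap g (Decomp.comp hD.decomp.decomp i x) := by
  conv_lhs => rw [← Decomp.sum_comp hD.decomp.decomp x]
  rw [show ap g (∑ l, Decomp.comp hD.decomp.decomp l x) =
    ∑ l, ap g (Decomp.comp hD.decomp.decomp l x) from map_sum (apEquiv g) _ _]
  exact Decomp.comp_sum_of_mem _ _ (fun l => hg l _ (Decomp.comp_mem _ l x)) i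

omit [Finite F] in
lemma rf_blocks {l : Fin t} {v : ι → F} (hv : v ∈ D l) (i : Fin t) (x : ι → F) (hx : x ∈ D i) :
    ap (rf Q v) x ∈ D i := by
  by_cases h : i = l
  · subst h; exact ap_rf_mem hv hx
  · rw [ap_rf_fix (orth_apply_blocks hD h hx hv)]; exact hx

/-- A product of two reflections of equal value in two members preserves every member and lies in
`omegaGL`. -/
lemma rf_pair_mem (hQ : Nondeg Q) (hn : 5 ≤ Fintype.card ι) {l l' : Fin t} {v w : ι → F}
    (hv : v ∈ D l) (hw : w ∈ D l') (hQv : Q v ≠ 0) (h : Q v = Q w) :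
    rf Q v * rf Q w ∈ Cfsg.Geo.decompositionStabilizer D ⊓ Cfsg.Geo.omegaGL (⇑Q) := by
  refine ⟨mem_decompStab hD.decomp.decomp (π := 1) fun i x hx => ?_, rf_mul_rf_mem hQ hn hQv h⟩
  rw [ap_mul]
  exact rf_blocks hD hv i _ (rf_blocks hD hw i x hx)

omit [Finite F] in
lemma rf_pair_blocks {l l' : Fin t} {v w : ι → F} (hv : v ∈ D l) (hw : w ∈ D l') (i : Fin t)
    (x : ι → F) (hx : x ∈ D i) : ap (rf Q v * rf Q w) x ∈ D i := by
  rw [ap_mul]
  exact rf_blocks hD hv i _ (rf_blocks hD hw i x hx)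

omit [Finite F] in
lemma sg_blocks {l : Fin t} {e y : ι → F} (he : e ∈ D l) (hy : y ∈ D l) (hu : Q e = 0)
    (hw : polar Q e y = 0) (i : Fin t) (x : ι → F) (hx : x ∈ D i) :
    ap (sg Q e y hu hw) x ∈ D i := by
  by_cases h : i = l
  · subst h
    rw [ap_sg]
    exact Submodule.sub_mem _ (Submodule.add_mem _ hx (Submodule.smul_mem _ _ hy))
      (Submodule.smul_mem _ _ he)
  · rw [ap_sg_fix hu hw (orth_apply_blocks hD h hx he) (orth_apply_blocks hD h hx hy)]
    exact hx

lemma sg_block_mem (hQ : Nondeg Q) (hn : 5 ≤ Fintype.card ι) {l : Fin t} {e y : ι → F}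
    (he : e ∈ D l) (hy : y ∈ D l) (hu : Q e = 0) (hw : polar Q e y = 0) :
    sg Q e y hu hw ∈ Cfsg.Geo.decompositionStabilizer D ⊓ Cfsg.Geo.omegaGL (⇑Q) :=
  ⟨mem_decompStab hD.decomp.decomp (π := 1) (sg_blocks hD he hy hu hw), sg_mem hQ hn hu hw⟩

/-- A Siegel element of centre in a member and direction in the same member lies in `M`. -/
lemma inn_block (hQ : Nondeg Q) (hn : 5 ≤ Fintype.card ι)
    (hHM : Cfsg.Geo.decompositionStabilizer D ⊓ Cfsg.Geo.omegaGL (⇑Q) ≤ M) {l : Fin t}
    {e y : ι → F} (he : e ∈ D l) (hy : y ∈ D l) (hu : Q e = 0) (hw : polar Q e y = 0) :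
    Inn Q M e y :=
  ⟨hu, hw, fun c => hHM (sg_block_mem hD hQ hn he ((D l).smul_mem c hy) hu
    (by rw [polar_smul_right, hw, smul_zero]))⟩

end CfsgLib.Geometric.Orth
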