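import Cfsg.Agent.Lib.Geometric.Orth.Frames

/-!
Over small fields decompositions into subspaces of plus type of dimension two or four have
canonical finer structures, so their stabilisers are not maximal.
-/

namespace CfsgLib.Geometric.Orth

open Matrix QuadraticMap

variable {ι : Type} [Fintype ι] [DecidableEq ι] {F : Type*} [Field F]
variable {Q : QuadraticForm F (ι → F)} {W : Submodule F (ι → F)}

omit [Fintype ι] [DecidableEq ι] in
/-- A singular vector of a non-degenerate subspace has a singular partner in it. -/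
lemma exists_hyp_partner (hW : Cfsg.Geo.IsNondegenerateOn (polar ⇑Q) W) {x : ι → F} (hx : x ∈ W)
    (hx0 : x ≠ 0) (hQx : Q x = 0) : ∃ y ∈ W, Q y = 0 ∧ polar Q x y = 1 := by
  obtain ⟨z, hz, hxz⟩ := (hW x hx hx0).2
  have hxx : polar Q x x = 0 := by
    rw [CfsgLib.ClassicalForms.polar_self_mul, hQx, mul_zero]
  obtain ⟨z', hz'W, h1⟩ : ∃ z' ∈ W, polar Q x z' = 1 :=
    ⟨(polar Q x z)⁻¹ • z, W.smul_mem _ hz, by
      rw [polar_smul_right, smul_eq_mul, inv_mul_cancel₀ hxz]⟩
  refine ⟨z' - Q z' • x, W.sub_mem hz'W (W.smul_mem _ hx), ?_, ?_⟩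
  · rw [CfsgLib.ClassicalForms.map_sub_eq, QuadraticMap.map_smul, hQx, smul_zero, polar_smul_right,
      polar_comm (⇑Q) z' x, h1, smul_eq_mul]
    ring
  · rw [polar_sub_right, polar_smul_right, hxx, smul_zero, sub_zero, h1]

/-- A hyperbolic pair in a subspace. -/
def HypIn (Q : QuadraticForm F (ι → F)) (W : Submodule F (ι → F)) (x y : ι → F) : Prop :=
  x ∈ W ∧ y ∈ W ∧ Q x = 0 ∧ Q y = 0 ∧ polar Q x y = 1

omit [DecidableEq ι] in
/-- Coordinates in a plane of plus type. -/
lemma HypIn.expand {x y : ι → F} (h : HypIn Q W x y) (hdim : Module.finrank F W = 2) {v : ι → F}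
    (hv : v ∈ W) : ∃ a b : F, v = a • x + b • y := by
  obtain ⟨hx, hy, hQx, hQy, hxy⟩ := h
  have hxx : polar Q x x = 0 := by rw [CfsgLib.ClassicalForms.polar_self_mul, hQx, mul_zero]
  have hyy : polar Q y y = 0 := by rw [CfsgLib.ClassicalForms.polar_self_mul, hQy, mul_zero]
  have hli : LinearIndependent F ![x, y] := by
    rw [LinearIndependent.pair_iff]
    intro a b h
    have h1 := congrArg (fun z => polar Q z y) h
    have h2 := congrArg (fun z => polar Q x z) h
    simp only [polar_add_left, polar_smul_left, hxy, hyy, polar_zero_left, smul_eq_mul, mul_one,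
      mul_zero, add_zero] at h1
    simp only [polar_add_right, polar_smul_right, hxy, hxx, polar_zero_right, smul_eq_mul, mul_one,
      mul_zero, zero_add] at h2
    exact ⟨h1, h2⟩
  have hsp : Submodule.span F ({x, y} : Set (ι → F)) = W := by
    refine Submodule.eq_of_le_of_finrank_le ?_ ?_
    · rw [Submodule.span_le]
      rintro _ (rfl | rfl)
      exacts [hx, hy]
    · have := finrank_span_eq_card hli
      rw [Fintype.card_fin, show Set.range ![x, y] = {x, y} by simp [Set.pair_comm]] at this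
      omega
  rw [← hsp] at hv
  obtain ⟨a, b, h⟩ := Submodule.mem_span_pair.mp hv
  exact ⟨a, b, h.symm⟩

omit [DecidableEq ι] in
/-- Two hyperbolic pairs in a four-dimensional subspace of plus type. -/
lemma exists_hyp_pairs [Finite F] (hW : Cfsg.Geo.IsNondegenerateOn (polar ⇑Q) W)
    (hdim : Module.finrank F W = 4) (hp : Cfsg.Geo.IsPlusTypeOn (⇑Q) W) :
    ∃ x₁ y₁ x₂ y₂ : ι → F, HypIn Q W x₁ y₁ ∧ HypIn Q W x₂ y₂ ∧ polar Q x₂ x₁ = 0 ∧
      polar Q x₂ y₁ = 0 ∧ polar Q y₂ x₁ = 0 ∧ polar Q y₂ y₁ = 0 ∧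
      ∀ v ∈ W, ∃ a b c d : F, v = a • x₁ + b • y₁ + (c • x₂ + d • y₂) := by
  obtain ⟨U, hUW, hU, hUd⟩ := hp
  have hU2 : Module.finrank F U = 2 := by omega
  have hUne : U ≠ ⊥ := fun h => by rw [h, finrank_bot] at hU2; omega
  obtain ⟨x₁, hx₁U, hx₁0⟩ := Submodule.exists_mem_ne_zero_of_ne_bot hUne
  obtain ⟨y₁, hy₁, hQy₁, hxy₁⟩ := exists_hyp_partner hW (hUW hx₁U) hx₁0 (hU x₁ hx₁U)
  have hxx : polar Q x₁ x₁ = 0 := by
    rw [CfsgLib.ClassicalForms.polar_self_mul, hU x₁ hx₁U, mul_zero]
  have hyy : polar Q y₁ y₁ = 0 := by rw [CfsgLib.ClassicalForms.polar_self_mul, hQy₁, mul_zero]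
  obtain ⟨z, hzU, hz⟩ : ∃ z ∈ U, z ∉ Submodule.span F {x₁} := by
    by_contra hc
    push Not at hc
    have := Submodule.finrank_mono (show U ≤ Submodule.span F {x₁} from hc)
    rw [finrank_span_singleton hx₁0] at this
    omega
  have hpolU : ∀ p ∈ U, ∀ r ∈ U, polar Q p r = 0 := fun p hp r hr => by
    rw [polar, hU _ (U.add_mem hp hr), hU p hp, hU r hr]; ring
  set x₂ := z - polar Q z y₁ • x₁ with hx₂
  have hx₂U : x₂ ∈ U := U.sub_mem hzU (U.smul_mem _ hx₁U)
  have hx₂y : polar Q x₂ y₁ = 0 := by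
    rw [hx₂, polar_sub_left, polar_smul_left, hxy₁, smul_eq_mul, mul_one, sub_self]
  have hx₂0 : x₂ ≠ 0 := fun h =>
    hz (Submodule.mem_span_singleton.mpr ⟨_, (sub_eq_zero.mp (hx₂ ▸ h)).symm⟩)
  obtain ⟨w, hw, hQw, hxw⟩ := exists_hyp_partner hW (hUW hx₂U) hx₂0 (hU x₂ hx₂U)
  set w' := w - polar Q w y₁ • x₁ - polar Q w x₁ • y₁ with hw'
  have hw'W : w' ∈ W :=
    W.sub_mem (W.sub_mem hw (W.smul_mem _ (hUW hx₁U))) (W.smul_mem _ hy₁)
  have hw'x : polar Q w' x₁ = 0 := by
    rw [hw', polar_sub_left, polar_sub_left, polar_smul_left, polar_smul_left, hxx,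
      polar_comm (⇑Q) y₁ x₁, hxy₁, smul_zero, smul_eq_mul]
    ring
  have hw'y : polar Q w' y₁ = 0 := by
    rw [hw', polar_sub_left, polar_sub_left, polar_smul_left, polar_smul_left, hxy₁, hyy,
      smul_zero, smul_eq_mul]
    ring
  have hx₂w' : polar Q x₂ w' = 1 := by
    rw [hw', polar_sub_right, polar_sub_right, polar_smul_right, polar_smul_right,
      hpolU x₂ hx₂U x₁ hx₁U, hx₂y, hxw, smul_zero, smul_zero, sub_zero, sub_zero]
  set y₂ := w' - Q w' • x₂ with hy₂
  have hx₂x₂ := hpolU x₂ hx₂U x₂ hx₂U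
  have hy₂x : polar Q y₂ x₁ = 0 := by
    rw [hy₂, polar_sub_left, polar_smul_left, hw'x, hpolU x₂ hx₂U x₁ hx₁U, smul_zero, sub_zero]
  have hy₂y : polar Q y₂ y₁ = 0 := by
    rw [hy₂, polar_sub_left, polar_smul_left, hw'y, hx₂y, smul_zero, sub_zero]
  have hx₂y₂ : polar Q x₂ y₂ = 1 := by
    rw [hy₂, polar_sub_right, polar_smul_right, hx₂w', hx₂x₂, smul_zero, sub_zero]
  have hQy₂ : Q y₂ = 0 := by
    rw [hy₂, CfsgLib.ClassicalForms.map_sub_eq, QuadraticMap.map_smul, hU x₂ hx₂U, smul_zero,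
      polar_smul_right, polar_comm (⇑Q) w' x₂, hx₂w', smul_eq_mul]
    ring
  have hy₂y₂ : polar Q y₂ y₂ = 0 := by
    rw [CfsgLib.ClassicalForms.polar_self_mul, hQy₂, mul_zero]
  refine ⟨x₁, y₁, x₂, y₂, ⟨hUW hx₁U, hy₁, hU x₁ hx₁U, hQy₁, hxy₁⟩,
    ⟨hUW hx₂U, W.sub_mem hw'W (W.smul_mem _ (hUW hx₂U)), hU x₂ hx₂U, hQy₂, hx₂y₂⟩,
    hpolU x₂ hx₂U x₁ hx₁U, hx₂y, hy₂x, hy₂y, ?_⟩
  have hli : LinearIndependent F ![x₁, y₁, x₂, y₂] := by
    rw [Fintype.linearIndependent_iff]
    intro g hg
    simp only [Fin.sum_univ_four, Matrix.cons_val] at hg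
    have h0 := congrArg (fun v => polar Q v y₁) hg
    have h1 := congrArg (fun v => polar Q v x₁) hg
    have h2 := congrArg (fun v => polar Q v y₂) hg
    have h3 := congrArg (fun v => polar Q v x₂) hg
    simp [polar_add_left, polar_smul_left, hxy₁, hxx, hyy, hx₂y, hy₂x, hy₂y, hx₂y₂, hy₂y₂,
      hx₂x₂, polar_comm (⇑Q) x₁ x₂, polar_comm (⇑Q) y₁ x₁, polar_comm (⇑Q) y₂ x₂,
      polar_comm (⇑Q) x₁ y₂, polar_comm (⇑Q) y₁ y₂, polar_comm (⇑Q) y₁ x₂,
      hpolU x₂ hx₂U x₁ hx₁U, polar_zero_left] at h0 h1 h2 h3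
    intro i
    fin_cases i
    exacts [h0, h1, h2, h3]
  intro v hv
  have hsp : Submodule.span F (Set.range ![x₁, y₁, x₂, y₂]) = W := by
    refine Submodule.eq_of_le_of_finrank_le ?_ ?_
    · rw [Submodule.span_le]
      rintro _ ⟨i, rfl⟩
      fin_cases i
      exacts [hUW hx₁U, hy₁, hUW hx₂U, W.sub_mem hw'W (W.smul_mem _ (hUW hx₂U))]
    · rw [finrank_span_eq_card hli, Fintype.card_fin, hdim]
  rw [← hsp, Submodule.mem_span_range_iff_exists_fun] at hv
  obtain ⟨c, rfl⟩ := hv
  exact ⟨c 0, c 1, c 2, c 3, by simp [Fin.sum_univ_four, add_assoc]⟩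

section Decomp

variable {t k : ℕ} {D : Fin t → Submodule F (ι → F)}
  (hD : Cfsg.Geo.IsOrthogonalMDecomposition (⇑Q) k D)
include hD

omit [DecidableEq ι] in
lemma polar_eq_zero_of_ne {i l : Fin t} (h : i ≠ l) {x y : ι → F} (hx : x ∈ D i) (hy : y ∈ D l) :
    polar Q x y = 0 := hD.decomp.orthogonal i l h x hx y hy

omit [DecidableEq ι] in
lemma eq_of_polar_ne_zero {i l : Fin t} {x y : ι → F} (hx : x ∈ D i) (hy : y ∈ D l)
    (h : polar Q x y ≠ 0) : i = l := by
  by_contra hne
  exact h (polar_eq_zero_of_ne hD hne hx hy)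

/-- The vectors of value `c` in the members. -/
def valueSet (_hD : Cfsg.Geo.IsOrthogonalMDecomposition (⇑Q) k D) (c : F) : Set (ι → F) :=
  {x | ∃ i, x ∈ D i ∧ Q x = c}

lemma ap_mem_valueSet (c : F) {g : GL ι F}
    (hg : g ∈ Cfsg.Geo.decompositionStabilizer D ⊓ Cfsg.Geo.omegaGL (⇑Q)) {x : ι → F}
    (hx : x ∈ valueSet hD c) : ap g x ∈ valueSet hD c := by
  obtain ⟨⟨π, hπ⟩, hgO⟩ := hg
  obtain ⟨i, hi, hQ⟩ := hx
  exact ⟨π i, by rw [← hπ i]; exact ⟨x, hi, rfl⟩, by rw [isometry_of_mem hgO, hQ]⟩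

omit hD in
lemma mem_stabilizing_of_mapsTo [Finite F] {g : GL ι F} {S : Set (ι → F)}
    (h : ∀ x ∈ S, ap g x ∈ S) : g ∈ Cfsg.stabilizing (Cfsg.glToMat ι F) S := by
  intro x
  refine ⟨h x, fun hx => ?_⟩
  obtain ⟨⟨y, hy⟩, hyx⟩ := (Finite.injective_iff_surjective.mp
    (show Function.Injective fun z : S => (⟨ap g z, h z z.2⟩ : S) from
      fun a b hab => Subtype.ext (ap_injective g (congrArg Subtype.val hab)))) ⟨_, hx⟩
  have : y = x := ap_injective g (congrArg Subtype.val hyx)
  exact this ▸ hy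

/-- A set kept by the stabiliser, by a Siegel element outside it, and not by all of `omegaGL`. -/
theorem exists_between_of_set [Finite F] (hQ : CfsgLib.ClassicalForms.Nondeg Q)
    (hn : 5 ≤ Fintype.card ι) (S : Set (ι → F))
    (hS : ∀ g ∈ Cfsg.Geo.decompositionStabilizer D ⊓ Cfsg.Geo.omegaGL (⇑Q), ∀ x ∈ S, ap g x ∈ S)
    {u w : ι → F} (hu : Q u = 0) (hw : polar Q u w = 0)
    (hsS : ∀ x ∈ S, ap (sg Q u w hu hw) x ∈ S)
    (hsD : sg Q u w hu hw ∉ Cfsg.Geo.decompositionStabilizer D)
    {u' w' v : ι → F} (hu' : Q u' = 0) (hw' : polar Q u' w' = 0) (hv : v ∈ S)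
    (hout : ap (sg Q u' w' hu' hw') v ∉ S) :
    ∃ K : Subgroup (GL ι F), Cfsg.Geo.decompositionStabilizer D ⊓ Cfsg.Geo.omegaGL (⇑Q) < K ∧
      K < Cfsg.Geo.omegaGL (⇑Q) := by
  refine ⟨Cfsg.stabilizing (Cfsg.glToMat ι F) S ⊓ Cfsg.Geo.omegaGL (⇑Q),
    lt_of_le_of_ne (le_inf (fun g hg => mem_stabilizing_of_mapsTo (hS g hg)) inf_le_right) ?_,
    lt_of_le_of_ne inf_le_right ?_⟩
  · intro he
    have : sg Q u w hu hw ∈ Cfsg.Geo.decompositionStabilizer D ⊓ Cfsg.Geo.omegaGL (⇑Q) := by
      rw [he]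
      exact ⟨mem_stabilizing_of_mapsTo hsS, sg_mem hQ hn hu hw⟩
    exact hsD this.1
  · intro he
    have : sg Q u' w' hu' hw' ∈
        Cfsg.stabilizing (Cfsg.glToMat ι F) S ⊓ Cfsg.Geo.omegaGL (⇑Q) := by
      rw [he]
      exact sg_mem hQ hn hu' hw'
    exact hout ((this.1 v).mp hv)

omit [DecidableEq ι] in
/-- Four members with chosen hyperbolic pairs. -/
lemma exists_four (ht : 4 ≤ t) (hpl : ∀ i, Cfsg.Geo.IsPlusTypeOn (⇑Q) (D i)) :
    ∃ (a b c d : Fin t), a ≠ b ∧ a ≠ c ∧ a ≠ d ∧ b ≠ c ∧ b ≠ d ∧ c ≠ d ∧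
      ∀ i, ∃ x y, HypIn Q (D i) x y := by
  refine ⟨⟨0, by omega⟩, ⟨1, by omega⟩, ⟨2, by omega⟩, ⟨3, by omega⟩, by simp, by simp, by simp,
    by simp, by simp, by simp, fun i => ?_⟩
  obtain ⟨U, hU, hUs, hUd⟩ := hpl i
  rw [hD.decomp.decomp.finrank_eq i] at hUd
  have := hD.decomp.decomp.pos
  obtain ⟨x, hx, hx0⟩ := Submodule.exists_mem_ne_zero_of_ne_bot (p := U)
    fun h => by rw [h, finrank_bot] at hUd; omega
  obtain ⟨y, hy, hQy, hxy⟩ :=
    exists_hyp_partner (hD.decomp.nondegenerate i) (hU hx) hx0 (hUs x hx)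
  exact ⟨x, y, hU hx, hy, hUs x hx, hQy, hxy⟩

variable [Fintype F]

/-- Planes of plus type over five elements have a frame. -/
theorem exists_between_five (hQ : CfsgLib.ClassicalForms.Nondeg Q) (hn : 5 ≤ Fintype.card ι)
    (ht : 4 ≤ t) (hk : k = 2) (hq : Fintype.card F = 5)
    (hpl : ∀ i, Cfsg.Geo.IsPlusTypeOn (⇑Q) (D i)) :
    ∃ K : Subgroup (GL ι F), Cfsg.Geo.decompositionStabilizer D ⊓ Cfsg.Geo.omegaGL (⇑Q) < K ∧
      K < Cfsg.Geo.omegaGL (⇑Q) := by
  obtain ⟨a, -, -, -, -, -, -, -, -, -, hhyp⟩ := exists_four hD ht hpl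
  obtain ⟨x, y, hxy⟩ := hhyp a
  have h5 : (5 : F) = 0 := by
    have h := Nat.cast_card_eq_zero F
    rw [hq] at h
    exact_mod_cast h
  have h2 : (2 : F) ≠ 0 := fun h => one_ne_zero (α := F) (by linear_combination h5 - 2 * h)
  have hxx : polar Q x x = 0 := by
    rw [CfsgLib.ClassicalForms.polar_self_mul, hxy.2.2.1, mul_zero]
  have hyy : polar Q y y = 0 := by
    rw [CfsgLib.ClassicalForms.polar_self_mul, hxy.2.2.2.1, mul_zero]
  have hQ' : ∀ p r : F, Q (p • x + r • y) = p * r := fun p r => by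
    rw [QuadraticMap.map_add (⇑Q), QuadraticMap.map_smul, QuadraticMap.map_smul, hxy.2.2.1,
      hxy.2.2.2.1, polar_smul_left, polar_smul_right, hxy.2.2.2.2]
    simp
  refine exists_between_of_frame hQ hn hD (by omega) ht h2 one_ne_zero a
    ⟨x + y, (D a).add_mem hxy.1 hxy.2.1, by
      have := hQ' 1 1; rwa [one_smul, one_smul, one_mul] at this⟩
    ?_ (r := 2) (s := 0) h2 (by linear_combination h5)
  intro u hu v hv hQu hQv
  have hdim : Module.finrank F (D a) = 2 := by rw [hD.decomp.decomp.finrank_eq a, hk]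
  obtain ⟨p, r, rfl⟩ := hxy.expand hdim hu
  obtain ⟨p', r', rfl⟩ := hxy.expand hdim hv
  rw [hQ'] at hQu hQv
  set z := p' * r with hz
  have hz0 : z ≠ 0 := mul_ne_zero (fun h => by simp [h] at hQv) (fun h => by simp [h] at hQu)
  have hz4 : z ^ 4 = 1 := by
    have h := FiniteField.pow_card_sub_one_eq_one z hz0
    rwa [hq] at h
  have h1 : (z - 1) * ((z + 1) * (z ^ 2 + 1)) = 0 := by linear_combination hz4
  rcases mul_eq_zero.mp h1 with h | h
  · left
    have hp : p' = p := by
      linear_combination p * h - p' * hQu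
    have hr : r' = r := by
      rw [hp] at hQv
      have hp0 : p ≠ 0 := fun h0 => by simp [h0] at hQu
      exact mul_left_cancel₀ hp0 (hQv.trans hQu.symm)
    rw [hp, hr]
  rcases mul_eq_zero.mp h with h | h
  · right; left
    have hp : p' = -p := by linear_combination (p : F) * h - p' * hQu
    have hr : r' = -r := by
      rw [hp] at hQv
      have hp0 : p ≠ 0 := fun h0 => by simp [h0] at hQu
      exact mul_left_cancel₀ hp0 (by linear_combination -hQv + hQu)
    rw [hp, hr]
    module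
  · right; right
    rw [polar_add_left, polar_add_right, polar_add_right, polar_smul_left, polar_smul_left,
      polar_smul_left, polar_smul_left, polar_smul_right, polar_smul_right, polar_smul_right,
      polar_smul_right, hxx, hyy, polar_comm (⇑Q) y x, hxy.2.2.2.2]
    simp only [smul_eq_mul]
    refine mul_left_cancel₀ hz0 ?_
    linear_combination h + (p' * r') * hQu + hQv

/-- Planes of plus type over two elements have a marked vector. -/
theorem exists_between_two (hQ : CfsgLib.ClassicalForms.Nondeg Q) (hn : 5 ≤ Fintype.card ι)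
    (ht : 4 ≤ t) (hk : k = 2) (hq : Fintype.card F = 2)
    (hpl : ∀ i, Cfsg.Geo.IsPlusTypeOn (⇑Q) (D i)) :
    ∃ K : Subgroup (GL ι F), Cfsg.Geo.decompositionStabilizer D ⊓ Cfsg.Geo.omegaGL (⇑Q) < K ∧
      K < Cfsg.Geo.omegaGL (⇑Q) := by
  obtain ⟨a, b, c, d, hab, hac, had, hbc, hbd, hcd, hhyp⟩ := exists_four hD ht hpl
  choose e f he hf hQe hQf hef using hhyp
  have h2 : (2 : F) = 0 := by
    have h := Nat.cast_card_eq_zero F
    rw [hq] at h
    exact_mod_cast h
  have h01 : ∀ r : F, r = 0 ∨ r = 1 := by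
    intro r
    classical
    by_contra h
    push Not at h
    have h1 := Finset.card_le_univ ({0, 1, r} : Finset F)
    have h3 : ({0, 1, r} : Finset F).card = 3 :=
      Finset.card_eq_three.mpr ⟨0, 1, r, zero_ne_one, Ne.symm h.1, Ne.symm h.2, rfl⟩
    omega
  set v : Fin t → ι → F := fun i => e i + f i with hv
  have hvD : ∀ i, v i ∈ D i := fun i => (D i).add_mem (he i) (hf i)
  clear_value v
  have hQv : ∀ i, Q (v i) = 1 := fun i => by
    rw [hv, QuadraticMap.map_add (⇑Q), hQe, hQf, hef]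
    ring
  have hself : ∀ i, polar Q (e i) (e i) = 0 := fun i => by
    rw [CfsgLib.ClassicalForms.polar_self_mul, hQe, mul_zero]
  have hort : ∀ {i l : Fin t}, i ≠ l → ∀ {x y : ι → F}, x ∈ D i → y ∈ D l → polar Q x y = 0 :=
    fun h _ _ hx hy => polar_eq_zero_of_ne hD h hx hy
  have huniq : ∀ x ∈ valueSet hD 1, ∃ i, x = v i := by
    rintro x ⟨i, hi, hQx⟩
    obtain ⟨p, r, rfl⟩ := HypIn.expand ⟨he i, hf i, hQe i, hQf i, hef i⟩
      (by rw [hD.decomp.decomp.finrank_eq i, hk]) hi
    rw [QuadraticMap.map_add (⇑Q), QuadraticMap.map_smul, QuadraticMap.map_smul, hQe, hQf,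
      polar_smul_left, polar_smul_right, hef] at hQx
    refine ⟨i, ?_⟩
    rcases h01 p with rfl | rfl <;> rcases h01 r with rfl | rfl <;> simp_all [hv]
  have hvv : ∀ i l, polar Q (v i) (v l) = 0 := fun i l => by
    by_cases h : i = l
    · subst h; rw [CfsgLib.ClassicalForms.polar_self_mul, h2, zero_mul]
    · exact hort h (hvD i) (hvD l)
  have hu : Q (v a + v b) = 0 := by
    rw [QuadraticMap.map_add (⇑Q), hQv, hQv, hvv]
    linear_combination h2
  have hQw : Q (v c + v d) = 0 := by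
    rw [QuadraticMap.map_add (⇑Q), hQv, hQv, hvv]
    linear_combination h2
  have hw : polar Q (v a + v b) (v c + v d) = 0 := by
    simp [polar_add_left, polar_add_right, hvv]
  refine exists_between_of_set hD hQ hn (valueSet hD 1) (fun g hg x hx => ap_mem_valueSet hD 1 hg hx)
    hu hw (fun x hx => ?_) ?_ (u' := e b) (w' := e c) (v := v b) (hQe b)
    (hort hbc (he b) (he c)) ⟨b, hvD b, hQv b⟩ ?_
  · obtain ⟨i, rfl⟩ := huniq x hx
    rw [ap_sg_fix _ _ (by simp [polar_add_right, hvv]) (by simp [polar_add_right, hvv])]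
    exact hx
  · rintro ⟨π, hπ⟩
    have hfa : ap (sg Q _ _ hu hw) (v a) = v a :=
      ap_sg_fix _ _ (by simp [polar_add_right, hvv]) (by simp [polar_add_right, hvv])
    have hea : polar Q (e a) (v a) = 1 := by
      rw [hv, polar_add_right, hself, hef, zero_add]
    have h1 : v a ∈ D (π a) := by rw [← hπ a]; exact ⟨v a, hvD a, hfa⟩
    have h3 : ap (sg Q _ _ hu hw) (e a) ∈ D (π a) := by rw [← hπ a]; exact ⟨e a, he a, rfl⟩
    rw [ap_sg, hQw, zero_mul, add_zero,
      show polar Q (e a) (v a + v b) = 1 by rw [polar_add_right, hea, hort hab (he a) (hvD b), add_zero],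
      show polar Q (e a) (v c + v d) = 0 by
        rw [polar_add_right, hort hac (he a) (hvD c), hort had (he a) (hvD d), add_zero],
      one_smul, zero_smul, sub_zero] at h3
    have hπa : a = π a := by
      by_contra hne
      have hz : v a = 0 := Submodule.disjoint_def.mp
        (hD.decomp.decomp.indep.pairwiseDisjoint hne) _ (hvD a) h1
      exact one_ne_zero (α := F) (by rw [← hQv a, hz, QuadraticMap.map_zero])
    rw [← hπa] at h3
    have hce : polar Q (v c) (e c) = 1 := by
      rw [hv, polar_add_left, hself, polar_comm, hef, zero_add]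
    refine hac (eq_of_polar_ne_zero hD h3 (he c) ?_)
    rw [polar_add_left, polar_add_left, hort hac (he a) (he c), hce,
      hort hcd.symm (hvD d) (he c)]
    simp
  · rintro ⟨i, hi, -⟩
    have hvb : polar Q (v b) (e b) = 1 := by
      rw [hv, polar_add_left, hself, polar_comm, hef, zero_add]
    rw [ap_sg, hvb, hQe, hort hbc (hvD b) (he c), one_smul, zero_mul, add_zero, zero_smul,
      sub_zero] at hi
    have h1 : i = b := eq_of_polar_ne_zero hD hi (he b) (by
      rw [polar_add_left, hvb, hort hbc.symm (he c) (he b), add_zero]; exact one_ne_zero)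
    have h3 : i = c := eq_of_polar_ne_zero hD hi (hf c) (by
      rw [polar_add_left, hort hbc (hvD b) (hf c), hef, zero_add]; exact one_ne_zero)
    exact hbc (h1.symm.trans h3)

/-- Planes of plus type over four elements carry a structure over two elements. -/
theorem exists_between_four (hQ : CfsgLib.ClassicalForms.Nondeg Q) (hn : 5 ≤ Fintype.card ι)
    (ht : 4 ≤ t) (hk : k = 2) (hq : Fintype.card F = 4)
    (hpl : ∀ i, Cfsg.Geo.IsPlusTypeOn (⇑Q) (D i)) :
    ∃ K : Subgroup (GL ι F), Cfsg.Geo.decompositionStabilizer D ⊓ Cfsg.Geo.omegaGL (⇑Q) < K ∧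
      K < Cfsg.Geo.omegaGL (⇑Q) := by
  obtain ⟨a, b, c, -, hab, hac, -, hbc, -, -, hhyp⟩ := exists_four hD ht hpl
  choose e f he hf hQe hQf hef using hhyp
  have h2 : (2 : F) = 0 := by
    have h := Nat.cast_card_eq_zero F
    rw [hq] at h
    have h4 : (2 : F) * 2 = 0 := by exact_mod_cast h
    exact mul_self_eq_zero.mp h4
  have h3 : ∀ r : F, r ≠ 0 → r * r * r = 1 := fun r hr => by
    have h := FiniteField.pow_card_sub_one_eq_one r hr
    rw [hq] at h
    linear_combination h
  obtain ⟨θ, hθ0, hθ1⟩ : ∃ θ : F, θ ≠ 0 ∧ θ ≠ 1 := by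
    classical
    by_contra h
    push Not at h
    have h1 := Finset.card_le_card (s := (Finset.univ : Finset F)) (t := ({0, 1} : Finset F))
      fun x _ => by
        by_cases hx : x = 0
        · simp [hx]
        · simp [h x hx]
    rw [Finset.card_univ, hq] at h1
    have := h1.trans Finset.card_le_two
    omega
  have hself : ∀ i, polar Q (e i) (e i) = 0 ∧ polar Q (f i) (f i) = 0 := fun i => by
    constructor <;> rw [CfsgLib.ClassicalForms.polar_self_mul] <;> simp [hQe, hQf]
  have hort : ∀ {i l : Fin t}, i ≠ l → ∀ {x y : ι → F}, x ∈ D i → y ∈ D l → polar Q x y = 0 :=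
    fun h _ _ hx hy => polar_eq_zero_of_ne hD h hx hy
  have hform : ∀ x ∈ valueSet hD 1, ∃ i, ∃ p : F, p ≠ 0 ∧ x = p • e i + (p * p) • f i := by
    rintro x ⟨i, hi, hQx⟩
    obtain ⟨p, r, rfl⟩ := HypIn.expand ⟨he i, hf i, hQe i, hQf i, hef i⟩
      (by rw [hD.decomp.decomp.finrank_eq i, hk]) hi
    rw [QuadraticMap.map_add (⇑Q), QuadraticMap.map_smul, QuadraticMap.map_smul, hQe, hQf,
      polar_smul_left, polar_smul_right, hef] at hQx
    simp only [smul_eq_mul, mul_zero, zero_add, mul_one] at hQx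
    have hp : p ≠ 0 := fun h => by simp [h] at hQx
    refine ⟨i, p, hp, ?_⟩
    have hr : r = p * p := mul_left_cancel₀ hp (by linear_combination hQx - h3 p hp)
    rw [hr]
  have hval : ∀ (i : Fin t) (p : F), p ≠ 0 → p • e i + (p * p) • f i ∈ valueSet hD 1 := fun i p hp => by
    refine ⟨i, (D i).add_mem ((D i).smul_mem _ (he i)) ((D i).smul_mem _ (hf i)), ?_⟩
    rw [QuadraticMap.map_add (⇑Q), QuadraticMap.map_smul, QuadraticMap.map_smul, hQe, hQf,
      polar_smul_left, polar_smul_right, hef]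
    simp only [smul_eq_mul]
    linear_combination h3 p hp
  have hpair : ∀ x ∈ valueSet hD 1, ∀ y ∈ valueSet hD 1, polar Q x y = 0 ∨ polar Q x y = 1 := by
    intro x hx y hy
    obtain ⟨i, p, hp, rfl⟩ := hform x hx
    obtain ⟨l, r, hr, rfl⟩ := hform y hy
    by_cases hil : i = l
    · subst hil
      rw [polar_add_left, polar_add_right, polar_add_right, polar_smul_left, polar_smul_left,
        polar_smul_left, polar_smul_left, polar_smul_right, polar_smul_right, polar_smul_right,
        polar_smul_right, (hself i).1, (hself i).2, polar_comm (⇑Q) (f i) (e i), hef]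
      simp only [smul_eq_mul, mul_one, mul_zero, zero_add, add_zero]
      by_cases hpr : p = r
      · left; subst hpr; linear_combination p * p * p * h2
      · right
        have hne : p + r ≠ 0 := fun h => hpr (by linear_combination h - r * h2)
        have hsum : p * p + p * r + r * r = 0 := by
          refine mul_left_cancel₀ (sub_ne_zero.mpr hpr) ?_
          linear_combination h3 p hp - h3 r hr
        linear_combination h3 (p + r) hne - (p + r) * hsum
    · left
      exact hort hil ((D i).add_mem ((D i).smul_mem _ (he i)) ((D i).smul_mem _ (hf i)))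
        ((D l).add_mem ((D l).smul_mem _ (he l)) ((D l).smul_mem _ (hf l)))
  set v : Fin t → ι → F := fun i => e i + f i with hv
  have hvS : ∀ i, v i ∈ valueSet hD 1 := fun i => by simpa [hv] using hval i 1 one_ne_zero
  have hvD : ∀ i, v i ∈ D i := fun i => (D i).add_mem (he i) (hf i)
  clear_value v
  have hQv : ∀ i, Q (v i) = 1 := fun i => by
    obtain ⟨l, -, h⟩ := hvS i
    exact h
  set L : AddSubgroup (ι → F) := AddSubgroup.closure (valueSet hD 1) with hL
  have hu : Q (v a + v b) = 0 := by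
    rw [QuadraticMap.map_add (⇑Q), hQv, hQv, hort hab (hvD a) (hvD b)]
    linear_combination h2
  have hw : polar Q (v a + v b) (v c) = 0 := by
    rw [polar_add_left, hort hac (hvD a) (hvD c), hort hbc (hvD b) (hvD c), add_zero]
  have hb01 : ∀ r : F, r = 0 ∨ r = 1 → ∀ y ∈ L, r • y ∈ L := by
    rintro r (rfl | rfl) y hy
    · rw [zero_smul]; exact L.zero_mem
    · rwa [one_smul]
  refine exists_between_of_set hD hQ hn (L : Set (ι → F)) ?_ hu hw ?_ ?_
    (u' := e b) (w' := e c) (v := v b) (hQe b) (hort hbc (he b) (he c))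
    (AddSubgroup.subset_closure (hvS b)) ?_
  · intro g hg x hx
    induction hx using AddSubgroup.closure_induction with
    | mem y hy => exact AddSubgroup.subset_closure (ap_mem_valueSet hD 1 hg hy)
    | zero => rw [ap_zero]; exact L.zero_mem
    | add y z _ _ hy hz => rw [ap_add]; exact L.add_mem hy hz
    | neg y _ hy =>
      rw [show ap g (-y) = -ap g y from (apEquiv g).map_neg y]
      exact L.neg_mem hy
  · intro x hx
    induction hx using AddSubgroup.closure_induction with
    | mem y hy =>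
      have hmem : ∀ i, v i ∈ L := fun i => AddSubgroup.subset_closure (hvS i)
      rw [SetLike.mem_coe, ap_sg, hQv, one_mul, add_smul, polar_add_right, add_smul, add_smul,
        sub_eq_add_neg]
      refine L.add_mem (L.add_mem (AddSubgroup.subset_closure hy)
        (L.add_mem (hb01 _ (hpair y hy _ (hvS a)) _ (hmem c))
          (hb01 _ (hpair y hy _ (hvS b)) _ (hmem c)))) (L.neg_mem (L.add_mem ?_ (L.add_mem ?_ ?_)))
      · exact hb01 _ (hpair y hy _ (hvS c)) _ (L.add_mem (hmem a) (hmem b))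
      · exact hb01 _ (hpair y hy _ (hvS a)) _ (L.add_mem (hmem a) (hmem b))
      · exact hb01 _ (hpair y hy _ (hvS b)) _ (L.add_mem (hmem a) (hmem b))
    | zero => rw [ap_zero]; exact L.zero_mem
    | add y z _ _ hy hz => rw [ap_add]; exact L.add_mem hy hz
    | neg y _ hy =>
      rw [SetLike.mem_coe, show ap (sg Q _ _ hu hw) (-y) = -ap (sg Q _ _ hu hw) y from
        (apEquiv _).map_neg y]
      exact L.neg_mem hy
  · rintro ⟨π, hπ⟩
    set y := θ • e a + (θ * θ) • f a with hy
    have hya : y ∈ D a := (D a).add_mem ((D a).smul_mem _ (he a)) ((D a).smul_mem _ (hf a))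
    clear_value y
    have hyv : polar Q y (v a) = 1 := by
      rw [hy, hv, polar_add_left, polar_add_right, polar_add_right, polar_smul_left,
        polar_smul_left, polar_smul_left, polar_smul_left, (hself a).1, (hself a).2,
        polar_comm (⇑Q) (f a) (e a), hef]
      simp only [smul_eq_mul, mul_one, mul_zero, zero_add, add_zero]
      refine mul_left_cancel₀ (sub_ne_zero.mpr hθ1) ?_
      linear_combination h3 θ hθ0 + (1 - θ) * h2
    have h1 : ap (sg Q _ _ hu hw) y ∈ D (π a) := by rw [← hπ a]; exact ⟨y, hya, rfl⟩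
    rw [ap_sg, hQv, polar_add_right, hyv, hort hab hya (hvD b), hort hac hya (hvD c)] at h1
    simp only [add_zero, one_mul, zero_add, one_smul] at h1
    have hcc : polar Q (v c) (e c) = 1 := by
      rw [hv, polar_add_left, (hself c).1, polar_comm, hef, zero_add]
    have hbb : polar Q (v b) (e b) = 1 := by
      rw [hv, polar_add_left, (hself b).1, polar_comm, hef, zero_add]
    have h4 : π a = c := eq_of_polar_ne_zero hD h1 (he c) (by
      rw [polar_sub_left, polar_add_left, polar_add_left, hort hac hya (he c), hcc,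
        hort hac (hvD a) (he c), hort hbc (hvD b) (he c)]
      simp)
    have h5 : π a = b := eq_of_polar_ne_zero hD h1 (he b) (by
      rw [polar_sub_left, polar_add_left, polar_add_left, hort hab hya (he b),
        hort hbc.symm (hvD c) (he b), hort hab (hvD a) (he b), hbb]
      simp)
    exact hbc (h5.symm.trans h4)
  · intro h
    have hchar : ∀ x ∈ L, polar Q x (e c) = polar Q x (f c) * polar Q x (f c) := by
      intro x hx
      induction hx using AddSubgroup.closure_induction with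
      | mem y hy =>
        obtain ⟨i, p, -, rfl⟩ := hform y hy
        by_cases hic : i = c
        · subst hic
          simp [polar_add_left, polar_smul_left, (hself i).1, (hself i).2,
            polar_comm (⇑Q) (f i) (e i), hef]
        · have hy' := (D i).add_mem ((D i).smul_mem p (he i)) ((D i).smul_mem (p * p) (hf i))
          rw [hort hic hy' (he c), hort hic hy' (hf c), mul_zero]
      | zero => simp [polar_zero_left]
      | add y z _ _ hy hz =>
        rw [polar_add_left, polar_add_left, hy, hz]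
        linear_combination -(polar Q y (f c) * polar Q z (f c)) * h2
      | neg y _ hy =>
        rw [polar_neg_left, polar_neg_left, hy]
        linear_combination -(polar Q y (f c) * polar Q y (f c)) * h2
    have hvb : polar Q (v b) (e b) = 1 := by
      rw [hv, polar_add_left, (hself b).1, polar_comm, hef, zero_add]
    have h1 := hchar _ h
    rw [ap_sg, hvb, hQe, hort hbc (hvD b) (he c), one_smul, zero_mul, add_zero, zero_smul,
      sub_zero, polar_add_left, polar_add_left, (hself c).1, hef, hort hbc (hvD b) (he c),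
      hort hbc (hvD b) (hf c)] at h1
    simp at h1

/-- Four-dimensional spaces of plus type over two elements split into minus planes. -/
theorem exists_between_two_four (hQ : CfsgLib.ClassicalForms.Nondeg Q) (hn : 5 ≤ Fintype.card ι)
    (ht : 4 ≤ t) (hk : k = 4) (hq : Fintype.card F = 2)
    (hpl : ∀ i, Cfsg.Geo.IsPlusTypeOn (⇑Q) (D i)) :
    ∃ K : Subgroup (GL ι F), Cfsg.Geo.decompositionStabilizer D ⊓ Cfsg.Geo.omegaGL (⇑Q) < K ∧
      K < Cfsg.Geo.omegaGL (⇑Q) := by
  obtain ⟨a, b, c, -, hab, hac, -, hbc, -, -, -⟩ := exists_four hD ht hpl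
  have hex := fun i => exists_hyp_pairs (hD.decomp.nondegenerate i)
    (by rw [hD.decomp.decomp.finrank_eq i, hk]) (hpl i)
  choose e f g h hef hgh hge hgf hhe hhf hexp using hex
  have h2 : (2 : F) = 0 := by
    have h := Nat.cast_card_eq_zero F
    rw [hq] at h
    exact_mod_cast h
  have h01 : ∀ r : F, r = 0 ∨ r = 1 := by
    intro r
    classical
    by_contra h
    push Not at h
    have h1 := Finset.card_le_univ ({0, 1, r} : Finset F)
    have h3 : ({0, 1, r} : Finset F).card = 3 :=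
      Finset.card_eq_three.mpr ⟨0, 1, r, zero_ne_one, Ne.symm h.1, Ne.symm h.2, rfl⟩
    omega
  have hort : ∀ {i l : Fin t}, i ≠ l → ∀ {x y : ι → F}, x ∈ D i → y ∈ D l → polar Q x y = 0 :=
    fun h _ _ hx hy => polar_eq_zero_of_ne hD h hx hy
  -- the first minus plane
  set p : Fin t → ι → F := fun i => e i + f i with hp
  set p' : Fin t → ι → F := fun i => e i + (g i + h i) with hp'
  set r : Fin t → ι → F := fun i => g i + h i with hr
  have hpD : ∀ i, p i ∈ D i := fun i => (D i).add_mem (hef i).1 (hef i).2.1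
  have hrD : ∀ i, r i ∈ D i := fun i => (D i).add_mem (hgh i).1 (hgh i).2.1
  have hp'D : ∀ i, p' i ∈ D i := fun i => (D i).add_mem (hef i).1 (hrD i)
  clear_value p p' r
  have hval : ∀ i (x : F × F × F × F),
      Q (x.1 • e i + x.2.1 • f i + (x.2.2.1 • g i + x.2.2.2 • h i)) =
        x.1 * x.2.1 + x.2.2.1 * x.2.2.2 := fun i x => by
    simp only [QuadraticMap.map_add (⇑Q), QuadraticMap.map_smul, polar_add_left, polar_add_right,
      polar_smul_left, polar_smul_right, (hef i).2.2.1, (hef i).2.2.2.1, (hef i).2.2.2.2,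
      (hgh i).2.2.1, (hgh i).2.2.2.1, (hgh i).2.2.2.2, polar_comm (⇑Q) (e i) (g i),
      polar_comm (⇑Q) (e i) (h i), polar_comm (⇑Q) (f i) (g i), polar_comm (⇑Q) (f i) (h i),
      hge, hgf, hhe, hhf, smul_eq_mul, mul_zero, add_zero, zero_add, mul_one]
    all_goals ring
  have hpol : ∀ i (x : F × F × F × F),
      polar Q (x.1 • e i + x.2.1 • f i + (x.2.2.1 • g i + x.2.2.2 • h i)) (p i) = x.1 + x.2.1 ∧
      polar Q (x.1 • e i + x.2.1 • f i + (x.2.2.1 • g i + x.2.2.2 • h i)) (p' i) =
        x.2.1 + x.2.2.1 + x.2.2.2 := fun i x => by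
    have hee : polar Q (e i) (e i) = 0 := by
      rw [CfsgLib.ClassicalForms.polar_self_mul, (hef i).2.2.1, mul_zero]
    have hff : polar Q (f i) (f i) = 0 := by
      rw [CfsgLib.ClassicalForms.polar_self_mul, (hef i).2.2.2.1, mul_zero]
    have hgg : polar Q (g i) (g i) = 0 := by
      rw [CfsgLib.ClassicalForms.polar_self_mul, (hgh i).2.2.1, mul_zero]
    have hhh : polar Q (h i) (h i) = 0 := by
      rw [CfsgLib.ClassicalForms.polar_self_mul, (hgh i).2.2.2.1, mul_zero]
    constructor <;>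
    · simp only [hp, hp', polar_add_left, polar_add_right, polar_smul_left, hee, hff, hgg, hhh,
        (hef i).2.2.2.2, (hgh i).2.2.2.2, polar_comm (⇑Q) (f i) (e i),
        polar_comm (⇑Q) (h i) (g i), polar_comm (⇑Q) (e i) (g i),
        polar_comm (⇑Q) (e i) (h i), polar_comm (⇑Q) (f i) (g i), polar_comm (⇑Q) (f i) (h i),
        hge, hgf, hhe, hhf, smul_eq_mul, mul_zero, add_zero, zero_add, mul_one]
      ring
  have hQp : ∀ i, Q (p i) = 1 := fun i => by
    simpa [hp] using hval i (1, 1, 0, 0)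
  have hQp' : ∀ i, Q (p' i) = 1 := fun i => by
    simpa [hp'] using hval i (1, 0, 1, 1)
  have hpp : ∀ i, polar Q (p i) (p i) = 0 ∧ polar Q (p' i) (p' i) = 0 := fun i => by
    constructor <;> rw [CfsgLib.ClassicalForms.polar_self_mul, h2, zero_mul]
  have hpp' : ∀ i, polar Q (p' i) (p i) = 1 ∧ polar Q (p i) (p' i) = 1 := fun i => by
    have h1 : polar Q (p' i) (p i) = 1 := by simpa [hp'] using (hpol i (1, 0, 1, 1)).1
    exact ⟨h1, by rw [polar_comm]; exact h1⟩
  have hsplit : ∀ i, ∀ x ∈ D i, Q x = 1 → x = p i ∨ x = p' i ∨ x = p i + p' i ∨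
      (polar Q x (p i) = 0 ∧ polar Q x (p' i) = 0) := by
    intro i x hx hQx
    obtain ⟨A, B, C, E, rfl⟩ := hexp i x hx
    rw [hval i (A, B, C, E)] at hQx
    have hh1 := hpol i (A, B, C, E)
    rw [hh1.1, hh1.2]
    rcases h01 A with rfl | rfl <;> rcases h01 B with rfl | rfl <;>
      rcases h01 C with rfl | rfl <;> rcases h01 E with rfl | rfl <;>
      simp only [mul_zero, zero_mul, mul_one, add_zero, zero_add] at hQx <;>
      first
        | exact absurd hQx zero_ne_one
        | exact absurd hQx (fun h => one_ne_zero (α := F) (by linear_combination h))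
        | exact Or.inr (Or.inr (Or.inr ⟨by first | ring1 | linear_combination h2,
            by first | ring1 | linear_combination h2⟩))
        | (left; simp only [hp]; module)
        | (right; left; simp only [hp']; module)
        | (right; right; left; simp only [hp, hp']
           rw [show e i + f i + (e i + (g i + h i)) = (2 : F) • e i + f i + (g i + h i) by module,
             h2]
           module)
  have hu : Q (p a + p b) = 0 := by
    rw [QuadraticMap.map_add (⇑Q), hQp, hQp, hort hab (hpD a) (hpD b)]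
    linear_combination h2
  have hQw : Q (p' a + p' b) = 0 := by
    rw [QuadraticMap.map_add (⇑Q), hQp', hQp', hort hab (hp'D a) (hp'D b)]
    linear_combination h2
  have hw : polar Q (p a + p b) (p' a + p' b) = 0 := by
    rw [polar_add_left, polar_add_right, polar_add_right, (hpp' a).2, (hpp' b).2,
      hort hab (hpD a) (hp'D b), hort hab.symm (hpD b) (hp'D a)]
    linear_combination h2
  have hcoef : ∀ i, ∀ x ∈ D i,
      (i = a → polar Q x (p a + p b) = polar Q x (p a) ∧
        polar Q x (p' a + p' b) = polar Q x (p' a)) ∧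
      (i = b → polar Q x (p a + p b) = polar Q x (p b) ∧
        polar Q x (p' a + p' b) = polar Q x (p' b)) := by
    intro i x hx
    constructor <;> rintro rfl <;> constructor <;> rw [polar_add_right]
    · rw [hort hab hx (hpD b), add_zero]
    · rw [hort hab hx (hp'D b), add_zero]
    · rw [hort hab.symm hx (hpD a), zero_add]
    · rw [hort hab.symm hx (hp'D a), zero_add]
  set s := sg Q _ _ hu hw with hs
  have hmove : ∀ x, ap s x = x + polar Q x (p a + p b) • (p' a + p' b) -
      polar Q x (p' a + p' b) • (p a + p b) := fun x => by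
    rw [hs, ap_sg, hQw, zero_mul, add_zero]
  have hswap : ap s (p a) = p b ∧ ap s (p' a) = p' b ∧ ap s (p b) = p a ∧ ap s (p' b) = p' a := by
    have hdbl : ∀ z : ι → F, z + z = 0 := fun z => by rw [← two_smul F z, h2, zero_smul]
    refine ⟨?_, ?_, ?_, ?_⟩
    · rw [hmove, ((hcoef a _ (hpD a)).1 rfl).1, ((hcoef a _ (hpD a)).1 rfl).2, (hpp a).1,
        (hpp' a).2]
      linear_combination (norm := module) -hdbl (p b)
    · rw [hmove, ((hcoef a _ (hp'D a)).1 rfl).1, ((hcoef a _ (hp'D a)).1 rfl).2, (hpp a).2,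
        (hpp' a).1]
      linear_combination (norm := module) hdbl (p' a)
    · rw [hmove, ((hcoef b _ (hpD b)).2 rfl).1, ((hcoef b _ (hpD b)).2 rfl).2, (hpp b).1,
        (hpp' b).2]
      linear_combination (norm := module) -hdbl (p a)
    · rw [hmove, ((hcoef b _ (hp'D b)).2 rfl).1, ((hcoef b _ (hp'D b)).2 rfl).2, (hpp b).2,
        (hpp' b).1]
      linear_combination (norm := module) hdbl (p' b)
  have hfix : ∀ i, ∀ x ∈ D i, polar Q x (p i) = 0 → polar Q x (p' i) = 0 → ap s x = x := by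
    intro i x hx h1 h1'
    refine ap_sg_fix _ _ ?_ ?_ <;> rw [polar_add_right]
    · by_cases hia : i = a
      · subst hia; rw [h1, hort hab hx (hpD b), add_zero]
      · by_cases hib : i = b
        · subst hib; rw [h1, hort hia hx (hpD a), add_zero]
        · rw [hort hia hx (hpD a), hort hib hx (hpD b), add_zero]
    · by_cases hia : i = a
      · subst hia; rw [h1', hort hab hx (hp'D b), add_zero]
      · by_cases hib : i = b
        · subst hib; rw [h1', hort hia hx (hp'D a), add_zero]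
        · rw [hort hia hx (hp'D a), hort hib hx (hp'D b), add_zero]
  have hQsum : ∀ i, Q (p i + p' i) = 1 := fun i => by
    rw [QuadraticMap.map_add (⇑Q), hQp, hQp', (hpp' i).2]
    linear_combination h2
  refine exists_between_of_set hD hQ hn (valueSet hD 1) (fun g hg x hx => ap_mem_valueSet hD 1 hg hx)
    hu hw ?_ ?_ (u' := e b) (w' := e c) (v := p b) (hef b).2.2.1
    (hort hbc (hef b).1 (hef c).1) ⟨b, hpD b, hQp b⟩ ?_
  · rintro x ⟨i, hi, hQx⟩
    by_cases hia : i = a
    · subst hia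
      rcases hsplit i x hi hQx with rfl | rfl | rfl | ⟨h1, h1'⟩
      · rw [hswap.1]; exact ⟨b, hpD b, hQp b⟩
      · rw [hswap.2.1]; exact ⟨b, hp'D b, hQp' b⟩
      · rw [ap_add, hswap.1, hswap.2.1]; exact ⟨b, (D b).add_mem (hpD b) (hp'D b), hQsum b⟩
      · rw [hfix i x hi h1 h1']; exact ⟨i, hi, hQx⟩
    by_cases hib : i = b
    · subst hib
      rcases hsplit i x hi hQx with rfl | rfl | rfl | ⟨h1, h1'⟩
      · rw [hswap.2.2.1]; exact ⟨a, hpD a, hQp a⟩
      · rw [hswap.2.2.2]; exact ⟨a, hp'D a, hQp' a⟩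
      · rw [ap_add, hswap.2.2.1, hswap.2.2.2]
        exact ⟨a, (D a).add_mem (hpD a) (hp'D a), hQsum a⟩
      · rw [hfix i x hi h1 h1']; exact ⟨i, hi, hQx⟩
    · rw [show ap (sg Q _ _ hu hw) x = x from ap_sg_fix _ _
        (by rw [polar_add_right, hort hia hi (hpD a), hort hib hi (hpD b), add_zero])
        (by rw [polar_add_right, hort hia hi (hp'D a), hort hib hi (hp'D b), add_zero])]
      exact ⟨i, hi, hQx⟩
  · rintro ⟨π, hπ⟩
    have hrp : polar Q (r a) (p a) = 0 ∧ polar Q (r a) (p' a) = 0 := by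
      have h1 := hpol a (0, 0, 1, 1)
      simp only [zero_smul, one_smul, zero_add, add_zero] at h1
      exact ⟨by rw [show r a = g a + h a by rw [hr]]; exact h1.1, by rw [show r a = g a + h a by rw [hr], h1.2]; linear_combination h2⟩
    have h1 : r a ∈ D (π a) := by
      rw [← hπ a]; exact ⟨r a, hrD a, hfix a _ (hrD a) hrp.1 hrp.2⟩
    have h3 : p b ∈ D (π a) := by rw [← hπ a]; exact ⟨p a, hpD a, hswap.1⟩
    have h4 : π a = a := eq_of_polar_ne_zero hD h1 (hgh a).1 (by
      rw [show r a = g a + h a by rw [hr], polar_add_left,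
        CfsgLib.ClassicalForms.polar_self_mul, (hgh a).2.2.1, mul_zero, polar_comm,
        (hgh a).2.2.2.2, zero_add]
      exact one_ne_zero)
    have h5 : π a = b := eq_of_polar_ne_zero hD h3 (hp'D b) (by
      rw [(hpp' b).2]; exact one_ne_zero)
    exact hab (h4.symm.trans h5)
  · rintro ⟨i, hi, -⟩
    have hvb : polar Q (p b) (e b) = 1 := by
      rw [show p b = e b + f b by rw [hp], polar_add_left, CfsgLib.ClassicalForms.polar_self_mul,
        (hef b).2.2.1, mul_zero, polar_comm, (hef b).2.2.2.2, zero_add]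
    rw [ap_sg, hvb, (hef c).2.2.1, hort hbc (hpD b) (hef c).1, one_smul, zero_mul, add_zero,
      zero_smul, sub_zero] at hi
    have h1 : i = b := eq_of_polar_ne_zero hD hi (hef b).1 (by
      rw [polar_add_left, hvb, hort hbc.symm (hef c).1 (hef b).1, add_zero]; exact one_ne_zero)
    have h3 : i = c := eq_of_polar_ne_zero hD hi (hef c).2.1 (by
      rw [polar_add_left, hort hbc (hpD b) (hef c).2.1, (hef c).2.2.2.2, zero_add]
      exact one_ne_zero)
    exact hbc (h1.symm.trans h3)

end Decomp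

end CfsgLib.Geometric.Orth
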