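import Cfsg.Agent.Lib.Geometric.Orth.Plane
import Cfsg.Agent.Lib.Geometric.Decomp

/-!
Over three elements non-degenerate subspaces of dimension two or three have a canonical frame, so
stabilisers of such decompositions are not maximal.
-/

namespace CfsgLib.Geometric.Orth

open Matrix QuadraticMap

section Scalars

variable {F : Type*} [Field F] [Fintype F]

lemma three_eq_zero (hq : Fintype.card F = 3) : (3 : F) = 0 := by
  have h := Nat.cast_card_eq_zero F
  rw [hq] at h
  exact_mod_cast h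

lemma two_ne_zero_of_three (hq : Fintype.card F = 3) : (2 : F) ≠ 0 := fun h =>
  one_ne_zero (α := F) (by linear_combination three_eq_zero hq - h)

lemma mul_self_eq_one (hq : Fintype.card F = 3) {a : F} (ha : a ≠ 0) : a * a = 1 := by
  rcases sq_eq_one_of_card_le_three hq.le ha with rfl | rfl <;> ring

lemma sq_ne_neg_one (hq : Fintype.card F = 3) (a : F) : a * a ≠ -1 := by
  intro h
  by_cases ha : a = 0
  · simp [ha] at h
  · exact two_ne_zero_of_three hq (by linear_combination h - mul_self_eq_one hq ha)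

end Scalars

variable {ι : Type} [Fintype ι] [DecidableEq ι] {F : Type*} [Field F] [Fintype F]
variable {Q : QuadraticForm F (ι → F)} {W : Submodule F (ι → F)}
variable (hq : Fintype.card F = 3) (hW : Cfsg.Geo.IsNondegenerateOn (polar ⇑Q) W)
include hq hW

lemma exists_anisotropic_on (h : W ≠ ⊥) : ∃ u ∈ W, Q u ≠ 0 := by
  by_contra hc
  push Not at hc
  obtain ⟨x, hx, hx0⟩ := Submodule.exists_mem_ne_zero_of_ne_bot h
  obtain ⟨y, hy, hne⟩ := (hW x hx hx0).2
  exact hne (by rw [polar, hc _ (W.add_mem hx hy), hc x hx, hc y hy]; ring)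

/-- In a non-degenerate subspace, the perpendicular of an anisotropic vector is non-degenerate. -/
lemma nondeg_perp {u : ι → F} (hu : u ∈ W) (hQu : Q u ≠ 0) :
    Cfsg.Geo.IsNondegenerateOn (polar ⇑Q) (W ⊓ LinearMap.ker ((polarBilin Q).flip u)) := by
  have huu : polar Q u u ≠ 0 := by
    rw [CfsgLib.ClassicalForms.polar_self_mul]
    exact mul_ne_zero (two_ne_zero_of_three hq) hQu
  intro w hw hw0
  obtain ⟨x, hx, hxw⟩ := (hW w hw.1 hw0).2
  have hwu : polar Q w u = 0 := hw.2
  set x' := x - (polar Q x u / polar Q u u) • u with hx'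
  have h1 : x' ∈ W ⊓ LinearMap.ker ((polarBilin Q).flip u) := by
    refine ⟨W.sub_mem hx (W.smul_mem _ hu), ?_⟩
    change polar Q x' u = 0
    rw [hx', polar_sub_left, polar_smul_left, smul_eq_mul, div_mul_cancel₀ _ huu, sub_self]
  have h2 : polar Q w x' ≠ 0 := by
    rw [hx', polar_sub_right, polar_smul_right, hwu, smul_zero, sub_zero]
    exact hxw
  exact ⟨⟨x', h1, by rwa [polar_comm]⟩, ⟨x', h1, h2⟩⟩

lemma exists_ne_zero_perp (h : 2 ≤ Module.finrank F W) (u : ι → F) :
    ∃ v ∈ W, v ≠ 0 ∧ polar Q v u = 0 := by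
  let Φ : W →ₗ[F] F := ((polarBilin Q).flip u).comp W.subtype
  have h1 := Φ.finrank_range_add_finrank_ker
  have h2 : Module.finrank F (LinearMap.range Φ) ≤ 1 :=
    (Submodule.finrank_le _).trans_eq (Module.finrank_self F)
  obtain ⟨⟨v, hv⟩, hvk, hv0⟩ := Submodule.exists_mem_ne_zero_of_ne_bot
    (p := LinearMap.ker Φ) fun h0 => by rw [h0, finrank_bot] at h1; omega
  exact ⟨v, hv, fun h0 => hv0 (Subtype.ext h0), hvk⟩

lemma finrank_perp_le {u : ι → F} (hu : u ∈ W) (hQu : Q u ≠ 0) :
    Module.finrank F (W ⊓ LinearMap.ker ((polarBilin Q).flip u) : Submodule F (ι → F)) + 1 =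
      Module.finrank F W := by
  let Φ : W →ₗ[F] F := ((polarBilin Q).flip u).comp W.subtype
  have huu : Φ ⟨u, hu⟩ ≠ 0 := by
    change polar Q u u ≠ 0
    rw [CfsgLib.ClassicalForms.polar_self_mul]
    exact mul_ne_zero (two_ne_zero_of_three hq) hQu
  have hsurj : LinearMap.range Φ = ⊤ := LinearMap.range_eq_top.mpr fun c =>
    ⟨(c / Φ ⟨u, hu⟩) • ⟨u, hu⟩, by rw [map_smul, smul_eq_mul, div_mul_cancel₀ _ huu]⟩
  have h1 := Φ.finrank_range_add_finrank_ker
  rw [hsurj, finrank_top, Module.finrank_self] at h1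
  have h2 : (LinearMap.ker Φ).map W.subtype = W ⊓ LinearMap.ker ((polarBilin Q).flip u) := by
    ext x
    constructor
    · rintro ⟨y, hy, rfl⟩
      exact ⟨y.2, hy⟩
    · rintro ⟨hx, hx'⟩
      exact ⟨⟨x, hx⟩, hx', rfl⟩
  rw [← h2, ← (Submodule.equivMapOfInjective _ W.injective_subtype _).finrank_eq]
  omega

/-- The value of a canonical frame of a plane or a space of dimension three. -/
theorem exists_frame_value (hdim : Module.finrank F W = 2 ∨ Module.finrank F W = 3) :
    ∃ c : F, c ≠ 0 ∧ (∃ v ∈ W, Q v = c) ∧ ∀ u ∈ W, ∀ v ∈ W, Q u = c → Q v = c →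
      v = u ∨ v = -u ∨ polar Q v u = 0 := by
  have h2 := two_ne_zero_of_three hq
  -- in the plane `u⊥` there must be no singular vector
  have key : ∀ c : F, c ≠ 0 →
      (∀ u ∈ W, Q u = c → ∀ w ∈ W, polar Q w u = 0 → Q w = 0 → w = 0) →
      ∀ u ∈ W, ∀ v ∈ W, Q u = c → Q v = c → v = u ∨ v = -u ∨ polar Q v u = 0 := by
    intro c hc h u hu v hv hQu hQv
    by_cases hα : polar Q v u = 0
    · exact Or.inr (Or.inr hα)
    set α := polar Q v u / polar Q u u with hαdef
    have huu : polar Q u u ≠ 0 := by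
      rw [CfsgLib.ClassicalForms.polar_self_mul, hQu]; exact mul_ne_zero h2 hc
    have hα0 : α ≠ 0 := div_ne_zero hα huu
    set w := v - α • u with hw
    have hwu : polar Q w u = 0 := by
      rw [hw, polar_sub_left, polar_smul_left, smul_eq_mul, hαdef, div_mul_cancel₀ _ huu, sub_self]
    have hQw : Q w = 0 := by
      have hv' : v = α • u + w := by rw [hw]; abel
      have := hQv
      rw [hv', QuadraticMap.map_add (⇑Q), QuadraticMap.map_smul, hQu, polar_smul_left,
        polar_comm Q u w, hwu, mul_self_eq_one hq hα0] at this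
      simpa using this
    have hw0 := h u hu hQu w (W.sub_mem hv (W.smul_mem _ hu)) hwu hQw
    rw [hw, sub_eq_zero] at hw0
    rcases sq_eq_one_of_card_le_three hq.le hα0 with e | e <;> rw [e] at hw0
    · exact Or.inl (by simpa using hw0)
    · exact Or.inr (Or.inl (by simpa using hw0))
  rcases hdim with hdim | hdim
  · obtain ⟨u₀, hu₀, hQu₀⟩ := exists_anisotropic_on hq hW fun h => by
      rw [h, finrank_bot] at hdim
      omega
    refine ⟨Q u₀, hQu₀, ⟨u₀, hu₀, rfl⟩, key _ hQu₀ fun u hu hQu w hw hwu hQw => ?_⟩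
    by_contra hw0
    have hne : Q u ≠ 0 := hQu ▸ hQu₀
    obtain ⟨y, hy, hwy⟩ := (nondeg_perp hq hW hu hne w ⟨hw, hwu⟩ hw0).2
    have h1 := finrank_perp_le hq hW hu hne
    have h3 : Submodule.span F {w} = W ⊓ LinearMap.ker ((polarBilin Q).flip u) :=
      Submodule.eq_of_le_of_finrank_eq
        ((Submodule.span_singleton_le_iff_mem _ _).mpr ⟨hw, hwu⟩)
        (by rw [finrank_span_singleton hw0]; omega)
    obtain ⟨r, rfl⟩ := Submodule.mem_span_singleton.mp (h3.symm ▸ hy)
    rw [polar_smul_right, CfsgLib.ClassicalForms.polar_self_mul, hQw] at hwy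
    simp at hwy
  · -- a singular vector, its partner and a vector orthogonal to both
    obtain ⟨u₁, hu₁, hQ₁⟩ := exists_anisotropic_on hq hW fun h => by
      rw [h, finrank_bot] at hdim
      omega
    have hd₁ := finrank_perp_le hq hW hu₁ hQ₁
    have hP₁ := nondeg_perp hq hW hu₁ hQ₁
    set W₁ := W ⊓ LinearMap.ker ((polarBilin Q).flip u₁) with hW₁
    obtain ⟨u₂, hu₂, hQ₂⟩ := exists_anisotropic_on hq hP₁ fun h => by
      rw [h, finrank_bot] at hd₁
      omega
    obtain ⟨u₃, hu₃, hu₃0, h32⟩ := exists_ne_zero_perp hq hP₁ (by omega) u₂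
    have h21 : polar Q u₂ u₁ = 0 := hu₂.2
    have h31 : polar Q u₃ u₁ = 0 := hu₃.2
    have hQ₃ : Q u₃ ≠ 0 := by
      intro h0
      obtain ⟨y, hy, hne⟩ := (nondeg_perp hq hP₁ hu₂ hQ₂ u₃ ⟨hu₃, h32⟩ hu₃0).2
      have h1 := finrank_perp_le hq hP₁ hu₂ hQ₂
      have h3 : Submodule.span F {u₃} = W₁ ⊓ LinearMap.ker ((polarBilin Q).flip u₂) :=
        Submodule.eq_of_le_of_finrank_eq
          ((Submodule.span_singleton_le_iff_mem _ _).mpr ⟨hu₃, h32⟩)
          (by rw [finrank_span_singleton hu₃0]; omega)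
      obtain ⟨r, rfl⟩ := Submodule.mem_span_singleton.mp (h3.symm ▸ hy)
      rw [polar_smul_right, CfsgLib.ClassicalForms.polar_self_mul, h0] at hne
      simp at hne
    obtain ⟨e, he, he0, hQe⟩ : ∃ e ∈ W, e ≠ 0 ∧ Q e = 0 := by
      have h32' : polar Q u₂ u₃ = 0 := by rw [polar_comm]; exact h32
      have hne : ∀ a b c : F, a ≠ 0 → a • u₁ + b • u₂ + c • u₃ ≠ 0 := by
        intro a b c ha h
        have := congrArg (fun z => polar Q z u₁) h
        simp [polar_add_left, polar_smul_left, h21, h31, CfsgLib.ClassicalForms.polar_self_mul,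
          hQ₁, ha, h2] at this
      have hval : ∀ a b c : F, Q (a • u₁ + b • u₂ + c • u₃) =
          a * a * Q u₁ + b * b * Q u₂ + c * c * Q u₃ := by
        intro a b c
        simp [QuadraticMap.map_add (⇑Q), QuadraticMap.map_smul, polar_add_left, polar_smul_left,
          polar_smul_right, polar_comm Q u₁ u₂, polar_comm Q u₁ u₃, h21, h31, h32']
      have hmem : ∀ a b c : F, a • u₁ + b • u₂ + c • u₃ ∈ W := fun a b c =>
        W.add_mem (W.add_mem (W.smul_mem _ hu₁) (W.smul_mem _ hu₂.1)) (W.smul_mem _ hu₃.1)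
      rcases sq_eq_one_of_card_le_three hq.le (div_ne_zero hQ₂ hQ₁) with h | h
      · rcases sq_eq_one_of_card_le_three hq.le (div_ne_zero hQ₃ hQ₁) with h' | h'
        · rw [div_eq_one_iff_eq hQ₁] at h h'
          exact ⟨_, hmem 1 1 1, hne 1 1 1 one_ne_zero, by
            rw [hval, h, h']; linear_combination Q u₁ * three_eq_zero hq⟩
        · rw [div_eq_iff hQ₁] at h'
          exact ⟨_, hmem 1 0 1, hne 1 0 1 one_ne_zero, by rw [hval, h']; ring⟩
      · rw [div_eq_iff hQ₁] at h
        exact ⟨_, hmem 1 1 0, hne 1 1 0 one_ne_zero, by rw [hval, h]; ring⟩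
    have hee : polar Q e e = 0 := by rw [CfsgLib.ClassicalForms.polar_self_mul, hQe, mul_zero]
    obtain ⟨y, hy, hey⟩ := (hW e he he0).2
    obtain ⟨f, hf, hef, hQf⟩ : ∃ f ∈ W, polar Q e f = 1 ∧ Q f = 0 := by
      obtain ⟨y', hy', hey'⟩ : ∃ y' ∈ W, polar Q e y' = 1 :=
        ⟨(polar Q e y)⁻¹ • y, W.smul_mem _ hy, by
          rw [polar_smul_right, smul_eq_mul, inv_mul_cancel₀ hey]⟩
      refine ⟨y' - Q y' • e, W.sub_mem hy' (W.smul_mem _ he), ?_, ?_⟩
      · rw [polar_sub_right, polar_smul_right, hey', hee]; simp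
      · rw [CfsgLib.ClassicalForms.map_sub_eq, QuadraticMap.map_smul, hQe, polar_smul_right,
          polar_comm, hey']
        simp
    have hff : polar Q f f = 0 := by rw [CfsgLib.ClassicalForms.polar_self_mul, hQf, mul_zero]
    obtain ⟨u₀, hu₀, hu₀0, hu₀e, hu₀f⟩ : ∃ u ∈ W, u ≠ 0 ∧ polar Q u e = 0 ∧ polar Q u f = 0 := by
      let Φ : W →ₗ[F] (Fin 2 → F) :=
        (LinearMap.pi ![(polarBilin Q).flip e, (polarBilin Q).flip f]).comp W.subtype
      obtain ⟨⟨v, hv⟩, hvk, hv0⟩ := Submodule.exists_mem_ne_zero_of_ne_bot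
        (LinearMap.ker_ne_bot_of_finrank_lt (f := Φ) (by simp [hdim]))
      exact ⟨v, hv, fun h => hv0 (Subtype.ext h), congrFun hvk 0, congrFun hvk 1⟩
    have hli : LinearIndependent F ![u₀, e, f] := by
      rw [Fintype.linearIndependent_iff]
      intro g hg
      simp [Fin.sum_univ_three] at hg
      have h1 := congrArg (fun z => polar Q z e) hg
      have h2' := congrArg (fun z => polar Q z f) hg
      simp [polar_add_left, polar_smul_left, hu₀e, hu₀f, hee, hef, hff, polar_comm Q f e]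
        at h1 h2'
      rw [h2', h1] at hg
      simp [hu₀0] at hg
      intro i
      fin_cases i <;> simp [hg, h1, h2']
    have hspan : ∀ z ∈ W, ∃ a b d : F, z = a • u₀ + b • e + d • f := by
      have hs : Submodule.span F (Set.range ![u₀, e, f]) = W := by
        refine Submodule.eq_of_le_of_finrank_eq (Submodule.span_le.mpr ?_) ?_
        · rintro _ ⟨i, rfl⟩
          fin_cases i <;> assumption
        · rw [finrank_span_eq_card hli, hdim]; simp
      intro z hz
      rw [← hs, Submodule.mem_span_range_iff_exists_fun] at hz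
      obtain ⟨g, rfl⟩ := hz
      exact ⟨g 0, g 1, g 2, by simp [Fin.sum_univ_three]⟩
    have hval : ∀ a b d : F, Q (a • u₀ + b • e + d • f) = a * a * Q u₀ + b * d := by
      intro a b d
      simp [QuadraticMap.map_add (⇑Q), QuadraticMap.map_smul, polar_add_left, polar_smul_left,
        polar_smul_right, hu₀e, hu₀f, hef, hQe, hQf]
      ring
    have hpol : ∀ a b d α β γ : F, polar Q (a • u₀ + b • e + d • f) (α • u₀ + β • e + γ • f) =
        2 * a * α * Q u₀ + b * γ + d * β := by
      intro a b d α β γ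
      simp [polar_add_left, polar_add_right, polar_smul_left, polar_smul_right, hu₀e, hu₀f, hef,
        hee, hff, polar_comm Q f e, polar_comm Q e u₀, polar_comm Q f u₀,
        CfsgLib.ClassicalForms.polar_self_mul]
      ring
    have hQ₀ : Q u₀ ≠ 0 := by
      intro h0
      obtain ⟨z, hz, hne⟩ := (hW u₀ hu₀ hu₀0).2
      obtain ⟨a, b, d, rfl⟩ := hspan z hz
      simp [polar_add_right, polar_smul_right, hu₀e, hu₀f, CfsgLib.ClassicalForms.polar_self_mul,
        h0] at hne
    refine ⟨-Q u₀, neg_ne_zero.mpr hQ₀, ⟨u₀ + e + (Q u₀) • f, W.add_mem (W.add_mem hu₀ he)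
      (W.smul_mem _ hf), ?_⟩, key _ (neg_ne_zero.mpr hQ₀) fun u hu hQu w hw hwu hQw => ?_⟩
    · have := hval 1 1 (Q u₀)
      simp only [one_smul] at this
      rw [this]
      linear_combination Q u₀ * three_eq_zero hq
    · obtain ⟨α, β, γ, rfl⟩ := hspan u hu
      obtain ⟨a, b, d, rfl⟩ := hspan w hw
      rw [hval] at hQu hQw
      rw [hpol] at hwu
      have hsq : (b * γ - d * β) * (b * γ - d * β) =
          -((2 * a * Q u₀) * (2 * a * Q u₀)) := by
        linear_combination (b * γ + d * β - 2 * a * α * Q u₀) * hwu - 4 * b * d * hQu +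
          4 * (Q u₀ + α * α * Q u₀) * hQw
      have ha : a = 0 := by
        by_contra ha
        apply sq_ne_neg_one hq (b * γ - d * β)
        rw [hsq, mul_self_eq_one hq (mul_ne_zero (mul_ne_zero h2 ha) hQ₀)]
      subst ha
      simp at hsq hQw hwu
      have hno : ∀ x y : F, α * α * Q u₀ + x * y = -Q u₀ → x * y ≠ 0 := fun x y h hxy =>
        sq_ne_neg_one hq α (mul_right_cancel₀ hQ₀ (by linear_combination h - hxy))
      have hβγ := hno β γ hQu
      rcases hQw with hb | hd
      · subst hb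
        simp at hwu
        rcases hwu with hd | hd
        · simp [hd]
        · exact absurd (by rw [hd, zero_mul]) hβγ
      · subst hd
        simp at hwu
        rcases hwu with hb | hb
        · simp [hb]
        · exact absurd (by rw [hb, mul_zero]) hβγ

omit hq hW in
lemma exists_ne_zero_polar_eq_zero (h : 2 ≤ Module.finrank F W) (u : ι → F) :
    ∃ v ∈ W, v ≠ 0 ∧ polar Q v u = 0 := by
  let Φ : W →ₗ[F] F := ((polarBilin Q).flip u).comp W.subtype
  obtain ⟨⟨v, hv⟩, hvk, hv0⟩ := Submodule.exists_mem_ne_zero_of_ne_bot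
    (LinearMap.ker_ne_bot_of_finrank_lt (f := Φ) (by rw [Module.finrank_self]; omega))
  exact ⟨v, hv, fun h0 => hv0 (Subtype.ext h0), hvk⟩

omit hq hW in
/-- Decompositions with a canonical frame in each member are not maximal. -/
theorem exists_between_of_frame (hQ : CfsgLib.ClassicalForms.Nondeg Q) (hn : 5 ≤ Fintype.card ι)
    {t k : ℕ} {D : Fin t → Submodule F (ι → F)}
    (hD : Cfsg.Geo.IsOrthogonalMDecomposition (⇑Q) k D) (hk : 2 ≤ k) (ht : 4 ≤ t)
    (h2 : (2 : F) ≠ 0) {c : F} (hc : c ≠ 0) (a : Fin t) (hval : ∃ v ∈ D a, Q v = c)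
    (hframe : ∀ u ∈ D a, ∀ v ∈ D a, Q u = c → Q v = c → v = u ∨ v = -u ∨ polar Q v u = 0)
    {r s : F} (hr : r ≠ 0) (hrs : 1 + r * r + s * s = 0) :
    ∃ K : Subgroup (GL ι F), Cfsg.Geo.decompositionStabilizer D ⊓ Cfsg.Geo.omegaGL (⇑Q) < K ∧
      K < Cfsg.Geo.omegaGL (⇑Q) := by
  classical
  obtain ⟨v₀, hv₀, hQv₀⟩ := hval
  obtain ⟨b, nab, c', nac, nbc, d, nad, nbd, ncd⟩ : ∃ b, a ≠ b ∧ ∃ c', a ≠ c' ∧ b ≠ c' ∧
      ∃ d, a ≠ d ∧ b ≠ d ∧ c' ≠ d := by
    have hcard : ∀ s : Finset (Fin t), s.card ≤ 3 → ∃ z, z ∉ s := fun s hs => by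
      obtain ⟨z, -, hz⟩ := Finset.exists_mem_notMem_of_card_lt_card
        (s := s) (t := Finset.univ) (by rw [Finset.card_univ, Fintype.card_fin]; omega)
      exact ⟨z, hz⟩
    obtain ⟨b, hb⟩ := hcard {a} (by simp)
    obtain ⟨c', hc'⟩ := hcard {a, b} ((Finset.card_insert_le _ _).trans (by simp))
    obtain ⟨d, hd⟩ := hcard {a, b, c'}
      ((Finset.card_insert_le _ _).trans (Nat.succ_le_succ ((Finset.card_insert_le _ _).trans
        (by simp))))
    simp only [Finset.mem_insert, Finset.mem_singleton, not_or] at hb hc' hd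
    exact ⟨b, Ne.symm hb, c', Ne.symm hc'.1, Ne.symm hc'.2, d, Ne.symm hd.1, Ne.symm hd.2.1,
      Ne.symm hd.2.2⟩
  have hex : ∀ i, ∃ v ∈ D i, Q v = c := fun i => by
    obtain ⟨e, he⟩ := hD.isometric a i
    exact ⟨e ⟨v₀, hv₀⟩, (e ⟨v₀, hv₀⟩).2, by rw [he, hQv₀]⟩
  have hfr : ∀ i, ∀ u ∈ D i, ∀ v ∈ D i, Q u = c → Q v = c →
      v = u ∨ v = -u ∨ polar Q v u = 0 := by
    intro i u hu v hv hQu hQv
    obtain ⟨e, he⟩ := hD.isometric i a
    rcases hframe _ (e ⟨u, hu⟩).2 _ (e ⟨v, hv⟩).2 (by rw [he, hQu]) (by rw [he, hQv])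
      with h | h | h
    · exact Or.inl (congrArg Subtype.val (e.injective (Subtype.ext h)))
    · refine Or.inr (Or.inl ?_)
      have h' : e ⟨v, hv⟩ = e (-⟨u, hu⟩) := by rw [map_neg]; exact Subtype.ext h
      exact congrArg Subtype.val (e.injective h')
    · refine Or.inr (Or.inr ?_)
      rw [← h, polar, polar, ← Submodule.coe_add, ← map_add, he, he, he]
      rfl
  choose v hv hQv using hex
  have horth : ∀ i l, i ≠ l → ∀ x ∈ D i, ∀ y ∈ D l, polar Q x y = 0 := fun i l hil x hx y hy =>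
    hD.decomp.orthogonal i l hil x hx y hy
  have hindep : ∀ i l, i ≠ l → ∀ x, x ∈ D i → x ∈ D l → x = 0 := fun i l hil x h1 h2 =>
    (Submodule.disjoint_def.mp (hD.decomp.decomp.indep.pairwiseDisjoint hil)) x h1 h2
  have hvi : ∀ i l, i ≠ l → polar Q (v i) (v l) = 0 := fun i l h =>
    horth i l h _ (hv i) _ (hv l)
  set S : Set (ι → F) := {x | ∃ i, x ∈ D i ∧ Q x = c} with hS
  set St := Cfsg.stabilizing (Cfsg.glToMat ι F) S with hSt
  refine ⟨St ⊓ Cfsg.Geo.omegaGL (⇑Q), ?_, ?_⟩
  · have hle : Cfsg.Geo.decompositionStabilizer D ⊓ Cfsg.Geo.omegaGL (⇑Q) ≤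
        St ⊓ Cfsg.Geo.omegaGL (⇑Q) := by
      intro g hg
      refine ⟨fun x => ?_, hg.2⟩
      have fwd : ∀ g : GL ι F,
          g ∈ Cfsg.Geo.decompositionStabilizer D ⊓ Cfsg.Geo.omegaGL (⇑Q) →
            ∀ x ∈ S, ap g x ∈ S := by
        rintro g ⟨⟨π, hπ⟩, hgO⟩ x ⟨i, hi, hx⟩
        exact ⟨π i, by rw [← hπ i]; exact ⟨x, hi, rfl⟩, by rw [isometry_of_mem hgO, hx]⟩
      exact ⟨fun h => fwd g hg x h, fun h => by
        simpa [ap_inv_ap] using fwd g⁻¹ (inv_mem hg) (ap g x) h⟩
    refine lt_of_le_of_ne hle fun he => ?_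
    -- a three-cycle of frame vectors in different members
    have hw : ∀ i l, i ≠ l → Q (v i - v l) = 2 * c := fun i l h => by
      rw [CfsgLib.ClassicalForms.map_sub_eq, hQv, hQv, hvi i l h]; ring
    have hne0 : ∀ i l, i ≠ l → Q (v i - v l) ≠ 0 := fun i l h => by
      rw [hw i l h]; exact mul_ne_zero h2 hc
    set r₁ := CfsgLib.ClassicalForms.refl Q _ (hne0 a b nab) with hr₁
    set r₂ := CfsgLib.ClassicalForms.refl Q _ (hne0 b c' nbc) with hr₂
    set σ := orthToGL Q (r₁ * r₂⁻¹) with hσ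
    have hσO : σ ∈ Cfsg.Geo.omegaGL (⇑Q) := orthToGL_mem_omega
      (CfsgLib.ClassicalForms.siegelGroup_le_commutator hQ
        (by rwa [Module.finrank_fintype_fun_eq_card])
        (CfsgLib.ClassicalForms.refl_div_mem_siegelGroup hQ
          (by rwa [Module.finrank_fintype_fun_eq_card]) (hne0 a b nab) (hne0 b c' nbc)
          ⟨1, by rw [hw a b nab, hw b c' nbc, mul_inv_cancel₀ (mul_ne_zero h2 hc), mul_one]⟩))
    have hrefl : ∀ i l (h : i ≠ l) (x : ι → F),
        ap (orthToGL Q (CfsgLib.ClassicalForms.refl Q _ (hne0 i l h))) x =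
          x - ((2 * c)⁻¹ * polar Q x (v i - v l)) • (v i - v l) := fun i l h x => by
      change ap (ofEquiv _) x = _
      rw [ap_ofEquiv]
      exact (CfsgLib.ClassicalForms.refl_apply _ (hne0 i l h) x).trans (by rw [hw i l h])
    have hswap : ∀ i l (h : i ≠ l), ∀ x ∈ S,
        ap (orthToGL Q (CfsgLib.ClassicalForms.refl Q _ (hne0 i l h))) x ∈ S := by
      intro i l h x hx
      obtain ⟨j, hj, hQx⟩ := hx
      rw [hrefl i l h]
      have pi' : ∀ p r, p ≠ r → polar Q (v p) (v p - v r) = 2 * c := fun p r hpr => by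
        rw [polar_sub_right, hvi p r hpr, sub_zero, CfsgLib.ClassicalForms.polar_self_mul, hQv]
      have hc2 : (2 * c)⁻¹ * (2 * c) = 1 := inv_mul_cancel₀ (mul_ne_zero h2 hc)
      by_cases hji : j = i
      · subst hji
        rcases hfr j (v j) (hv j) x hj (hQv j) hQx with rfl | rfl | h0
        · rw [pi' j l h, hc2, one_smul, sub_sub_cancel]; exact ⟨l, hv l, hQv l⟩
        · rw [polar_neg_left, pi' j l h, mul_neg, hc2, neg_smul, one_smul]
          rw [sub_neg_eq_add, show -v j + (v j - v l) = -v l by abel]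
          exact ⟨l, by simp [hv l], by simp [hQv l]⟩
        · rw [polar_sub_right, h0, horth j l h x hj _ (hv l), sub_zero, mul_zero, zero_smul,
            sub_zero]
          exact ⟨j, hj, hQx⟩
      by_cases hjl : j = l
      · subst hjl
        rw [← neg_sub (v j) (v i), polar_neg_right, mul_neg, neg_smul_neg]
        rcases hfr j (v j) (hv j) x hj (hQv j) hQx with rfl | rfl | h0
        · rw [pi' j i (Ne.symm h), hc2, one_smul, sub_sub_cancel]; exact ⟨i, hv i, hQv i⟩
        · rw [polar_neg_left, pi' j i (Ne.symm h), mul_neg, hc2, neg_smul, one_smul]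
          rw [sub_neg_eq_add, show -v j + (v j - v i) = -v i by abel]
          exact ⟨i, by simp [hv i], by simp [hQv i]⟩
        · rw [polar_sub_right, h0, horth j i (Ne.symm h) x hj _ (hv i), sub_zero, mul_zero,
            zero_smul, sub_zero]
          exact ⟨j, hj, hQx⟩
      · rw [polar_sub_right, horth j i hji x hj _ (hv i), horth j l hjl x hj _ (hv l), sub_zero,
          mul_zero, zero_smul, sub_zero]
        exact ⟨j, hj, hQx⟩
    have hmem : σ ∈ Cfsg.Geo.decompositionStabilizer D ⊓ Cfsg.Geo.omegaGL (⇑Q) := by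
      rw [he]
      refine ⟨?_, hσO⟩
      have hst : ∀ i l (h : i ≠ l),
          orthToGL Q (CfsgLib.ClassicalForms.refl Q _ (hne0 i l h)) ∈ St := by
        intro i l h x
        refine ⟨fun hx => hswap i l h x hx, fun hx => ?_⟩
        have hinv : ap (orthToGL Q (CfsgLib.ClassicalForms.refl Q _ (hne0 i l h)))
            (ap (orthToGL Q (CfsgLib.ClassicalForms.refl Q _ (hne0 i l h))) x) = x := by
          rw [← ap_mul, ← map_mul, CfsgLib.ClassicalForms.refl_mul_self, map_one, ap_one]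
        exact hinv ▸ hswap i l h _ hx
      rw [hσ, map_mul, map_inv]
      change _ ∈ St
      exact mul_mem (hst a b nab) (inv_mem (hst b c' nbc))
    obtain ⟨π, hπ⟩ := hmem.1
    obtain ⟨x, hx, hx0, hxv⟩ : ∃ x ∈ D a, x ≠ 0 ∧ polar Q x (v a) = 0 :=
      exists_ne_zero_polar_eq_zero (by rw [hD.decomp.decomp.finrank_eq a]; omega) (v a)
    have hr₂' : ∀ y, polar Q y (v b - v c') = 0 →
        ap σ y = ap (orthToGL Q r₁) y := fun y hy => by
      rw [hσ, map_mul, map_inv, ← map_inv, hr₂, CfsgLib.ClassicalForms.refl_inv, ap_mul,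
        hrefl b c' nbc y, hy, mul_zero, zero_smul, sub_zero]
    have hfix : ap σ x = x := by
      rw [hr₂' x (by rw [polar_sub_right, horth a b nab x hx _ (hv b),
          horth a c' nac x hx _ (hv c'), sub_zero]), hr₁, hrefl a b nab, polar_sub_right, hxv,
        horth a b nab x hx _ (hv b), sub_zero, mul_zero, zero_smul, sub_zero]
    have hmove : ap σ (v a) = v b := by
      rw [hr₂' (v a) (by rw [polar_sub_right, hvi a b nab, hvi a c' nac, sub_zero]), hr₁,
        hrefl a b nab, polar_sub_right, hvi a b nab, sub_zero,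
        CfsgLib.ClassicalForms.polar_self_mul, hQv, inv_mul_cancel₀ (mul_ne_zero h2 hc), one_smul,
        sub_sub_cancel]
    have h1 : v b ∈ D (π a) := by rw [← hπ a]; exact ⟨v a, hv a, hmove⟩
    have h3 : x ∈ D (π a) := by rw [← hπ a]; exact ⟨x, hx, hfix⟩
    by_cases hπa : π a = a
    · rw [hπa] at h1
      have h4 := hQv b
      rw [hindep a b nab _ h1 (hv b), QuadraticMap.map_zero] at h4
      exact hc h4.symm
    · exact hx0 (hindep a (π a) (Ne.symm hπa) _ hx h3)
  · refine lt_of_le_of_ne inf_le_right fun he => ?_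
    set u := v b + r • v c' + s • v d with hu
    have hQu : Q u = 0 := by
      rw [hu, QuadraticMap.map_add (⇑Q), QuadraticMap.map_add (⇑Q), QuadraticMap.map_smul,
        QuadraticMap.map_smul, hQv, hQv, hQv, polar_add_left, polar_smul_right, polar_smul_right,
        polar_smul_left, polar_smul_right, hvi b c' nbc, hvi b d nbd, hvi c' d ncd]
      simp only [smul_eq_mul]
      linear_combination c * hrs
    have hau : polar Q (v a) u = 0 := by
      rw [hu, polar_add_right, polar_add_right, polar_smul_right, polar_smul_right, hvi a b nab,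
        hvi a c' nac, hvi a d nad, smul_zero, smul_zero]
      ring
    obtain ⟨w, huw, haw⟩ := exists_polar_pair hQ (u := u) (x := v a) fun h => by
      obtain ⟨r, hr⟩ := Submodule.mem_span_singleton.mp h
      have h4 := hQv a
      rw [← hr, QuadraticMap.map_smul, hQu, smul_zero] at h4
      exact hc h4.symm
    have hm : sg Q u w hQu huw ∈ St ⊓ Cfsg.Geo.omegaGL (⇑Q) := by
      rw [he]; exact sg_mem hQ hn _ _
    obtain ⟨i, hi, -⟩ := (hm.1 (v a)).mp ⟨a, hv a, hQv a⟩
    change ap (sg Q u w hQu huw) (v a) ∈ D i at hi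
    rw [ap_sg, hau, haw] at hi
    simp at hi
    have hval : ∀ j, polar Q (v a - u) (v j) ≠ 0 → i = j := fun j hj => by
      by_contra hij
      exact hj (horth i j hij _ hi _ (hv j))
    have hb : i = b := hval b (by
      simp [hu, polar_sub_left, polar_add_left, hvi a b nab, hvi c' b nbc.symm, hvi d b nbd.symm,
        polar_smul_left, CfsgLib.ClassicalForms.polar_self_mul, hQv, h2, hc])
    have hc'' : i = c' := hval c' (by
      simp [hu, polar_sub_left, polar_add_left, hvi a c' nac, hvi b c' nbc, hvi d c' ncd.symm,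
        polar_smul_left, CfsgLib.ClassicalForms.polar_self_mul, hQv, h2, hc, hr])
    exact nbc (hb.symm.trans hc'')


omit hW in
/-- Decompositions into planes or three-dimensional spaces are not maximal over three elements. -/
theorem exists_between_frames (hQ : CfsgLib.ClassicalForms.Nondeg Q) (hn : 5 ≤ Fintype.card ι)
    {t k : ℕ} {D : Fin t → Submodule F (ι → F)}
    (hD : Cfsg.Geo.IsOrthogonalMDecomposition (⇑Q) k D) (hk : k = 2 ∨ k = 3) (ht : 4 ≤ t) :
    ∃ K : Subgroup (GL ι F), Cfsg.Geo.decompositionStabilizer D ⊓ Cfsg.Geo.omegaGL (⇑Q) < K ∧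
      K < Cfsg.Geo.omegaGL (⇑Q) := by
  let a : Fin t := ⟨0, by omega⟩
  obtain ⟨c, hc, hval, hframe⟩ := exists_frame_value hq (hD.decomp.nondegenerate a)
    (by rw [hD.decomp.decomp.finrank_eq a]; exact hk)
  exact exists_between_of_frame hQ hn hD (by omega) ht (two_ne_zero_of_three hq) hc a hval hframe
    one_ne_zero (s := 1) (by linear_combination three_eq_zero hq)

end CfsgLib.Geometric.Orth
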