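import Cfsg.Agent.Lib.Geometric.Orth.NondegInvariant
import Cfsg.Agent.Lib.Geometric.Orth.AntiIsometry

/-!
Stabilisers in `omegaGL` of non-degenerate subspaces are maximal.
-/

namespace CfsgLib.Geometric.Orth

open Matrix QuadraticMap CfsgLib.ClassicalForms

variable {ι : Type} [Fintype ι] [DecidableEq ι] {F : Type*} [Field F]
variable {Q : QuadraticForm F (ι → F)}

lemma sg_mul {u w w' : ι → F} (hu : Q u = 0) (hw : polar Q u w = 0) (hw' : polar Q u w' = 0) :
    sg Q u w hu hw * sg Q u w' hu hw' =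
      sg Q u (w + w') hu (by rw [polar_add_right, hw, hw', add_zero]) := by
  rw [sg, sg, ← map_mul, siegel_mul]
  rfl

lemma sg_zero {u : ι → F} (hu : Q u = 0) (h : polar Q u 0 = 0) : sg Q u 0 hu h = 1 :=
  gl_ext fun x => by rw [ap_sg, ap_one]; simp

lemma sg_smul_left {u w : ι → F} (c : F) (hu : Q (c • u) = 0) (hw : polar Q (c • u) w = 0)
    (hu' : Q u = 0) (hw' : polar Q u (c • w) = 0) :
    sg Q (c • u) w hu hw = sg Q u (c • w) hu' hw' := by
  refine gl_ext fun x => ?_
  rw [ap_sg, ap_sg]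
  simp only [QuadraticMap.map_smul, polar_smul_right, smul_eq_mul]
  module

omit [DecidableEq ι] in
lemma exists_value_of_nondegenerateOn [Finite F] {W : Submodule F (ι → F)}
    (hW : Cfsg.Geo.IsNondegenerateOn (polar (⇑Q)) W) (hQ : Nondeg Q)
    (hk : Module.finrank F W + 3 ≤ Fintype.card ι) (c : F) : ∃ p ∈ perpW Q W, Q p = c := by
  obtain ⟨e, he0, hQe, he⟩ := exists_singular_ker Q (secW hW).φ
    (by rwa [Module.finrank_fintype_fun_eq_card])
  obtain ⟨f, hf, hef⟩ := (secW hW).exists_partner hQ he hQe he0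
  obtain ⟨h1, h2, h3⟩ := hef
  refine ⟨e + c • f, (perpW Q W).add_mem ((mem_secW hW).1 he)
    ((perpW Q W).smul_mem _ ((mem_secW hW).1 hf)), ?_⟩
  rw [QuadraticMap.map_add (⇑Q), QuadraticMap.map_smul, polar_smul_right, h1, h2, h3]
  simp

variable [Finite F] (hQ : Nondeg Q) {W : Submodule F (ι → F)}
  (hW : Cfsg.Geo.IsNondegenerateOn (polar (⇑Q)) W)
include hQ hW

/-- A subgroup above the stabiliser containing one mixed Siegel element is everything. -/
theorem le_of_mixed (hW5 : Module.finrank F W + 5 ≤ Fintype.card ι)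
    (hex : Nat.card F ≤ 3 → Module.finrank F W = 2 → ∀ x ∈ W, Q x = 0 → x = 0)
    {M : Subgroup (GL ι F)}
    (hHM : Cfsg.Geo.subspaceStabilizer W ⊓ Cfsg.Geo.omegaGL (⇑Q) ≤ M)
    (hMI : M ≤ Cfsg.isometryGroup F (⇑Q)) {u₀ b₀ : ι → F} (hu₀P : u₀ ∈ perpW Q W)
    (hu₀0 : u₀ ≠ 0) (hu₀ : Q u₀ = 0) (hb₀W : b₀ ∈ W) (hb₀0 : b₀ ≠ 0)
    (hb₀ : polar Q u₀ b₀ = 0) (hm : sg Q u₀ b₀ hu₀ hb₀ ∈ M) :
    Cfsg.Geo.omegaGL (⇑Q) ≤ M := by
  have hn5 : 5 ≤ Fintype.card ι := by omega
  have hk : Module.finrank F W + 5 ≤ Module.finrank F (ι → F) := by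
    rwa [Module.finrank_fintype_fun_eq_card]
  let Hs := Cfsg.Geo.subspaceStabilizer W ⊓ Cfsg.Geo.omegaGL (⇑Q)
  let L : Submodule F (ι → F) :=
    { carrier := {b | b ∈ W ∧ ∀ u ∈ perpW Q W, u ≠ 0 → ∀ (hu : Q u = 0) (hw : polar Q u b = 0),
        sg Q u b hu hw ∈ M}
      zero_mem' := ⟨W.zero_mem, fun u _ _ hu hw => by rw [sg_zero]; exact one_mem M⟩
      add_mem' := fun {b b'} hb hb' => ⟨W.add_mem hb.1 hb'.1, fun u hu hu0 hQu hw => by
        have h1 : polar Q u b = 0 := by rw [polar_comm]; exact hu b hb.1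
        have h2 : polar Q u b' = 0 := by rw [polar_comm]; exact hu b' hb'.1
        rw [← sg_mul hQu h1 h2]
        exact mul_mem (hb.2 u hu hu0 hQu h1) (hb'.2 u hu hu0 hQu h2)⟩
      smul_mem' := fun c b hb => ⟨W.smul_mem c hb.1, fun u hu hu0 hQu hw => by
        by_cases hc : c = 0
        · subst hc
          rw [sg_congr rfl (zero_smul F b), sg_zero]
          exact one_mem M
        have hQcu : Q (c • u) = 0 := by rw [QuadraticMap.map_smul, hQu, smul_zero]
        have h1 : polar Q (c • u) b = 0 := by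
          rw [polar_comm]; exact ((perpW Q W).smul_mem c hu) b hb.1
        rw [← sg_smul_left c hQcu h1 hQu hw]
        exact hb.2 _ ((perpW Q W).smul_mem c hu) (smul_ne_zero hc hu0) hQcu h1⟩ }
  have hconj : ∀ h ∈ Hs, ∀ b ∈ L, ap h b ∈ L := by
    intro h hh b hb
    refine ⟨((mem_subspaceStabilizer_iff _ _).mp hh.1 b).mp hb.1, fun u hu hu0 hQu hw => ?_⟩
    have hI := omegaGL_le hh.2
    have hu' : ap h⁻¹ u ∈ perpW Q W := ap_mem_perpW (inv_mem hI) (inv_mem hh.1) hu
    have hQu' : Q (ap h⁻¹ u) = 0 := by rw [mem_isometryGroup_iff.mp (inv_mem hI)]; exact hQu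
    have hw' : polar Q (ap h⁻¹ u) b = 0 := by rw [polar_comm]; exact hu' b hb.1
    have hu'0 : ap h⁻¹ u ≠ 0 := ap_ne_zero _ hu0
    have hc := mul_mem (mul_mem (hHM hh) (hb.2 _ hu' hu'0 hQu' hw')) (inv_mem (hHM hh))
    rw [conj_sg hI] at hc
    convert hc using 2
    rw [ap_ap_inv]
  have hb₀L : b₀ ∈ L := by
    refine ⟨hb₀W, fun u hu hu0 hQu hw => ?_⟩
    obtain ⟨h, hh, e⟩ := (secW hW).transitive_singular hQ hk ((mem_secW hW).2 hu₀P)
      ((mem_secW hW).2 hu) hu₀ hQu hu₀0 hu0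
    have hH := inE_mem hW hQ hn5 hh
    have hc := mul_mem (mul_mem (hHM hH) hm) (inv_mem (hHM hH))
    rw [conj_sg (omegaGL_le hH.2)] at hc
    convert hc using 2
    · rw [ap_orthToGL, e]
    · rw [inE_ap hW hh hb₀W]
  have hLW : L = W := by
    refine eq_of_invariant hQ hW hex (fun x hx => hx.1)
      (fun h => hb₀0 ((Submodule.mem_bot F).1 (h ▸ hb₀L))) (fun v hv hQv x hx => ?_)
      (fun s hs w hw hQs hsw x hx => ?_)
    · obtain ⟨p, hp, hQp⟩ := exists_value_of_nondegenerateOn hW hQ (by omega) (Q v)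
      have hQp' : Q p ≠ 0 := by rwa [hQp]
      have hr : refl Q v hQv * (refl Q p hQp')⁻¹ ∈ siegelGroup Q :=
        refl_div_mem_siegelGroup hQ (by omega) hQv hQp'
          (by rw [hQp, mul_inv_cancel₀ hQv]; exact ⟨1, (one_mul 1).symm⟩)
      have happ : ∀ y ∈ W, ap (orthToGL Q (refl Q v hQv * (refl Q p hQp')⁻¹)) y =
          y - ((Q v)⁻¹ * polar Q y v) • v := fun y hy => by
        rw [ap_orthToGL, orth_mul_apply, refl_inv, refl_fix _ (hp y hy), refl_apply]
      have hmem : orthToGL Q (refl Q v hQv * (refl Q p hQp')⁻¹) ∈ Hs :=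
        ⟨mem_subspaceStabilizer_of_mapsTo _ _ fun y hy => by
          rw [happ y hy]; exact W.sub_mem hy (W.smul_mem _ hv), orthToGL_mem_omega' hQ hn5 hr⟩
      have := hconj _ hmem x hx
      rwa [happ x hx.1] at this
    · refine hconj _ ⟨mem_subspaceStabilizer_of_mapsTo _ _ fun y hy => ?_, sg_mem hQ hn5 _ _⟩ x hx
      rw [ap_sg]
      exact W.sub_mem (W.add_mem hy (W.smul_mem _ hw)) (W.smul_mem _ hs)
  have hfull : ∀ u ∈ perpW Q W, Full Q M u := by
    intro u hu hQu w hw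
    by_cases hu0 : u = 0
    · subst hu0
      rw [show sg Q 0 w hQu hw = 1 from gl_ext fun x => by rw [ap_sg, ap_one]; simp]
      exact one_mem M
    obtain ⟨a, ha, p, hp, rfl⟩ := exists_add_eq hW w
    have h1 : polar Q u a = 0 := by rw [polar_comm]; exact hu a ha
    have h2 : polar Q u p = 0 := by rwa [polar_add_right, h1, zero_add] at hw
    rw [← sg_mul hQu h1 h2]
    refine mul_mem ?_ (hHM ⟨mem_subspaceStabilizer_of_mapsTo _ _ fun y hy => ?_,
      sg_mem hQ hn5 _ _⟩)
    · have ha' : a ∈ L := by rw [hLW]; exact ha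
      exact ha'.2 u hu hu0 hQu h1
    · rw [ap_sg_fix hQu h2 (hu y hy) (hp y hy)]; exact hy
  obtain ⟨f, hf, hpair⟩ := (secW hW).exists_partner hQ ((mem_secW hW).2 hu₀P) hu₀ hu₀0
  exact Full.le_of_pair hQ hn5 hMI (hfull u₀ hu₀P) (hfull f ((mem_secW hW).1 hf)) hu₀ hpair.2.1
    (by rw [hpair.2.2]; exact one_ne_zero)

/-- The stabiliser in `omegaGL` of a non-degenerate subspace, of dimension at most that of its
orthogonal complement, is maximal. -/
theorem nondeg_stab_isMaximalIn_of_swap (hn : 13 ≤ Fintype.card ι) (hW0 : W ≠ ⊥)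
    (hle : 2 * Module.finrank F W ≤ Fintype.card ι)
    (hex : Nat.card F ≤ 3 → Module.finrank F W = 2 → ∀ x ∈ W, Q x = 0 → x = 0)
    (hswap : 2 * Module.finrank F W = Fintype.card ι → ∀ g ∈ Cfsg.isometryGroup F (⇑Q),
      (∀ p ∈ perpW Q W, ap g p ∈ W) → False) :
    Cfsg.Geo.IsMaximalIn (Cfsg.Geo.omegaGL (⇑Q))
      (Cfsg.Geo.subspaceStabilizer W ⊓ Cfsg.Geo.omegaGL (⇑Q)) := by
  have hdim := finrank_add_perpW hW
  have hfr : Module.finrank F (ι → F) = Fintype.card ι := Module.finrank_fintype_fun_eq_card F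
  refine ⟨lt_of_le_of_ne inf_le_right fun he => ?_, fun M hHM hMS => ?_⟩
  · obtain ⟨u, hu0, hQu, hu⟩ := exists_singular_ker Q (secW hW).φ (by omega)
    obtain ⟨a, ha, ha0⟩ := Submodule.exists_mem_ne_zero_of_ne_bot hW0
    obtain ⟨x, hx, hxa⟩ := (hW a ha ha0).1
    have huP := (mem_secW hW).1 hu
    have hua : polar Q u a = 0 := by rw [polar_comm]; exact huP a ha
    have hm : sg Q u a hQu hua ∈ Cfsg.Geo.subspaceStabilizer W ⊓ Cfsg.Geo.omegaGL (⇑Q) := by
      rw [he]; exact sg_mem hQ (by omega) _ _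
    have h : ap (sg Q u a hQu hua) x ∈ W :=
      ((mem_subspaceStabilizer_iff _ _).mp hm.1 x).mp hx
    rw [ap_sg, mem_perpW.mp huP x hx, zero_smul, add_zero, mul_zero, add_zero] at h
    refine hu0 (eq_zero_of_mem_of_mem_perpW hW ?_ huP)
    have h' := W.smul_mem (polar Q x a)⁻¹ (W.sub_mem hx h)
    rwa [sub_sub_cancel, smul_smul, inv_mul_cancel₀ hxa, one_smul] at h'
  by_cases hM : M ≤ Cfsg.Geo.subspaceStabilizer W
  · exact Or.inl (le_antisymm (le_inf hM hMS) hHM)
  refine Or.inr (le_antisymm hMS ?_)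
  have hMI : M ≤ Cfsg.isometryGroup F (⇑Q) := hMS.trans omegaGL_le
  obtain ⟨g, hgM, hg⟩ := SetLike.not_le_iff_exists.mp hM
  have hgI := hMI hgM
  -- the `P`-component of the image under `g`
  let πg : (ι → F) →ₗ[F] (ι → F) := (secW hW).π.comp (apEquiv g).toLinearMap
  have hπg : ∀ x, πg x = (secW hW).π (ap g x) := fun x => rfl
  have hπmem : ∀ x, πg x ∈ perpW Q W := fun x => (mem_secW hW).1 ((secW hW).mem_proj _)
  by_contra hcon
  -- the configuration is degenerate
  have hdeg : ∀ u ∈ perpW Q W, Q u = 0 → πg u ≠ ap g u → ∀ x ∈ perpW Q W, polar Q u x = 0 →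
      πg x ∈ Submodule.span F {πg u} := by
    intro u hu hQu hbu x hx hux
    by_contra hsp
    obtain ⟨y₀, hy₀, hy₀1⟩ := exists_polar_sep hQ hsp
    set y := (secW hW).π y₀
    have hyS : (secW hW).Mem y := (secW hW).mem_proj y₀
    have hyP : y ∈ perpW Q W := (mem_secW hW).1 hyS
    set a := πg u with hadef
    set b := ap g u - a with hbdef
    have haP : a ∈ perpW Q W := hπmem u
    have hbW : b ∈ W := sub_secW_π_mem hW _
    have hb0 : b ≠ 0 := sub_ne_zero.2 fun h => hbu h.symm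
    have hxW : ap g x - πg x ∈ W := sub_secW_π_mem hW _
    have hyu : polar Q y (ap g u) = 0 := by
      rw [show ap g u = a + b by rw [hbdef]; abel, polar_add_right, polar_comm Q y a,
        polar_comm Q y b, (secW hW).polar_π a y₀ ((mem_secW hW).2 haP),
        hy₀ a (Submodule.mem_span_singleton_self a), mem_perpW.mp hyP b hbW, add_zero]
    have hyx : polar Q y (ap g x) = 1 := by
      rw [show ap g x = πg x + (ap g x - πg x) by abel, polar_add_right, polar_comm Q y (πg x),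
        polar_comm Q y (ap g x - πg x), (secW hW).polar_π _ y₀ ((mem_secW hW).2 (hπmem x)),
        hy₀1, mem_perpW.mp hyP _ hxW, add_zero]
    obtain ⟨z, hz0, hQz, hz⟩ := exists_singular_ker Q
      (Fin.cons (polarBilin Q a) (Fin.cons (polarBilin Q (πg x))
        (Fin.cons (polarBilin Q y) (secW hW).φ))) (by omega)
    have hza : polar Q a z = 0 := by simpa using hz 0
    have hzx : polar Q (πg x) z = 0 := by simpa using hz (Fin.succ 0)
    have hzy : polar Q y z = 0 := by
      simpa only [Fin.cons_succ, Fin.cons_zero, polarBilin_apply_apply] using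
        hz (Fin.succ (Fin.succ 0))
    have hzS : (secW hW).Mem z := fun i => by
      simpa only [Fin.cons_succ] using hz i.succ.succ.succ
    have hzP : z ∈ perpW Q W := (mem_secW hW).1 hzS
    have hgu : Q (ap g u) = 0 := by rw [mem_isometryGroup_iff.mp hgI]; exact hQu
    have hgux : polar Q (ap g u) (ap g x) = 0 := by rw [polar_ap hgI]; exact hux
    have hm : sg Q (ap g u) (ap g x) hgu hgux ∈ M := by
      rw [← conj_sg hgI hQu hux]
      exact mul_mem (mul_mem hgM (hHM ⟨mem_subspaceStabilizer_of_mapsTo _ _ fun w hw => by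
        rw [ap_sg_fix hQu hux (hu w hw) (hx w hw)]; exact hw, sg_mem hQ (by omega) _ _⟩))
        (inv_mem hgM)
    set m := sg Q (ap g u) (ap g x) hgu hgux with hmdef
    have hmz : ap m z = z := by
      refine ap_sg_fix _ _ ?_ ?_
      · rw [show ap g u = a + b by rw [hbdef]; abel, polar_add_right, polar_comm Q z a, hza,
          polar_comm Q z b, mem_perpW.mp hzP b hbW, add_zero]
      · rw [show ap g x = πg x + (ap g x - πg x) by abel, polar_add_right,
          polar_comm Q z (πg x), hzx, polar_comm Q z (ap g x - πg x),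
          mem_perpW.mp hzP _ hxW, add_zero]
    have hmy : ap m y = y - ap g u := by
      rw [hmdef, ap_sg, hyu, hyx]
      simp
    have hzy' : polar Q z y = 0 := by rw [polar_comm]; exact hzy
    have hfix : ∀ v, v ∈ perpW Q W → ∀ hv : polar Q z v = 0, sg Q z v hQz hv ∈ M :=
      fun v hvP hv => hHM ⟨mem_subspaceStabilizer_of_mapsTo _ _ fun w hw => by
        rw [ap_sg_fix hQz hv (hzP w hw) (hvP w hw)]; exact hw, sg_mem hQ (by omega) _ _⟩
    have h1 := mul_mem (mul_mem hm (hfix y hyP hzy')) (inv_mem hm)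
    rw [conj_sg (hMI hm)] at h1
    have hzyu : polar Q z (y - ap g u) = 0 := by
      rw [← hmy, ← hmz, polar_ap (hMI hm)]; exact hzy'
    have h1' : sg Q z (y - ap g u) hQz hzyu ∈ M := by
      convert h1 using 2
      · exact hmz.symm
      · exact hmy.symm
    have hzv : polar Q z (-(y - a)) = 0 := by
      rw [polar_neg_right, polar_sub_right, hzy', polar_comm Q z a, hza]; simp
    have h2 := mul_mem h1' (hfix (-(y - a))
      ((perpW Q W).neg_mem ((perpW Q W).sub_mem hyP haP)) hzv)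
    rw [sg_mul] at h2
    have hzb : polar Q z (-b) = 0 := by
      rw [polar_neg_right, polar_comm, mem_perpW.mp hzP b hbW, neg_zero]
    refine hcon (le_of_mixed hQ hW (by omega) hex hHM hMI hzP hz0 hQz (W.neg_mem hbW)
      (neg_ne_zero.2 hb0) hzb ?_)
    convert h2 using 2
    rw [hbdef]; abel
  -- a singular vector of `P` moved outside `P`
  obtain ⟨u, hu, hu0, hQu, hbu⟩ : ∃ u ∈ perpW Q W, u ≠ 0 ∧ Q u = 0 ∧ πg u ≠ ap g u := by
    by_contra hc
    push Not at hc
    have hsing : ∀ s ∈ perpW Q W, Q s = 0 → ap g s ∈ perpW Q W := fun s hs hQs => by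
      by_cases hs0 : s = 0
      · rw [hs0, ap_zero]; exact zero_mem _
      rw [← hc s hs hs0 hQs]; exact hπmem s
    have hall : ∀ r ∈ perpW Q W, ap g r ∈ perpW Q W := by
      intro r hr
      by_cases hr0 : r = 0
      · rw [hr0, ap_zero]; exact zero_mem _
      obtain ⟨s, hs, hQs, hsr⟩ := (secW hW).exists_singular_polar_one hQ (by omega)
        ((mem_secW hW).2 hr) hr0
      have hs' := (mem_secW hW).1 hs
      have h1 := hsing (r - Q r • s) ((perpW Q W).sub_mem hr ((perpW Q W).smul_mem _ hs')) (by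
        rw [CfsgLib.ClassicalForms.map_sub_eq, QuadraticMap.map_smul, polar_smul_right, hQs,
          polar_comm Q r s, hsr]
        simp)
      have h2 := hsing s hs' hQs
      rw [ap_sub, ap_smul] at h1
      simpa using (perpW Q W).add_mem h1 ((perpW Q W).smul_mem (Q r) h2)
    exact hg ((le_of_eq (stab_perpW_inf hW hQ))
      ⟨mem_subspaceStabilizer_of_mapsTo g _ hall, hMS hgM⟩).1
  -- another one, moved into `W`
  obtain ⟨v, hv, hv0, hQv, hvW⟩ : ∃ v ∈ perpW Q W, v ≠ 0 ∧ Q v = 0 ∧ πg v = 0 := by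
    by_cases ha : πg u = 0
    · exact ⟨u, hu, hu0, hQu, ha⟩
    obtain ⟨θ, hθ⟩ := exists_functional_ne_zero (F := F) ha
    obtain ⟨z, hz0, hQz, hz⟩ := exists_singular_ker Q
      (Fin.cons (polarBilin Q u) (Fin.cons (θ.comp πg) (secW hW).φ)) (by omega)
    have hzu : polar Q u z = 0 := by simpa using hz 0
    have hzθ : θ (πg z) = 0 := by simpa using hz (Fin.succ 0)
    have hzP : z ∈ perpW Q W := (mem_secW hW).1 fun i => by simpa using hz i.succ.succ
    obtain ⟨c, hc⟩ := Submodule.mem_span_singleton.1 (hdeg u hu hQu hbu z hzP hzu)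
    rw [← hc, map_smul, smul_eq_mul, mul_eq_zero] at hzθ
    exact ⟨z, hzP, hz0, hQz, by rw [← hc, hzθ.resolve_right hθ, zero_smul]⟩
  have hW' : ∀ v ∈ perpW Q W, v ≠ 0 → Q v = 0 → πg v = 0 →
      ∀ x ∈ perpW Q W, polar Q v x = 0 → πg x = 0 := by
    intro v hv hv0 hQv hvW x hx hvx
    have h := hdeg v hv hQv (by rw [hvW]; exact (ap_ne_zero g hv0).symm) x hx hvx
    rw [hvW, Submodule.span_zero_singleton, Submodule.mem_bot] at h
    exact h
  obtain ⟨θ, hθ⟩ := exists_functional_ne_zero (F := F) hv0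
  obtain ⟨w, hw0, hQw, hw⟩ := exists_singular_ker Q
    (Fin.cons (polarBilin Q v) (Fin.cons θ (secW hW).φ)) (by omega)
  have hvw : polar Q v w = 0 := by simpa using hw 0
  have hwθ : θ w = 0 := by simpa using hw (Fin.succ 0)
  have hwP : w ∈ perpW Q W := (mem_secW hW).1 fun i => by simpa using hw i.succ.succ
  have hwW := hW' v hv hv0 hQv hvW w hwP hvw
  obtain ⟨y₀, hy₀, hy₀1⟩ := exists_polar_pair hQ (u := w) (x := v) fun h => by
    obtain ⟨c, hc⟩ := Submodule.mem_span_singleton.1 h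
    exact hθ (by rw [← hc, map_smul, hwθ, smul_zero])
  set y := (secW hW).π y₀
  have hyS : (secW hW).Mem y := (secW hW).mem_proj y₀
  have hyP : y ∈ perpW Q W := (mem_secW hW).1 hyS
  have hvy : polar Q v y = 1 := by
    rw [(secW hW).polar_π v y₀ ((mem_secW hW).2 hv)]; exact hy₀1
  have hwy : polar Q w y = 0 := by
    rw [(secW hW).polar_π w y₀ ((mem_secW hW).2 hwP)]; exact hy₀
  have hPW : ∀ x ∈ perpW Q W, ap g x ∈ W := by
    intro x hx
    have h1 := hW' v hv hv0 hQv hvW (x - polar Q v x • y)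
      ((perpW Q W).sub_mem hx ((perpW Q W).smul_mem _ hyP))
      (by rw [polar_sub_right, polar_smul_right, hvy, smul_eq_mul, mul_one, sub_self])
    have h2 := hW' w hwP hw0 hQw hwW y hyP hwy
    rw [map_sub, map_smul, h2, smul_zero, sub_zero] at h1
    have h := sub_secW_π_mem hW (ap g x)
    rwa [← hπg, h1, sub_zero] at h
  have hfin : Module.finrank F (perpW Q W) ≤ Module.finrank F W := by
    have h : (perpW Q W).map (apEquiv g).toLinearMap ≤ W := by
      rintro _ ⟨x, hx, rfl⟩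
      exact hPW x hx
    have := Submodule.finrank_mono h
    rwa [LinearEquiv.finrank_map_eq] at this
  exact hswap (by omega) g hgI hPW

/-- Version of `nondeg_stab_isMaximalIn_of_swap` for the two standard types. -/
theorem nondeg_stab_isMaximalIn (hn : 13 ≤ Fintype.card ι) (hW0 : W ≠ ⊥)
    (hle : 2 * Module.finrank F W ≤ Fintype.card ι)
    (hex : Nat.card F ≤ 3 → Module.finrank F W = 2 → ∀ x ∈ W, Q x = 0 → x = 0)
    (hhalf : 2 * Module.finrank F W = Fintype.card ι → Even (Module.finrank F W) ∧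
      ∀ U : Submodule F (ι → F), (∀ x ∈ U, Q x = 0) →
        2 * Module.finrank F U ≠ Fintype.card ι) :
    Cfsg.Geo.IsMaximalIn (Cfsg.Geo.omegaGL (⇑Q))
      (Cfsg.Geo.subspaceStabilizer W ⊓ Cfsg.Geo.omegaGL (⇑Q)) := by
  refine nondeg_stab_isMaximalIn_of_swap hQ hW hn hW0 hle hex fun h g hgI hPW => ?_
  have hdim := finrank_add_perpW hW
  obtain ⟨hev, hU⟩ := hhalf h
  obtain ⟨U, hUs, hUd⟩ := exists_singular_half (W := W) (isNondegenerateOn_perpW hW hQ)
    (show Even (Module.finrank F (perpW Q W)) by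
      rwa [show Module.finrank F (perpW Q W) = Module.finrank F W by omega])
    (fun a ha p hp => hp a ha) (fun a h1 h2 => eq_zero_of_mem_of_mem_perpW hW h1 h2) hgI hPW
  exact hU U hUs (by omega)

/-- Form of `nondeg_stab_isMaximalIn` symmetric in the subspace and its complement. -/
theorem nondeg_stab_isMaximalIn' (hn : 13 ≤ Fintype.card ι) (hW0 : W ≠ ⊥) (hW1 : W ≠ ⊤)
    (hex : ∀ U : Submodule F (ι → F), (U = W ∨ U = perpW Q W) → Nat.card F ≤ 3 →
      Module.finrank F U = 2 → ¬ Cfsg.Geo.IsPlusTypeOn (⇑Q) U)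
    (hhalf : 2 * Module.finrank F W = Fintype.card ι → Even (Module.finrank F W) ∧
      ∀ U : Submodule F (ι → F), (∀ x ∈ U, Q x = 0) →
        2 * Module.finrank F U ≠ Fintype.card ι) :
    Cfsg.Geo.IsMaximalIn (Cfsg.Geo.omegaGL (⇑Q))
      (Cfsg.Geo.subspaceStabilizer W ⊓ Cfsg.Geo.omegaGL (⇑Q)) := by
  have hdim := finrank_add_perpW hW
  have hpl : ∀ U : Submodule F (ι → F), Module.finrank F U = 2 →
      ¬ Cfsg.Geo.IsPlusTypeOn (⇑Q) U → ∀ x ∈ U, Q x = 0 → x = 0 := by
    intro U hU2 hU x hx hQx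
    by_contra hx0
    refine hU ⟨Submodule.span F {x}, (Submodule.span_singleton_le_iff_mem _ _).2 hx,
      fun y hy => ?_, by rw [finrank_span_singleton hx0, hU2]⟩
    obtain ⟨c, rfl⟩ := Submodule.mem_span_singleton.1 hy
    rw [QuadraticMap.map_smul, hQx, smul_zero]
  by_cases hle : 2 * Module.finrank F W ≤ Fintype.card ι
  · exact nondeg_stab_isMaximalIn hQ hW hn hW0 hle
      (fun h3 h2 => hpl W h2 (hex W (Or.inl rfl) h3 h2)) hhalf
  · rw [← stab_perpW_inf hW hQ]
    refine nondeg_stab_isMaximalIn hQ (isNondegenerateOn_perpW hW hQ) hn ?_ (by omega)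
      (fun h3 h2 => hpl _ h2 (hex _ (Or.inr rfl) h3 h2)) (fun h => absurd h (by omega))
    intro h0
    refine hW1 (Submodule.eq_top_of_finrank_eq ?_)
    rw [h0, finrank_bot] at hdim
    rw [Module.finrank_fintype_fun_eq_card]
    omega

end CfsgLib.Geometric.Orth
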