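import Cfsg.Agent.Lib.Geometric.Orth.NondegStab

/-!
Stabilisers in `omegaGL` of non-degenerate subspaces are maximal, from dimension ten on.
-/

namespace CfsgLib.Geometric.Orth.Low

open Matrix QuadraticMap CfsgLib.ClassicalForms CfsgLib.Geometric CfsgLib.Geometric.Orth

variable {ι : Type} [Fintype ι] [DecidableEq ι] {F : Type*} [Field F]
variable {Q : QuadraticForm F (ι → F)}
variable [Finite F] (hQ : Nondeg Q) {W : Submodule F (ι → F)}
  (hW : Cfsg.Geo.IsNondegenerateOn (polar (⇑Q)) W)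
include hQ hW

/-- The stabiliser in `omegaGL` of a non-degenerate subspace, of dimension at most that of its
orthogonal complement, is maximal. -/
theorem nondeg_stab_isMaximalIn_of_swap (hn : 10 ≤ Fintype.card ι)
    (h6 : Module.finrank F W + 6 ≤ Fintype.card ι) (hW0 : W ≠ ⊥)
    (hle : 2 * Module.finrank F W ≤ Fintype.card ι)
    (hex : Nat.card F ≤ 3 → Module.finrank F W = 2 → ∀ x ∈ W, Q x = 0 → x = 0)
    (hswap : 2 * Module.finrank F W = Fintype.card ι → ∀ g ∈ Cfsg.isometryGroup F (⇑Q),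
      (∀ p ∈ perpW Q W, ap g p ∈ W) → False) :
    Cfsg.Geo.IsMaximalIn (Cfsg.Geo.omegaGL (⇑Q))
      (Cfsg.Geo.subspaceStabilizer W ⊓ Cfsg.Geo.omegaGL (⇑Q)) := by
  have hdim := finrank_add_perpW hW
  have hfr : Module.finrank F (ι → F) = Fintype.card ι := Module.finrank_fintype_fun_eq_card F
  refine ⟨lt_of_le_of_ne inf_le_right fun he => ?_, fun M hHM hMS => ?_⟩
  · obtain ⟨u, hu0, hQu, hu⟩ := exists_singular_ker Q (secW hW).φ (by omega)
    obtain ⟨a, ha, ha0⟩ := Submodule.exists_mem_ne_zero_of_ne_bot hW0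
    obtain ⟨x, hx, hxa⟩ := (hW a ha ha0).1
    have huP := (mem_secW hW).1 hu
    have hua : polar Q u a = 0 := by rw [polar_comm]; exact huP a ha
    have hm : sg Q u a hQu hua ∈ Cfsg.Geo.subspaceStabilizer W ⊓ Cfsg.Geo.omegaGL (⇑Q) := by
      rw [he]; exact sg_mem hQ (by omega) _ _
    have h : ap (sg Q u a hQu hua) x ∈ W :=
      ((mem_subspaceStabilizer_iff _ _).mp hm.1 x).mp hx
    rw [ap_sg, mem_perpW.mp huP x hx, zero_smul, add_zero, mul_zero, add_zero] at h
    refine hu0 (eq_zero_of_mem_of_mem_perpW hW ?_ huP)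
    have h' := W.smul_mem (polar Q x a)⁻¹ (W.sub_mem hx h)
    rwa [sub_sub_cancel, smul_smul, inv_mul_cancel₀ hxa, one_smul] at h'
  by_cases hM : M ≤ Cfsg.Geo.subspaceStabilizer W
  · exact Or.inl (le_antisymm (le_inf hM hMS) hHM)
  refine Or.inr (le_antisymm hMS ?_)
  have hMI : M ≤ Cfsg.isometryGroup F (⇑Q) := hMS.trans omegaGL_le
  obtain ⟨g, hgM, hg⟩ := SetLike.not_le_iff_exists.mp hM
  have hgI := hMI hgM
  -- the `P`-component of the image under `g`
  let πg : (ι → F) →ₗ[F] (ι → F) := (secW hW).π.comp (apEquiv g).toLinearMap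
  have hπg : ∀ x, πg x = (secW hW).π (ap g x) := fun x => rfl
  have hπmem : ∀ x, πg x ∈ perpW Q W := fun x => (mem_secW hW).1 ((secW hW).mem_proj _)
  by_contra hcon
  -- the configuration is degenerate
  have hdeg : ∀ u ∈ perpW Q W, Q u = 0 → πg u ≠ ap g u → ∀ x ∈ perpW Q W, polar Q u x = 0 →
      πg x ∈ Submodule.span F {πg u} := by
    intro u hu hQu hbu x hx hux
    by_contra hsp
    obtain ⟨y₀, hy₀, hy₀1⟩ := exists_polar_sep hQ hsp
    set y := (secW hW).π y₀
    have hyS : (secW hW).Mem y := (secW hW).mem_proj y₀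
    have hyP : y ∈ perpW Q W := (mem_secW hW).1 hyS
    set a := πg u with hadef
    set b := ap g u - a with hbdef
    have haP : a ∈ perpW Q W := hπmem u
    have hbW : b ∈ W := sub_secW_π_mem hW _
    have hb0 : b ≠ 0 := sub_ne_zero.2 fun h => hbu h.symm
    have hxW : ap g x - πg x ∈ W := sub_secW_π_mem hW _
    have hyu : polar Q y (ap g u) = 0 := by
      rw [show ap g u = a + b by rw [hbdef]; abel, polar_add_right, polar_comm Q y a,
        polar_comm Q y b, (secW hW).polar_π a y₀ ((mem_secW hW).2 haP),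
        hy₀ a (Submodule.mem_span_singleton_self a), mem_perpW.mp hyP b hbW, add_zero]
    have hyx : polar Q y (ap g x) = 1 := by
      rw [show ap g x = πg x + (ap g x - πg x) by abel, polar_add_right, polar_comm Q y (πg x),
        polar_comm Q y (ap g x - πg x), (secW hW).polar_π _ y₀ ((mem_secW hW).2 (hπmem x)),
        hy₀1, mem_perpW.mp hyP _ hxW, add_zero]
    obtain ⟨z, hz0, hQz, hz⟩ := exists_singular_ker Q
      (Fin.cons (polarBilin Q a) (Fin.cons (polarBilin Q (πg x))
        (Fin.cons (polarBilin Q y) (secW hW).φ))) (by omega)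
    have hza : polar Q a z = 0 := by simpa using hz 0
    have hzx : polar Q (πg x) z = 0 := by simpa using hz (Fin.succ 0)
    have hzy : polar Q y z = 0 := by
      simpa only [Fin.cons_succ, Fin.cons_zero, polarBilin_apply_apply] using
        hz (Fin.succ (Fin.succ 0))
    have hzS : (secW hW).Mem z := fun i => by
      simpa only [Fin.cons_succ] using hz i.succ.succ.succ
    have hzP : z ∈ perpW Q W := (mem_secW hW).1 hzS
    have hgu : Q (ap g u) = 0 := by rw [mem_isometryGroup_iff.mp hgI]; exact hQu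
    have hgux : polar Q (ap g u) (ap g x) = 0 := by rw [polar_ap hgI]; exact hux
    have hm : sg Q (ap g u) (ap g x) hgu hgux ∈ M := by
      rw [← conj_sg hgI hQu hux]
      exact mul_mem (mul_mem hgM (hHM ⟨mem_subspaceStabilizer_of_mapsTo _ _ fun w hw => by
        rw [ap_sg_fix hQu hux (hu w hw) (hx w hw)]; exact hw, sg_mem hQ (by omega) _ _⟩))
        (inv_mem hgM)
    set m := sg Q (ap g u) (ap g x) hgu hgux with hmdef
    have hmz : ap m z = z := by
      refine ap_sg_fix _ _ ?_ ?_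
      · rw [show ap g u = a + b by rw [hbdef]; abel, polar_add_right, polar_comm Q z a, hza,
          polar_comm Q z b, mem_perpW.mp hzP b hbW, add_zero]
      · rw [show ap g x = πg x + (ap g x - πg x) by abel, polar_add_right,
          polar_comm Q z (πg x), hzx, polar_comm Q z (ap g x - πg x),
          mem_perpW.mp hzP _ hxW, add_zero]
    have hmy : ap m y = y - ap g u := by
      rw [hmdef, ap_sg, hyu, hyx]
      simp
    have hzy' : polar Q z y = 0 := by rw [polar_comm]; exact hzy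
    have hfix : ∀ v, v ∈ perpW Q W → ∀ hv : polar Q z v = 0, sg Q z v hQz hv ∈ M :=
      fun v hvP hv => hHM ⟨mem_subspaceStabilizer_of_mapsTo _ _ fun w hw => by
        rw [ap_sg_fix hQz hv (hzP w hw) (hvP w hw)]; exact hw, sg_mem hQ (by omega) _ _⟩
    have h1 := mul_mem (mul_mem hm (hfix y hyP hzy')) (inv_mem hm)
    rw [conj_sg (hMI hm)] at h1
    have hzyu : polar Q z (y - ap g u) = 0 := by
      rw [← hmy, ← hmz, polar_ap (hMI hm)]; exact hzy'
    have h1' : sg Q z (y - ap g u) hQz hzyu ∈ M := by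
      convert h1 using 2
      · exact hmz.symm
      · exact hmy.symm
    have hzv : polar Q z (-(y - a)) = 0 := by
      rw [polar_neg_right, polar_sub_right, hzy', polar_comm Q z a, hza]; simp
    have h2 := mul_mem h1' (hfix (-(y - a))
      ((perpW Q W).neg_mem ((perpW Q W).sub_mem hyP haP)) hzv)
    rw [sg_mul] at h2
    have hzb : polar Q z (-b) = 0 := by
      rw [polar_neg_right, polar_comm, mem_perpW.mp hzP b hbW, neg_zero]
    refine hcon (le_of_mixed hQ hW (by omega) hex hHM hMI hzP hz0 hQz (W.neg_mem hbW)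
      (neg_ne_zero.2 hb0) hzb ?_)
    convert h2 using 2
    rw [hbdef]; abel
  -- a singular vector of `P` moved outside `P`
  obtain ⟨u, hu, hu0, hQu, hbu⟩ : ∃ u ∈ perpW Q W, u ≠ 0 ∧ Q u = 0 ∧ πg u ≠ ap g u := by
    by_contra hc
    push Not at hc
    have hsing : ∀ s ∈ perpW Q W, Q s = 0 → ap g s ∈ perpW Q W := fun s hs hQs => by
      by_cases hs0 : s = 0
      · rw [hs0, ap_zero]; exact zero_mem _
      rw [← hc s hs hs0 hQs]; exact hπmem s
    have hall : ∀ r ∈ perpW Q W, ap g r ∈ perpW Q W := by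
      intro r hr
      by_cases hr0 : r = 0
      · rw [hr0, ap_zero]; exact zero_mem _
      obtain ⟨s, hs, hQs, hsr⟩ := (secW hW).exists_singular_polar_one hQ (by omega)
        ((mem_secW hW).2 hr) hr0
      have hs' := (mem_secW hW).1 hs
      have h1 := hsing (r - Q r • s) ((perpW Q W).sub_mem hr ((perpW Q W).smul_mem _ hs')) (by
        rw [CfsgLib.ClassicalForms.map_sub_eq, QuadraticMap.map_smul, polar_smul_right, hQs,
          polar_comm Q r s, hsr]
        simp)
      have h2 := hsing s hs' hQs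
      rw [ap_sub, ap_smul] at h1
      simpa using (perpW Q W).add_mem h1 ((perpW Q W).smul_mem (Q r) h2)
    exact hg ((le_of_eq (stab_perpW_inf hW hQ))
      ⟨mem_subspaceStabilizer_of_mapsTo g _ hall, hMS hgM⟩).1
  -- another one, moved into `W`
  obtain ⟨v, hv, hv0, hQv, hvW⟩ : ∃ v ∈ perpW Q W, v ≠ 0 ∧ Q v = 0 ∧ πg v = 0 := by
    by_cases ha : πg u = 0
    · exact ⟨u, hu, hu0, hQu, ha⟩
    obtain ⟨θ, hθ⟩ := exists_functional_ne_zero (F := F) ha
    obtain ⟨z, hz0, hQz, hz⟩ := exists_singular_ker Q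
      (Fin.cons (polarBilin Q u) (Fin.cons (θ.comp πg) (secW hW).φ)) (by omega)
    have hzu : polar Q u z = 0 := by simpa using hz 0
    have hzθ : θ (πg z) = 0 := by simpa using hz (Fin.succ 0)
    have hzP : z ∈ perpW Q W := (mem_secW hW).1 fun i => by simpa using hz i.succ.succ
    obtain ⟨c, hc⟩ := Submodule.mem_span_singleton.1 (hdeg u hu hQu hbu z hzP hzu)
    rw [← hc, map_smul, smul_eq_mul, mul_eq_zero] at hzθ
    exact ⟨z, hzP, hz0, hQz, by rw [← hc, hzθ.resolve_right hθ, zero_smul]⟩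
  have hW' : ∀ v ∈ perpW Q W, v ≠ 0 → Q v = 0 → πg v = 0 →
      ∀ x ∈ perpW Q W, polar Q v x = 0 → πg x = 0 := by
    intro v hv hv0 hQv hvW x hx hvx
    have h := hdeg v hv hQv (by rw [hvW]; exact (ap_ne_zero g hv0).symm) x hx hvx
    rw [hvW, Submodule.span_zero_singleton, Submodule.mem_bot] at h
    exact h
  obtain ⟨θ, hθ⟩ := exists_functional_ne_zero (F := F) hv0
  obtain ⟨w, hw0, hQw, hw⟩ := exists_singular_ker Q
    (Fin.cons (polarBilin Q v) (Fin.cons θ (secW hW).φ)) (by omega)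
  have hvw : polar Q v w = 0 := by simpa using hw 0
  have hwθ : θ w = 0 := by simpa using hw (Fin.succ 0)
  have hwP : w ∈ perpW Q W := (mem_secW hW).1 fun i => by simpa using hw i.succ.succ
  have hwW := hW' v hv hv0 hQv hvW w hwP hvw
  obtain ⟨y₀, hy₀, hy₀1⟩ := exists_polar_pair hQ (u := w) (x := v) fun h => by
    obtain ⟨c, hc⟩ := Submodule.mem_span_singleton.1 h
    exact hθ (by rw [← hc, map_smul, hwθ, smul_zero])
  set y := (secW hW).π y₀
  have hyS : (secW hW).Mem y := (secW hW).mem_proj y₀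
  have hyP : y ∈ perpW Q W := (mem_secW hW).1 hyS
  have hvy : polar Q v y = 1 := by
    rw [(secW hW).polar_π v y₀ ((mem_secW hW).2 hv)]; exact hy₀1
  have hwy : polar Q w y = 0 := by
    rw [(secW hW).polar_π w y₀ ((mem_secW hW).2 hwP)]; exact hy₀
  have hPW : ∀ x ∈ perpW Q W, ap g x ∈ W := by
    intro x hx
    have h1 := hW' v hv hv0 hQv hvW (x - polar Q v x • y)
      ((perpW Q W).sub_mem hx ((perpW Q W).smul_mem _ hyP))
      (by rw [polar_sub_right, polar_smul_right, hvy, smul_eq_mul, mul_one, sub_self])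
    have h2 := hW' w hwP hw0 hQw hwW y hyP hwy
    rw [map_sub, map_smul, h2, smul_zero, sub_zero] at h1
    have h := sub_secW_π_mem hW (ap g x)
    rwa [← hπg, h1, sub_zero] at h
  have hfin : Module.finrank F (perpW Q W) ≤ Module.finrank F W := by
    have h : (perpW Q W).map (apEquiv g).toLinearMap ≤ W := by
      rintro _ ⟨x, hx, rfl⟩
      exact hPW x hx
    have := Submodule.finrank_mono h
    rwa [LinearEquiv.finrank_map_eq] at this
  exact hswap (by omega) g hgI hPW

/-- Version of `nondeg_stab_isMaximalIn_of_swap` for the two standard types. -/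
theorem nondeg_stab_isMaximalIn (hn : 10 ≤ Fintype.card ι)
    (h6 : Module.finrank F W + 6 ≤ Fintype.card ι) (hW0 : W ≠ ⊥)
    (hle : 2 * Module.finrank F W ≤ Fintype.card ι)
    (hex : Nat.card F ≤ 3 → Module.finrank F W = 2 → ∀ x ∈ W, Q x = 0 → x = 0)
    (hhalf : 2 * Module.finrank F W = Fintype.card ι → Even (Module.finrank F W) ∧
      ∀ U : Submodule F (ι → F), (∀ x ∈ U, Q x = 0) →
        2 * Module.finrank F U ≠ Fintype.card ι) :
    Cfsg.Geo.IsMaximalIn (Cfsg.Geo.omegaGL (⇑Q))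
      (Cfsg.Geo.subspaceStabilizer W ⊓ Cfsg.Geo.omegaGL (⇑Q)) := by
  refine nondeg_stab_isMaximalIn_of_swap hQ hW hn h6 hW0 hle hex fun h g hgI hPW => ?_
  have hdim := finrank_add_perpW hW
  obtain ⟨hev, hU⟩ := hhalf h
  obtain ⟨U, hUs, hUd⟩ := exists_singular_half (W := W) (isNondegenerateOn_perpW hW hQ)
    (show Even (Module.finrank F (perpW Q W)) by
      rwa [show Module.finrank F (perpW Q W) = Module.finrank F W by omega])
    (fun a ha p hp => hp a ha) (fun a h1 h2 => eq_zero_of_mem_of_mem_perpW hW h1 h2) hgI hPW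
  exact hU U hUs (by omega)

/-- Form of `nondeg_stab_isMaximalIn` symmetric in the subspace and its complement. -/
theorem nondeg_stab_isMaximalIn' (hn : 10 ≤ Fintype.card ι)
    (h6 : Module.finrank F W + 6 ≤ Fintype.card ι ∨ 6 ≤ Module.finrank F W) (hW0 : W ≠ ⊥) (hW1 : W ≠ ⊤)
    (hex : ∀ U : Submodule F (ι → F), (U = W ∨ U = perpW Q W) → Nat.card F ≤ 3 →
      Module.finrank F U = 2 → ¬ Cfsg.Geo.IsPlusTypeOn (⇑Q) U)
    (hhalf : 2 * Module.finrank F W = Fintype.card ι → Even (Module.finrank F W) ∧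
      ∀ U : Submodule F (ι → F), (∀ x ∈ U, Q x = 0) →
        2 * Module.finrank F U ≠ Fintype.card ι) :
    Cfsg.Geo.IsMaximalIn (Cfsg.Geo.omegaGL (⇑Q))
      (Cfsg.Geo.subspaceStabilizer W ⊓ Cfsg.Geo.omegaGL (⇑Q)) := by
  have hdim := finrank_add_perpW hW
  have hpl : ∀ U : Submodule F (ι → F), Module.finrank F U = 2 →
      ¬ Cfsg.Geo.IsPlusTypeOn (⇑Q) U → ∀ x ∈ U, Q x = 0 → x = 0 := by
    intro U hU2 hU x hx hQx
    by_contra hx0
    refine hU ⟨Submodule.span F {x}, (Submodule.span_singleton_le_iff_mem _ _).2 hx,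
      fun y hy => ?_, by rw [finrank_span_singleton hx0, hU2]⟩
    obtain ⟨c, rfl⟩ := Submodule.mem_span_singleton.1 hy
    rw [QuadraticMap.map_smul, hQx, smul_zero]
  by_cases hle : 2 * Module.finrank F W ≤ Fintype.card ι
  · exact nondeg_stab_isMaximalIn hQ hW hn (by omega) hW0 hle
      (fun h3 h2 => hpl W h2 (hex W (Or.inl rfl) h3 h2)) hhalf
  · rw [← stab_perpW_inf hW hQ]
    refine nondeg_stab_isMaximalIn hQ (isNondegenerateOn_perpW hW hQ) hn (by omega) ?_ (by omega)
      (fun h3 h2 => hpl _ h2 (hex _ (Or.inr rfl) h3 h2)) (fun h => absurd h (by omega))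
    intro h0
    refine hW1 (Submodule.eq_top_of_finrank_eq ?_)
    rw [h0, finrank_bot] at hdim
    rw [Module.finrank_fintype_fun_eq_card]
    omega

end CfsgLib.Geometric.Orth.Low
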