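import Cfsg.Agent.Lib.Geometric.Orth.Eight.Max

/-!
In dimension seven and odd characteristic the stabiliser of a non-degenerate three-space, of either
type of complement, is maximal.
-/

namespace CfsgLib.Geometric.Orth.Seven

open Matrix QuadraticMap CfsgLib.ClassicalForms CfsgLib.Geometric CfsgLib.Geometric.Orth

variable {ι : Type} [Fintype ι] [DecidableEq ι] {F : Type*} [Field F]
variable {Q : QuadraticForm F (ι → F)}

/-- The orthogonal complement of an anisotropic vector inside a section. -/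
def cutOne {k : ℕ} (S : Sec Q k) (h2 : (2 : F) ≠ 0) {z : ι → F} (hz : S.Mem z) (hQz : Q z ≠ 0) :
    Sec Q (k + 1) where
  φ := Fin.cons (QuadraticMap.polarBilin Q z) S.φ
  π := S.π - (((2 * Q z)⁻¹) • ((QuadraticMap.polarBilin Q z).comp S.π)).smulRight z
  π_mem y i := by
    refine Fin.cases ?_ (fun l => ?_) i
    · simp [polar_sub_right, polar_smul_right, polar_self_mul]
      field_simp
      ring
    · simp [S.π_mem y l, hz l]
  polar_π x y hx := by
    have h1 : polar Q x z = 0 := by rw [polar_comm]; simpa using hx 0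
    have hx' : ∀ l, S.φ l x = 0 := fun l => by simpa using hx l.succ
    simp [polar_sub_right, polar_smul_right, h1, S.polar_π x y hx']

lemma mem_cutOne_iff {k : ℕ} (S : Sec Q k) (h2 : (2 : F) ≠ 0) {z : ι → F} (hz : S.Mem z)
    (hQz : Q z ≠ 0) (x : ι → F) :
    (cutOne S h2 hz hQz).Mem x ↔ polar Q z x = 0 ∧ S.Mem x := by
  constructor
  · intro hx
    exact ⟨by simpa [cutOne] using hx 0, fun l => by simpa [cutOne] using hx l.succ⟩
  · rintro ⟨h1, h3⟩ i
    refine Fin.cases ?_ (fun l => ?_) i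
    · simpa [cutOne] using h1
    · simpa [cutOne] using h3 l

omit [DecidableEq ι] in
/-- A vector orthogonal to a full family with dual family in a non-degenerate subspace vanishes. -/
lemma eq_zero_of_orth {U : Submodule F (ι → F)}
    (hU : Cfsg.Geo.IsNondegenerateOn (polar (⇑Q)) U) {k : ℕ} (hk : Module.finrank F U = k)
    (b d : Fin k → ι → F) (hb : ∀ i, b i ∈ U) (hdiag : ∀ i, polar Q (b i) (d i) ≠ 0)
    (hoff : ∀ i j, i ≠ j → polar Q (b i) (d j) = 0) {x : ι → F} (hx : x ∈ U)
    (h : ∀ i, polar Q (b i) x = 0) : x = 0 := by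
  classical
  have hind : LinearIndependent F b := by
    rw [Fintype.linearIndependent_iff]
    intro g hg j
    have h1 := congrArg (fun v => polarBilin Q v (d j)) hg
    simp only [map_sum, LinearMap.sum_apply, map_smul, LinearMap.smul_apply, smul_eq_mul,
      polarBilin_apply_apply, map_zero, LinearMap.zero_apply] at h1
    rw [Finset.sum_eq_single j (fun i _ hij => by rw [hoff i j hij, mul_zero])
      (fun hj => absurd (Finset.mem_univ j) hj)] at h1
    exact (mul_eq_zero.1 h1).resolve_right (hdiag j)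
  have hspan : Submodule.span F (Set.range b) = U := by
    refine Submodule.eq_of_le_of_finrank_eq (Submodule.span_le.2 (by rintro _ ⟨i, rfl⟩; exact hb i))
      ?_
    rw [finrank_span_eq_card hind, Fintype.card_fin, hk]
  by_contra hx0
  obtain ⟨y, hy, hxy⟩ := (hU x hx hx0).2
  refine hxy ?_
  clear hxy
  rw [← hspan] at hy
  induction hy using Submodule.span_induction with
  | mem y hy => obtain ⟨i, rfl⟩ := hy; rw [polar_comm]; exact h i
  | zero => simp
  | add y z _ _ hy hz => simp [polar_add_right, hy, hz]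
  | smul a y _ hy => simp [polar_smul_right, hy]

variable [Finite F]

/-- A hyperbolic pair completed by two orthogonal vectors, the first of given value. -/
lemma exists_frame (hQ : Nondeg Q) (h2 : (2 : F) ≠ 0) {k : ℕ} (R : Sec Q k)
    (hk : k + 2 ≤ Fintype.card ι) (c : F) :
    ∃ r s, R.Mem r ∧ R.Mem s ∧ Q r = c ∧ Q s ≠ 0 ∧ polar Q r s = 0 := by
  have hfr : Module.finrank F (ι → F) = Fintype.card ι := Module.finrank_fintype_fun_eq_card F
  by_cases hc : c = 0
  · obtain ⟨s, hs, hQs⟩ := exists_mem_ne_zero_value R hQ (by omega)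
    exact ⟨0, s, fun i => map_zero _, hs, by rw [hc, QuadraticMap.map_zero], hQs, by simp⟩
  obtain ⟨r, hr, hQr⟩ := Eight.exists_value_two R hQ hk c
  obtain ⟨s, hs, hQs⟩ := exists_mem_ne_zero_value (cutOne R h2 hr (hQr ▸ hc)) hQ (by omega)
  obtain ⟨hrs, hsR⟩ := (mem_cutOne_iff R h2 hr _ s).1 hs
  exact ⟨r, s, hr, hsR, hQr, hQs, hrs⟩

variable (hQ : Nondeg Q) {W : Submodule F (ι → F)}
  (hW : Cfsg.Geo.IsNondegenerateOn (polar (⇑Q)) W) (h2 : (2 : F) ≠ 0)
  (hn : Fintype.card ι = 7) (hW3 : Module.finrank F W = 3)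
  {M : Subgroup (GL ι F)} (hHM : Cfsg.Geo.subspaceStabilizer W ⊓ Cfsg.Geo.omegaGL (⇑Q) ≤ M)
  (hMI : M ≤ Cfsg.isometryGroup F (⇑Q)) (hcon : ¬ Cfsg.Geo.omegaGL (⇑Q) ≤ M)
include hQ hW h2 hn hW3

omit h2 [DecidableEq ι] in
lemma finrank_perp : Module.finrank F (perpW Q W) = 4 := by
  have := finrank_add_perpW hW
  omega

omit [DecidableEq ι] in
/-- A vector of `P` orthogonal to a frame of `P` vanishes. -/
lemma eq_zero_of_frame {u f r s : ι → F} (hu : u ∈ perpW Q W) (hf : f ∈ perpW Q W)
    (hr : r ∈ perpW Q W) (hs : s ∈ perpW Q W) (huf : IsHypPair Q (u, f)) (hur : polar Q u r = 0)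
    (hfr : polar Q f r = 0) (hus : polar Q u s = 0) (hfs : polar Q f s = 0) (hrs : polar Q r s = 0)
    (hQr : Q r ≠ 0) (hQs : Q s ≠ 0) {x : ι → F} (hx : x ∈ perpW Q W) (h1 : polar Q u x = 0)
    (h3 : polar Q f x = 0) (h4 : polar Q r x = 0) (h5 : polar Q s x = 0) : x = 0 := by
  obtain ⟨hQu, hQf, huf⟩ := huf
  refine eq_zero_of_orth (isNondegenerateOn_perpW hW hQ) (finrank_perp hQ hW hn hW3)
    ![u, f, r, s] ![f, u, r, s] ?_ ?_ ?_ hx ?_
  · intro i; fin_cases i <;> assumption
  · intro i; fin_cases i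
    · simpa using huf.symm ▸ one_ne_zero
    · simpa [polar_comm Q f u] using huf.symm ▸ one_ne_zero
    · simpa [polar_self_mul] using mul_ne_zero h2 hQr
    · simpa [polar_self_mul] using mul_ne_zero h2 hQs
  · intro i j hij
    fin_cases i <;> fin_cases j <;>
      first
        | exact absurd rfl hij
        | simp [polar_self_mul, hQu, hQf, hur, hfr, hus, hfs, hrs, polar_comm Q r u,
            polar_comm Q r f, polar_comm Q s u, polar_comm Q s f, polar_comm Q s r]
  · intro i; fin_cases i <;> assumption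

omit h2 hW3 hn [Finite F] in
lemma proj_polar {q : ι → F} (hq : q ∈ perpW Q W) (t : ι → F) :
    polar Q t q = polar Q ((secW hW).π t) q := by
  rw [polar_comm Q t q, polar_comm Q _ q, (secW hW).polar_π q t ((mem_secW hW).2 hq)]

include hHM hMI

omit h2 hW3 in
/-- Conjugates in `M` of the Siegel elements of `P`. -/
lemma conj_sg_mem {g : GL ι F} (hg : g ∈ M) {u z : ι → F} (hu : u ∈ perpW Q W)
    (hz : z ∈ perpW Q W) (hQu : Q u = 0) (huz : polar Q u z = 0) (h : Q (ap g u) = 0)
    (h' : polar Q (ap g u) (ap g z) = 0) : sg Q (ap g u) (ap g z) h h' ∈ M := by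
  rw [← conj_sg (hMI hg) hQu huz]
  exact mul_mem (mul_mem hg (hHM ⟨mem_subspaceStabilizer_of_mapsTo _ _ fun w hw => by
    rw [ap_sg_fix hQu huz (hu w hw) (hz w hw)]; exact hw, sg_mem hQ (by omega) _ _⟩)) (inv_mem hg)

include hcon

/-- An element of `M` keeping a singular vector of `P` in `P` stabilises `P`. -/
lemma mapsSing : Eight.MapsSing Q W M := by
  intro g hg u hu hu0 hQu hgu
  have hperp := Eight.perp_maps hQ hW (by omega) (fun _ h => absurd h (by omega)) hHM hMI hcon
    (by omega) hg hu hu0 hQu hgu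
  obtain ⟨f, hfS, hp⟩ := (secW hW).exists_partner hQ ((mem_secW hW).2 hu) hQu hu0
  have hf : f ∈ perpW Q W := (mem_secW hW).1 hfS
  obtain ⟨-, hQf, huf⟩ := hp
  suffices hgf : ap g f ∈ perpW Q W by
    intro p hp
    have h1 := hperp (p - polar Q u p • f) ((perpW Q W).sub_mem hp ((perpW Q W).smul_mem _ hf))
      (by rw [polar_sub_right, polar_smul_right, huf, smul_eq_mul, mul_one, sub_self])
    have h3 := (perpW Q W).add_mem h1 ((perpW Q W).smul_mem (polar Q u p) hgf)
    rwa [← ap_smul, ← ap_add, sub_add_cancel] at h3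
  have hgI := hMI hg
  set x := ap g f with hx
  have hQx : Q x = 0 := by rw [hx, mem_isometryGroup_iff.mp hgI]; exact hQf
  obtain ⟨w, hw, q, hq, hxq⟩ := exists_add_eq hW x
  have hwq : polar Q w q = 0 := hq w hw
  obtain ⟨r, s, hr, hs, hQr, hQs, hrs⟩ := exists_frame hQ h2
    ((secW hW).cut u f ((mem_secW hW).2 hu) hfS ⟨hQu, hQf, huf⟩) (by omega) (Q q)
  obtain ⟨hur, hfr, hrP'⟩ := (Sec.mem_cut_iff _ _ _ _ r).1 hr
  obtain ⟨hus, hfs, hsP'⟩ := (Sec.mem_cut_iff _ _ _ _ s).1 hs
  have hrP : r ∈ perpW Q W := (mem_secW hW).1 hrP'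
  have hsP : s ∈ perpW Q W := (mem_secW hW).1 hsP'
  set u' := ap g u
  set r' := ap g r
  set s' := ap g s
  have hs'P : s' ∈ perpW Q W := hperp s hsP hus
  have hr'P : r' ∈ perpW Q W := hperp r hrP hur
  have huq : polar Q u' q = 1 := by
    have h1 : polar Q u' x = 1 := by rw [polar_ap hgI]; exact huf
    rwa [hxq, polar_add_right, polar_comm Q u' w, mem_perpW.mp hgu w hw, zero_add] at h1
  have hQu' : Q u' = 0 := by rw [mem_isometryGroup_iff.mp hgI]; exact hQu
  have hQw : Q w = -Q q := by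
    rw [hxq, QuadraticMap.map_add (⇑Q), hwq, add_zero] at hQx
    linear_combination hQx
  have hzq : ∀ z, polar Q u z = 0 → polar Q f z = 0 → ap g z ∈ perpW Q W →
      polar Q (ap g z) q = 0 := fun z huz hfz hzP => by
    have h1 : polar Q (ap g z) x = 0 := by rw [polar_ap hgI, polar_comm]; exact hfz
    rwa [hxq, polar_add_right, polar_comm Q _ w, mem_perpW.mp hzP w hw, zero_add] at h1
  have hxs : polar Q x s' = 0 := by rw [polar_ap hgI]; exact hfs
  set v := (-(2 * Q q)) • u' + q + r' with hv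
  have hvP : v ∈ perpW Q W :=
    (perpW Q W).add_mem ((perpW Q W).add_mem ((perpW Q W).smul_mem _ hgu) hq) hr'P
  have hu'r : polar Q u' r' = 0 := by rw [polar_ap hgI]; exact hur
  have hu's : polar Q u' s' = 0 := by rw [polar_ap hgI]; exact hus
  have hrs' : polar Q r' s' = 0 := by rw [polar_ap hgI]; exact hrs
  have hQr' : Q r' = Q q := by rw [mem_isometryGroup_iff.mp hgI]; exact hQr
  have hrq : polar Q r' q = 0 := hzq r hur hfr hr'P
  have hsq : polar Q s' q = 0 := hzq s hus hfs hs'P
  have hv0 : v ≠ 0 := fun h0 => by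
    have h1 := congrArg (polar Q u') h0
    rw [hv, polar_add_right, polar_add_right, polar_smul_right, polar_self_mul, hQu', hu'r, huq,
      polar_zero_right] at h1
    simp at h1
  have hQv : Q v = 0 := by
    rw [hv, QuadraticMap.map_add (⇑Q), QuadraticMap.map_add (⇑Q), QuadraticMap.map_smul,
      polar_add_left, polar_smul_left, polar_smul_left, hQu', hu'r, huq, polar_comm Q q r', hrq,
      hQr']
    simp only [smul_eq_mul]
    ring
  have hvs : polar Q v s' = 0 := by
    rw [hv, polar_add_left, polar_add_left, polar_smul_left, hu's, polar_comm Q q s', hsq, hrs']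
    simp
  have hvx : polar Q v x = 0 := by
    rw [hxq, polar_add_right, polar_comm Q v w, mem_perpW.mp hvP w hw, zero_add, hv, polar_add_left, polar_add_left,
      polar_smul_left, huq, polar_self_mul, hrq]
    simp only [smul_eq_mul]
    ring
  have hm : sg Q x s' hQx hxs ∈ M := conj_sg_mem hQ hW hn hHM hMI hg hf hsP hQf hfs _ _
  have hfix : ap (sg Q x s' hQx hxs) v = v := ap_sg_fix _ _ hvx hvs
  have h1 := Eight.perp_maps hQ hW (by omega) (fun _ h => absurd h (by omega)) hHM hMI hcon
    (by omega) hm hvP hv0 hQv (by rw [hfix]; exact hvP) s' hs'P hvs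
  rw [ap_sg, polar_comm Q s' x, hxs, zero_smul, add_zero, mul_zero, add_zero, polar_self_mul] at h1
  have hQs' : (2 : F) * Q s' ≠ 0 := by
    refine mul_ne_zero h2 ?_
    rw [mem_isometryGroup_iff.mp hgI]
    exact hQs
  have h3 := (perpW Q W).smul_mem (2 * Q s')⁻¹ ((perpW Q W).sub_mem hs'P h1)
  rwa [sub_sub_cancel, smul_smul, inv_mul_cancel₀ hQs', one_smul] at h3

section Moved

variable {g : GL ι F} (hg : g ∈ M)
  (hout : ∀ u ∈ perpW Q W, u ≠ 0 → Q u = 0 → ap g u ∉ perpW Q W)
include hg hout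

/-- The coefficient relation. -/
lemma coeff {u p v : ι → F} (hu : u ∈ perpW Q W) (hu0 : u ≠ 0) (hQu : Q u = 0)
    (hp : p ∈ perpW Q W) (hup : polar Q u p = 0) (hv : v ∈ perpW Q W) (hv0 : v ≠ 0)
    (hQv : Q v = 0) (hav : polar Q ((secW hW).π (ap g u)) v = 0) :
    polar Q ((secW hW).π (ap g p)) v = 0 := by
  have hF : 3 ≤ Nat.card F := by
    have := Fintype.ofFinite F
    rw [Nat.card_eq_fintype_card]
    by_contra h
    have h1 := Fintype.one_lt_card (α := F)
    have h3 : ringChar F ≠ 2 := fun hc => h2 (by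
      have := ringChar.Nat.cast_ringChar (R := F)
      rw [hc] at this
      exact_mod_cast this)
    have := FiniteField.odd_card_of_char_ne_two h3
    omega
  exact Eight.coeff_eq_zero_of_maps hQ hW (by omega) (fun _ h => absurd h (by omega)) hHM hMI hcon
    (by omega) (mapsSing hQ hW h2 hn hW3 hHM hMI hcon) hg hu hp hQu hup (hout u hu hu0 hQu)
    (Or.inl hF) hv hv0 hQv hav

/-- The image of a singular vector has singular part in `P`. -/
lemma proj_singular {u : ι → F} (hu : u ∈ perpW Q W) (hu0 : u ≠ 0) (hQu : Q u = 0) :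
    Q ((secW hW).π (ap g u)) = 0 := by
  set a := (secW hW).π (ap g u) with ha
  by_contra hQa
  have haP : a ∈ perpW Q W := (mem_secW hW).1 ((secW hW).mem_proj _)
  -- a frame through `a`
  obtain ⟨v, hv0, hQv, hv⟩ := exists_singular_ker Q
    (cutOne (secW hW) h2 ((mem_secW hW).2 haP) hQa).φ
    (by rw [Module.finrank_fintype_fun_eq_card]; omega)
  obtain ⟨fv, hfv, hvf⟩ := (cutOne (secW hW) h2 ((mem_secW hW).2 haP) hQa).exists_partner hQ
    (show (cutOne (secW hW) h2 ((mem_secW hW).2 haP) hQa).Mem v from hv) hQv hv0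
  obtain ⟨hav, hvS⟩ := (mem_cutOne_iff _ h2 _ hQa v).1 hv
  obtain ⟨haf, hfS⟩ := (mem_cutOne_iff _ h2 _ hQa fv).1 hfv
  obtain ⟨s, hs, hQs⟩ := exists_mem_ne_zero_value
    ((cutOne (secW hW) h2 ((mem_secW hW).2 haP) hQa).cut v fv hv hfv hvf) hQ
    (by rw [Module.finrank_fintype_fun_eq_card]; omega)
  obtain ⟨hvs, hfs, hs'⟩ := (Sec.mem_cut_iff _ _ _ _ s).1 hs
  obtain ⟨has, hsS⟩ := (mem_cutOne_iff _ h2 _ hQa s).1 hs'
  have hvP := (mem_secW hW).1 hvS
  have hfP := (mem_secW hW).1 hfS
  have hsP := (mem_secW hW).1 hsS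
  -- the image of the orthogonal of `u` lies on the line of `a`
  obtain ⟨f, hfS', hp⟩ := (secW hW).exists_partner hQ ((mem_secW hW).2 hu) hQu hu0
  obtain ⟨z, hz, hQz⟩ := exists_mem_ne_zero_value
    ((secW hW).cut u f ((mem_secW hW).2 hu) hfS' hp) hQ
    (by rw [Module.finrank_fintype_fun_eq_card]; omega)
  obtain ⟨huz, -, hzS⟩ := (Sec.mem_cut_iff _ _ _ _ z).1 hz
  have hzP := (mem_secW hW).1 hzS
  set b := (secW hW).π (ap g z) with hb
  have hbP : b ∈ perpW Q W := (mem_secW hW).1 ((secW hW).mem_proj _)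
  have hc := fun (x : ι → F) hx hx0 hQx (hax : polar Q a x = 0) =>
    coeff hQ hW h2 hn hW3 hHM hMI hcon hg hout hu hu0 hQu hzP huz (v := x) hx hx0 hQx hax
  obtain ⟨-, hQf, hvf1⟩ := hvf
  have hbv : polar Q b v = 0 := hc v hvP hv0 hQv hav
  have hbf : polar Q b fv = 0 := hc fv hfP (fun h0 => by rw [h0] at hvf1; simp at hvf1) hQf haf
  have hbs : polar Q b s = 0 := by
    have h0 : v - Q s • fv + s ≠ 0 := fun h0 => by
      have h1 := congrArg (polar Q fv) h0
      rw [polar_add_right, polar_sub_right, polar_smul_right, polar_self_mul, hQf,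
        polar_comm Q fv v, hvf1, hfs, polar_zero_right] at h1
      simp at h1
    have h1 := hc (v - Q s • fv + s)
      ((perpW Q W).add_mem ((perpW Q W).sub_mem hvP ((perpW Q W).smul_mem _ hfP)) hsP) h0
      (by
        rw [QuadraticMap.map_add (⇑Q), CfsgLib.ClassicalForms.map_sub_eq, QuadraticMap.map_smul,
          polar_sub_left, polar_smul_left, polar_smul_right, hQv, hQf, hvf1, hvs, hfs]
        simp only [smul_eq_mul]
        ring)
      (by rw [polar_add_right, polar_sub_right, polar_smul_right, hav, haf, has]; simp)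
    rw [polar_add_right, polar_sub_right, polar_smul_right, hbv, hbf] at h1
    simpa using h1
  have hab : b = ((2 * Q a)⁻¹ * polar Q a b) • a := by
    refine sub_eq_zero.1 (eq_zero_of_frame hQ hW h2 hn hW3 hvP hfP haP hsP ⟨hQv, hQf, hvf1⟩
      (by rw [polar_comm]; exact hav) (by rw [polar_comm]; exact haf) hvs hfs has hQa hQs
      ((perpW Q W).sub_mem hbP ((perpW Q W).smul_mem _ haP)) ?_ ?_ ?_ ?_)
    · rw [polar_sub_right, polar_smul_right, polar_comm Q v a, hav, polar_comm Q v b, hbv]; simp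
    · rw [polar_sub_right, polar_smul_right, polar_comm Q fv a, haf, polar_comm Q fv b, hbf]; simp
    · rw [polar_sub_right, polar_smul_right, polar_self_mul, smul_eq_mul]
      field_simp
      ring
    · rw [polar_sub_right, polar_smul_right, polar_comm Q s a, has, polar_comm Q s b, hbs]; simp
  set σ := (2 * Q a)⁻¹ * polar Q a b
  set z₁ := z - σ • u
  have hz₁P : z₁ ∈ perpW Q W := (perpW Q W).sub_mem hzP ((perpW Q W).smul_mem _ hu)
  have huz₁ : polar Q u z₁ = 0 := by
    rw [polar_sub_right, polar_smul_right, huz, polar_self_mul, hQu]; simp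
  have hgI := hMI hg
  set x := ap g u with hx
  set w := ap g z₁ with hw'
  have hQw : Q w ≠ 0 := by
    rw [hw', mem_isometryGroup_iff.mp hgI, CfsgLib.ClassicalForms.map_sub_eq,
      QuadraticMap.map_smul, polar_smul_right, hQu, polar_comm Q z u, huz]
    simpa using hQz
  have hwW : w ∈ W := by
    have h1 := sub_secW_π_mem hW w
    rwa [show (secW hW).π w = 0 by
      rw [hw', ap_sub, ap_smul, map_sub, map_smul, ← hb, ← ha, ← hab, sub_self], sub_zero] at h1
  have hQx : Q x = 0 := by rw [hx, mem_isometryGroup_iff.mp hgI]; exact hQu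
  have hxw : polar Q x w = 0 := by rw [polar_ap hgI]; exact huz₁
  have hm : sg Q x w hQx hxw ∈ M := conj_sg_mem hQ hW hn hHM hMI hg hu hz₁P hQu huz₁ _ _
  have hfix : ap (sg Q x w hQx hxw) v = v := ap_sg_fix _ _
    (by rw [polar_comm Q v x, proj_polar hQ hW hvP, ← ha]; exact hav)
    (by rw [polar_comm]; exact hvP w hwW)
  have hmaps := mapsSing hQ hW h2 hn hW3 hHM hMI hcon _ hm v hvP hv0 hQv
    (by rw [hfix]; exact hvP) a haP
  have haw : polar Q a w = 0 := by rw [polar_comm]; exact haP w hwW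
  have hax : polar Q a x = 2 * Q a := by
    rw [polar_comm, proj_polar hQ hW haP, ← ha, polar_self_mul]
  rw [ap_sg, haw, hax, zero_add] at hmaps
  have hd := (perpW Q W).sub_mem hmaps haP
  have h0 := mem_perpW.mp hd w hwW
  rw [polar_sub_right, polar_sub_right, polar_add_right, polar_smul_right, polar_smul_right,
    polar_self_mul, polar_comm Q w x, hxw, polar_comm Q w a, haw] at h0
  simp [h2, hQa, hQw] at h0

/-- An element moving every singular vector of `P` out of it does not exist. -/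
theorem false_of_out : False := by
  have hfr : Module.finrank F (ι → F) = Fintype.card ι := Module.finrank_fintype_fun_eq_card F
  have hgI := hMI hg
  let A : (ι → F) →ₗ[F] (ι → F) := (secW hW).π.comp (apEquiv g).toLinearMap
  have hA : ∀ x, A x = (secW hW).π (ap g x) := fun x => rfl
  have hAP : ∀ x, A x ∈ perpW Q W := fun x => (mem_secW hW).1 ((secW hW).mem_proj _)
  -- singular vectors have non-zero part
  have hne : ∀ u ∈ perpW Q W, u ≠ 0 → Q u = 0 → A u ≠ 0 := by
    intro u hu hu0 hQu ha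
    obtain ⟨f, hfS, hp⟩ := (secW hW).exists_partner hQ ((mem_secW hW).2 hu) hQu hu0
    obtain ⟨r, s, hr, hs, hQr, hQs, hrs⟩ := exists_frame hQ h2
      ((secW hW).cut u f ((mem_secW hW).2 hu) hfS hp) (by omega) 1
    obtain ⟨hur, hfr', hrS⟩ := (Sec.mem_cut_iff _ _ _ _ r).1 hr
    obtain ⟨hus, hfs, hsS⟩ := (Sec.mem_cut_iff _ _ _ _ s).1 hs
    have hfP := (mem_secW hW).1 hfS
    have hrP := (mem_secW hW).1 hrS
    have hsP := (mem_secW hW).1 hsS
    have hQr0 : Q r ≠ 0 := by rw [hQr]; exact one_ne_zero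
    obtain ⟨-, hQf, huf⟩ := hp
    have hzero : ∀ p ∈ perpW Q W, polar Q u p = 0 → A p = 0 := by
      intro p hpP hup
      have hc := fun (v : ι → F) hv hv0 hQv =>
        coeff hQ hW h2 hn hW3 hHM hMI hcon hg hout hu hu0 hQu hpP hup (v := v) hv hv0 hQv
          (by rw [← hA, ha]; simp)
      have hf0 : f ≠ 0 := fun h0 => by rw [h0] at huf; simp at huf
      have h1 := hc u hu hu0 hQu
      have h3 := hc f hfP hf0 hQf
      have hsing : ∀ z, z ∈ perpW Q W → polar Q u z = 0 → polar Q f z = 0 →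
          polar Q (A p) z = 0 := by
        intro z hz huz hfz
        have hne0 : u - Q z • f + z ≠ 0 := fun h0 => by
          have h4 := congrArg (polar Q f) h0
          rw [polar_add_right, polar_sub_right, polar_smul_right, polar_self_mul, hQf,
            polar_comm Q f u, huf, hfz, polar_zero_right] at h4
          simp at h4
        have h4 := hc (u - Q z • f + z)
          ((perpW Q W).add_mem ((perpW Q W).sub_mem hu ((perpW Q W).smul_mem _ hfP)) hz) hne0
          (by
            rw [QuadraticMap.map_add (⇑Q), CfsgLib.ClassicalForms.map_sub_eq, QuadraticMap.map_smul,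
              polar_sub_left, polar_smul_left, polar_smul_right, hQu, hQf, huf, huz, hfz]
            simp only [smul_eq_mul]
            ring)
        rw [polar_add_right, polar_sub_right, polar_smul_right, h1, h3] at h4
        simpa [hA] using h4
      exact eq_zero_of_frame hQ hW h2 hn hW3 hu hfP hrP hsP ⟨hQu, hQf, huf⟩ hur hfr' hus hfs hrs
        hQr0 hQs (hAP p) (by rw [polar_comm]; exact h1) (by rw [polar_comm]; exact h3)
        (by rw [polar_comm]; exact hsing r hrP hur hfr')
        (by rw [polar_comm]; exact hsing s hsP hus hfs)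
    have hinW : ∀ p ∈ perpW Q W, polar Q u p = 0 → ap g p ∈ W := fun p hpP hup => by
      have h1 := sub_secW_π_mem hW (ap g p)
      rwa [← hA, hzero p hpP hup, sub_zero] at h1
    have hxW : ap g u ∈ W := hinW u hu (by rw [polar_self_mul, hQu, mul_zero])
    have hrW := hinW r hrP hur
    have hsW := hinW s hsP hus
    obtain ⟨y, hy, hxy⟩ := (hW _ hxW (ap_ne_zero g hu0)).2
    set y' := y - ((2 * Q r)⁻¹ * polar Q (ap g r) y) • ap g r -
      ((2 * Q s)⁻¹ * polar Q (ap g s) y) • ap g s
    have hxr : polar Q (ap g u) (ap g r) = 0 := by rw [polar_ap hgI]; exact hur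
    have hxs : polar Q (ap g u) (ap g s) = 0 := by rw [polar_ap hgI]; exact hus
    have hrs' : polar Q (ap g r) (ap g s) = 0 := by rw [polar_ap hgI]; exact hrs
    have hrr : polar Q (ap g r) (ap g r) = 2 * Q r := by rw [polar_ap hgI, polar_self_mul]
    have hss : polar Q (ap g s) (ap g s) = 2 * Q s := by rw [polar_ap hgI, polar_self_mul]
    refine ap_ne_zero g hu0 (eq_zero_of_orth hW hW3 ![ap g u, ap g r, ap g s]
      ![y', ap g r, ap g s] ?_ ?_ ?_ hxW ?_)
    · intro i; fin_cases i <;> assumption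
    · intro i; fin_cases i
      · simpa [y', polar_sub_right, polar_smul_right, hxr, hxs] using hxy
      · simpa [hrr] using mul_ne_zero h2 hQr0
      · simpa [hss] using mul_ne_zero h2 hQs
    · intro i j hij
      fin_cases i <;> fin_cases j <;>
        first
          | exact absurd rfl hij
          | (simp [y', polar_sub_right, polar_smul_right, hxr, hxs, hrs', hrr, hss,
              polar_comm Q (ap g s) (ap g r)]; done)
          | (simp [y', polar_sub_right, polar_smul_right, hxr, hxs, hrs', hrr, hss,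
              polar_comm Q (ap g s) (ap g r)]; field_simp; ring)
    · intro i; fin_cases i
      · simp [polar_ap hgI, polar_self_mul, hQu]
      · simpa [polar_comm Q (ap g r)] using hxr
      · simpa [polar_comm Q (ap g s)] using hxs
  -- singular vectors are eigenvectors of the pulled-back form
  have heig : ∀ u ∈ perpW Q W, u ≠ 0 → Q u = 0 → ∀ f ∈ perpW Q W, polar Q u f = 1 →
      ∀ p ∈ perpW Q W, polar Q (A u) (A p) = polar Q u p * polar Q (A u) (A f) := by
    intro u hu hu0 hQu f hf huf p hp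
    have hsing := proj_singular hQ hW h2 hn hW3 hHM hMI hcon hg hout hu hu0 hQu
    have h1 := coeff hQ hW h2 hn hW3 hHM hMI hcon hg hout hu hu0 hQu
      (p := p - polar Q u p • f) ((perpW Q W).sub_mem hp ((perpW Q W).smul_mem _ hf))
      (by rw [polar_sub_right, polar_smul_right, huf, smul_eq_mul, mul_one, sub_self])
      (v := A u) (hAP u) (hne u hu hu0 hQu) hsing
      (by rw [← hA, polar_self_mul, hA, hsing, mul_zero])
    rw [← hA, map_sub, map_smul, polar_sub_left, polar_smul_left, polar_comm Q (A p),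
      polar_comm Q (A f), sub_eq_zero, smul_eq_mul] at h1
    exact h1
  obtain ⟨u, hu0, hQu, huS⟩ := exists_singular_ker Q (secW hW).φ (by omega)
  have hu : u ∈ perpW Q W := (mem_secW hW).1 huS
  obtain ⟨f, hfS, hp⟩ := (secW hW).exists_partner hQ huS hQu hu0
  have hf : f ∈ perpW Q W := (mem_secW hW).1 hfS
  obtain ⟨-, hQf, huf⟩ := hp
  have hf0 : f ≠ 0 := fun h0 => by rw [h0] at huf; simp at huf
  set κ := polar Q (A u) (A f) with hκ
  have hfu : polar Q f u = 1 := by rw [polar_comm]; exact huf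
  have hBu : ∀ p ∈ perpW Q W, polar Q (A u) (A p) = κ * polar Q u p := fun p hp => by
    rw [heig u hu hu0 hQu f hf huf p hp, mul_comm]
  have hBf : ∀ p ∈ perpW Q W, polar Q (A f) (A p) = κ * polar Q f p := fun p hp => by
    rw [heig f hf hf0 hQf u hu hfu p hp, mul_comm, polar_comm Q (A f) (A u)]
  have hBz : ∀ z ∈ perpW Q W, polar Q u z = 0 → polar Q f z = 0 → ∀ p ∈ perpW Q W,
      polar Q (A z) (A p) = κ * polar Q z p := by
    intro z hz huz hfz p hp
    set u' := u - Q z • f + z with hu'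
    have hu'P : u' ∈ perpW Q W :=
      (perpW Q W).add_mem ((perpW Q W).sub_mem hu ((perpW Q W).smul_mem _ hf)) hz
    have hu'f : polar Q u' f = 1 := by
      rw [hu', polar_add_left, polar_sub_left, polar_smul_left, polar_self_mul, hQf,
        polar_comm Q z f, hfz, huf]
      simp
    have hQu' : Q u' = 0 := by
      rw [hu', QuadraticMap.map_add (⇑Q), CfsgLib.ClassicalForms.map_sub_eq, QuadraticMap.map_smul,
        polar_sub_left, polar_smul_left, polar_smul_right, hQu, hQf, huf, huz, hfz]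
      simp only [smul_eq_mul]
      ring
    have h1 := heig u' hu'P (fun h0 => by rw [h0] at hu'f; simp at hu'f) hQu' f hf hu'f p hp
    have hzf : polar Q (A z) (A f) = 0 := by rw [polar_comm, hBf z hz, hfz, mul_zero]
    rw [hu', map_add, map_sub, map_smul, polar_add_left, polar_sub_left, polar_smul_left,
      hBu p hp, hBf p hp, polar_add_left, polar_sub_left, polar_smul_left, polar_add_left,
      polar_sub_left, polar_smul_left, hBf f hf, hzf, ← hκ, polar_self_mul, hQf] at h1
    simp only [smul_eq_mul] at h1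
    linear_combination h1
  have hB : ∀ p ∈ perpW Q W, Q (A p) = κ * Q p := by
    intro p hp
    set z := p - polar Q f p • u - polar Q u p • f
    have hz : z ∈ perpW Q W := (perpW Q W).sub_mem ((perpW Q W).sub_mem hp
      ((perpW Q W).smul_mem _ hu)) ((perpW Q W).smul_mem _ hf)
    have h1 := hBz z hz (by simp [z, polar_sub_right, polar_smul_right, polar_self_mul, hQu, huf])
      (by simp [z, polar_sub_right, polar_smul_right, polar_self_mul, hQf, hfu]) p hp
    have h3 := hBu p hp
    have h4 := hBf p hp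
    simp only [z, map_sub, map_smul, polar_sub_left, polar_smul_left, smul_eq_mul] at h1
    refine mul_left_cancel₀ h2 ?_
    rw [← polar_self_mul, ← mul_assoc, mul_comm (2 : F), mul_assoc, ← polar_self_mul]
    linear_combination h1 + polar Q f p * h3 + polar Q u p * h4
  have hsplit : ∀ p, Q (ap g p) = Q (A p) + Q (ap g p - A p) := fun p => by
    conv_lhs => rw [show ap g p = A p + (ap g p - A p) by abel]
    rw [QuadraticMap.map_add (⇑Q), polar_comm Q (A p),
      mem_perpW.mp (hAP p) _ (show ap g p - A p ∈ W from sub_secW_π_mem hW (ap g p)), add_zero]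
  by_cases hκ1 : κ = 1
  swap
  · obtain ⟨p, hp0, hp⟩ := exists_ne_zero_ker
      (Fin.append (secW hW).φ fun i => ((secW hW).φ i).comp (apEquiv g).toLinearMap)
      (show Module.finrank F W + Module.finrank F W < Module.finrank F (ι → F) by omega)
    have hpP : p ∈ perpW Q W := (mem_secW hW).1 fun i => by simpa using hp (Fin.castAdd _ i)
    have hgp : ap g p ∈ perpW Q W := (mem_secW hW).1 fun i => by
      simpa only [Fin.append_right, LinearMap.comp_apply, LinearEquiv.coe_toLinearMap, apEquiv_apply]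
        using hp (Fin.natAdd _ i)
    have hAp : A p = ap g p := by
      rw [hA]
      conv_lhs => rw [← zero_add (ap g p), secW_π_add hW W.zero_mem hgp]
    refine hout p hpP hp0 ?_ hgp
    have h1 := hB p hpP
    rw [hAp, mem_isometryGroup_iff.mp hgI] at h1
    have h3 : (1 - κ) * Q p = 0 := by linear_combination h1
    exact (mul_eq_zero.1 h3).resolve_left (sub_ne_zero.2 (Ne.symm hκ1))
  have hBW : ∀ p ∈ perpW Q W, Q (ap g p - A p) = 0 := fun p hp => by
    have h1 := hsplit p
    rw [hB p hp, hκ1, mem_isometryGroup_iff.mp hgI] at h1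
    linear_combination -h1
  by_cases h0 : ∀ p ∈ perpW Q W, Q p = 0 → ap g p - A p = 0
  · exact hout u hu hu0 hQu (by rw [sub_eq_zero.1 (h0 u hu hQu)]; exact hAP u)
  push Not at h0
  obtain ⟨p₀, hp₀, -, hw0⟩ := h0
  set w₀ := ap g p₀ - A p₀
  have hU : Cfsg.Geo.IsNondegenerateOn (polar (⇑Q)) (perpW Q W) := isNondegenerateOn_perpW hW hQ
  have hWU : ∀ x, (secW hU).Mem x ↔ x ∈ W := fun x => by rw [mem_secW hU, perpW_perpW hW hQ]
  have hw₀W : w₀ ∈ W := sub_secW_π_mem hW _
  obtain ⟨f₀, hf₀, hp'⟩ := (secW hU).exists_partner hQ ((hWU _).2 hw₀W) (hBW p₀ hp₀) hw0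
  obtain ⟨s₀, hs₀, hQs₀⟩ := exists_mem_ne_zero_value
    ((secW hU).cut w₀ f₀ ((hWU _).2 hw₀W) hf₀ hp') hQ (by
      rw [hfr, finrank_perp hQ hW hn hW3]; omega)
  obtain ⟨hws, hfs, hsW⟩ := (Sec.mem_cut_iff _ _ _ _ s₀).1 hs₀
  obtain ⟨hQw₀, hQf₀, hwf⟩ := hp'
  let θ : (ι → F) →ₗ[F] F := (QuadraticMap.polarBilin Q f₀).comp (apEquiv g).toLinearMap
  obtain ⟨v, hv0, hQv, hv⟩ := exists_singular_ker Q (Fin.cons θ (secW hW).φ) (by omega)
  have hvP : v ∈ perpW Q W := (mem_secW hW).1 fun i => by simpa using hv i.succ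
  have hθ : polar Q f₀ (ap g v) = 0 := by simpa [θ] using hv 0
  set y := ap g v - A v with hy
  have hyW : y ∈ W := sub_secW_π_mem hW _
  have hfy : polar Q f₀ y = 0 := by
    rw [hy, polar_sub_right, hθ, polar_comm Q f₀ (A v), show polar Q (A v) f₀ = 0 by
      rw [polar_comm]; exact hAP v f₀ ((hWU _).1 hf₀), sub_zero]
  have hwy : polar Q w₀ y = 0 := by
    have h1 := hBW _ ((perpW Q W).add_mem hp₀ hvP)
    rw [ap_add, map_add, show ap g p₀ + ap g v - (A p₀ + A v) = w₀ + y by simp only [w₀, y]; abel,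
      QuadraticMap.map_add (⇑Q), hQw₀, hBW v hvP] at h1
    simpa using h1
  have hy' : y = ((2 * Q s₀)⁻¹ * polar Q s₀ y) • s₀ := by
    refine sub_eq_zero.1 (eq_zero_of_orth hW hW3 ![w₀, f₀, s₀] ![f₀, w₀, s₀] ?_ ?_ ?_
      (W.sub_mem hyW (W.smul_mem _ ((hWU _).1 hsW))) ?_)
    · intro i; fin_cases i
      exacts [hw₀W, (hWU _).1 hf₀, (hWU _).1 hsW]
    · intro i; fin_cases i
      · simp [hwf]
      · simp [polar_comm Q f₀ w₀, hwf]
      · simpa [polar_self_mul] using mul_ne_zero h2 hQs₀
    · intro i j hij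
      fin_cases i <;> fin_cases j <;>
        first
          | exact absurd rfl hij
          | simp [polar_self_mul, hQw₀, hQf₀, hws, hfs, polar_comm Q s₀ w₀, polar_comm Q s₀ f₀]
    · intro i; fin_cases i
      · simp [polar_sub_right, polar_smul_right, hwy, hws]
      · simp [polar_sub_right, polar_smul_right, hfy, hfs]
      · simp [polar_sub_right, polar_smul_right, polar_self_mul]
        field_simp
        ring
  have hy0 : y = 0 := by
    have h1 := hBW v hvP
    rw [← hy, hy', QuadraticMap.map_smul, smul_eq_mul, mul_eq_zero, mul_self_eq_zero] at h1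
    rw [hy', h1.resolve_right hQs₀, zero_smul]
  exact hout v hvP hv0 hQv (by rw [sub_eq_zero.1 hy0]; exact hAP v)

end Moved

omit hHM hMI hcon in
/-- The stabiliser of a non-degenerate three-space in dimension seven is maximal. -/
theorem nondeg_stab_isMaximalIn_three :
    Cfsg.Geo.IsMaximalIn (Cfsg.Geo.omegaGL (⇑Q))
      (Cfsg.Geo.subspaceStabilizer W ⊓ Cfsg.Geo.omegaGL (⇑Q)) := by
  refine ⟨lt_of_le_of_ne inf_le_right fun he => ?_, fun M hHM hMS => ?_⟩
  · obtain ⟨u, hu0, hQu, huS⟩ := exists_singular_ker Q (secW hW).φ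
      (by rw [Module.finrank_fintype_fun_eq_card]; omega)
    have hu : u ∈ perpW Q W := (mem_secW hW).1 huS
    obtain ⟨a, ha, ha0⟩ := Submodule.exists_mem_ne_zero_of_ne_bot
      (show W ≠ ⊥ from fun h => by rw [h, finrank_bot] at hW3; omega)
    obtain ⟨x, hx, hxa⟩ := (hW a ha ha0).1
    have hua : polar Q u a = 0 := by rw [polar_comm]; exact hu a ha
    have hm : sg Q u a hQu hua ∈ Cfsg.Geo.subspaceStabilizer W ⊓ Cfsg.Geo.omegaGL (⇑Q) := by
      rw [he]; exact sg_mem hQ (by omega) _ _
    have h : ap (sg Q u a hQu hua) x ∈ W :=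
      ((mem_subspaceStabilizer_iff _ _).mp hm.1 x).mp hx
    rw [ap_sg, mem_perpW.mp hu x hx, zero_smul, add_zero, mul_zero, add_zero] at h
    refine hu0 (eq_zero_of_mem_of_mem_perpW hW ?_ hu)
    have h' := W.smul_mem (polar Q x a)⁻¹ (W.sub_mem hx h)
    rwa [sub_sub_cancel, smul_smul, inv_mul_cancel₀ hxa, one_smul] at h'
  by_cases hM : M ≤ Cfsg.Geo.subspaceStabilizer W
  · exact Or.inl (le_antisymm (le_inf hM hMS) hHM)
  refine Or.inr (le_antisymm hMS ?_)
  have hMI : M ≤ Cfsg.isometryGroup F (⇑Q) := hMS.trans omegaGL_le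
  obtain ⟨g, hgM, hg⟩ := SetLike.not_le_iff_exists.mp hM
  by_contra hcon
  refine false_of_out hQ hW h2 hn hW3 hHM hMI hcon hgM fun u hu hu0 hQu hgu =>
    hg ((le_of_eq (stab_perpW_inf hW hQ)) ⟨mem_subspaceStabilizer_of_mapsTo g _
      (mapsSing hQ hW h2 hn hW3 hHM hMI hcon g hgM u hu hu0 hQu hgu), hMS hgM⟩).1

end CfsgLib.Geometric.Orth.Seven
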