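import Cfsg.Agent.Lib.Geometric.Orth.SingularStab
import Cfsg.Agent.Lib.Geometric.SingularPair

/-!
The stabiliser in `omegaGL` of a pair of complementary totally singular subspaces of even
dimension is maximal.
-/

namespace CfsgLib.Geometric.Orth

open Matrix QuadraticMap CfsgLib.ClassicalForms

variable {ι : Type} [Fintype ι] [DecidableEq ι] {F : Type*} [Field F]
variable {Q : QuadraticForm F (ι → F)} {U U' : Submodule F (ι → F)}

lemma pairSpace_polar (hQ : Nondeg Q) (hc : IsCompl U U') (hU : ∀ x ∈ U, Q x = 0)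
    (hU' : ∀ x ∈ U', Q x = 0) (hd : Module.finrank F U' = Module.finrank F U)
    (h5 : 5 ≤ Module.finrank F U) :
    PairSpace (RingEquiv.refl F) (polar ⇑Q) U U' :=
  { add_left := fun x y z => by rw [polar_add_left]
    smul_left := fun c x y => by rw [polar_smul_left, smul_eq_mul]
    add_right := fun x y z => by rw [polar_add_right]
    smul_right := fun c x y => by rw [polar_smul_right, smul_eq_mul]; rfl
    eq_zero_comm := fun x y => by rw [polar_comm]
    sep := fun S x hx => exists_polar_sep hQ hx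
    compl := hc
    sing := fun a ha b hb => polar_eq_zero_of_singular hU ha hb
    sing' := fun a ha b hb => polar_eq_zero_of_singular hU' ha hb
    finrank_eq := hd
    three_le := by omega }

lemma sg_mul' {u w w' : ι → F} (hu : Q u = 0) (hw : polar Q u w = 0) (hw' : polar Q u w' = 0) :
    sg Q u w hu hw * sg Q u w' hu hw' =
      sg Q u (w + w') hu (by rw [polar_add_right, hw, hw', add_zero]) := by
  rw [sg, sg, ← map_mul, siegel_mul]
  rfl

variable [Finite F] (hQ : Nondeg Q) (hn : 5 ≤ Fintype.card ι)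
  (hU : ∀ x ∈ U, Q x = 0) (hU' : ∀ x ∈ U', Q x = 0)
  (hP : PairSpace (RingEquiv.refl F) (polar ⇑Q) U U')
include hQ hn hU hU' hP

/-- An element of `omegaGL` exchanging `U` and `U'`, in even dimension. -/
lemma exists_swap_omega (hev : Even (Module.finrank F U)) :
    ∃ sw ∈ Cfsg.Geo.omegaGL (⇑Q), MapsIn sw U U' ∧ MapsIn sw U' U := by
  classical
  obtain ⟨j, hj⟩ := hev
  set b := (Module.finBasis F U).reindex
    ((finCongr (show Module.finrank F U = j * 2 by omega)).trans finProdFinEquiv.symm)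
  have hdual : ∀ i, ∃ f ∈ U', polar Q (b i : ι → F) f = 1 ∧
      ∀ l, l ≠ i → polar Q (b l : ι → F) f = 0 := by
    intro i
    obtain ⟨f, hf, hf0, hf1⟩ := hP.sep' (S := (Submodule.span F (b '' {l | l ≠ i})).map U.subtype)
      (fun x hx => by obtain ⟨y, -, rfl⟩ := hx; exact y.2) (b i).2 (by
        rintro ⟨y, hy, hyx⟩
        obtain rfl : y = b i := Subtype.ext hyx
        exact b.linearIndependent.notMem_span_image (by simp) hy)
    exact ⟨f, hf, hf1, fun l hl => hf0 _ ⟨b l, Submodule.subset_span ⟨l, hl, rfl⟩, rfl⟩⟩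
  choose f hfU hef1 hef0 using hdual
  set e : Fin j × Fin 2 → ι → F := fun i => (b i : ι → F) with he
  have heU : ∀ i, e i ∈ U := fun i => (b i).2
  have hee : ∀ i l, polar Q (e i) (e l) = 0 := fun i l =>
    polar_eq_zero_of_singular hU (heU i) (heU l)
  have hff : ∀ i l, polar Q (f i) (f l) = 0 := fun i l =>
    polar_eq_zero_of_singular hU' (hfU i) (hfU l)
  have hef : ∀ i l, polar Q (e i) (f l) = if i = l then 1 else 0 := fun i l => by
    by_cases h : i = l
    · subst h; rw [if_pos rfl]; exact hef1 i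
    · rw [if_neg h]; exact hef0 l i h
  have hfe : ∀ i l, polar Q (f i) (e l) = if l = i then 1 else 0 := fun i l => by
    rw [polar_comm]; exact hef l i
  have hQe : ∀ i, Q (e i) = 0 := fun i => hU _ (heU i)
  have hQf : ∀ i, Q (f i) = 0 := fun i => hU' _ (hfU i)
  have hw : ∀ i : Fin j, ∃ w ∈ Cfsg.Geo.omegaGL (⇑Q),
      (ap w (e (i, 0)) = f (i, 1) ∧ ap w (e (i, 1)) = -f (i, 0) ∧
        ap w (f (i, 0)) = e (i, 1) ∧ ap w (f (i, 1)) = -e (i, 0)) ∧
      ∀ l, l.1 ≠ i → ap w (e l) = e l ∧ ap w (f l) = f l := by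
    intro i
    refine ⟨sg Q (e (i, 0)) (e (i, 1)) (hQe _) (hee _ _) *
      sg Q (f (i, 0)) (f (i, 1)) (hQf _) (hff _ _) *
      sg Q (e (i, 0)) (e (i, 1)) (hQe _) (hee _ _),
      mul_mem (mul_mem (sg_mem hQ hn _ _) (sg_mem hQ hn _ _)) (sg_mem hQ hn _ _), ?_, ?_⟩
    · refine ⟨?_, ?_, ?_, ?_⟩ <;>
      · simp only [ap_mul, ap_sg, polar_add_left, polar_sub_left, polar_smul_left, hee, hff, hef,
          hfe, hQe, hQf, Prod.mk.injEq, true_and, zero_ne_one, one_ne_zero, if_true, if_false,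
          smul_eq_mul]
        module
    · intro l hl
      have h1 : ∀ t, l ≠ (i, t) := fun t h => hl (by rw [h])
      have h2 : ∀ t, (i, t) ≠ l := fun t h => hl (by rw [← h])
      constructor <;>
      · simp only [ap_mul, ap_sg, polar_add_left, polar_sub_left, polar_smul_left, hee, hff, hef,
          hfe, hQe, hQf, h1, h2, if_false, smul_eq_mul]
        module
  have hall : ∀ s : Finset (Fin j), ∃ w ∈ Cfsg.Geo.omegaGL (⇑Q),
      (∀ i ∈ s, ap w (e (i, 0)) = f (i, 1) ∧ ap w (e (i, 1)) = -f (i, 0) ∧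
        ap w (f (i, 0)) = e (i, 1) ∧ ap w (f (i, 1)) = -e (i, 0)) ∧
        ∀ l : Fin j × Fin 2, l.1 ∉ s → ap w (e l) = e l ∧ ap w (f l) = f l := by
    intro s
    induction s using Finset.induction with
    | empty => exact ⟨1, one_mem _, by simp, fun i _ => ⟨ap_one _, ap_one _⟩⟩
    | insert i s his ih =>
      obtain ⟨w, hwG, h1, h2⟩ := ih
      obtain ⟨v, hvG, hv1, hv⟩ := hw i
      refine ⟨v * w, mul_mem hvG hwG, fun l hl => ?_, fun l hl => ?_⟩
      · rcases Finset.mem_insert.1 hl with rfl | hl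
        · obtain ⟨a0, a1, a2, a3⟩ := hv1
          simp only [ap_mul, (h2 (l, 0) his).1, (h2 (l, 1) his).1, (h2 (l, 0) his).2,
            (h2 (l, 1) his).2, a0, a1, a2, a3]
          trivial
        · have hli : l ≠ i := fun h => his (h ▸ hl)
          obtain ⟨a0, a1, a2, a3⟩ := h1 l hl
          have n1 : ∀ x, ap v (-x) = -ap v x := fun x => by
            rw [← neg_one_smul F x, ap_smul, neg_one_smul]
          simp only [ap_mul, a0, a1, a2, a3, n1, (hv (l, 0) hli).1, (hv (l, 1) hli).1,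
            (hv (l, 0) hli).2, (hv (l, 1) hli).2]
          trivial
      · simp only [Finset.mem_insert, not_or] at hl
        simp only [ap_mul, (h2 l hl.2).1, (h2 l hl.2).2, (hv l hl.1).1, (hv l hl.1).2]
        trivial
  obtain ⟨w, hwG, hw1, -⟩ := hall Finset.univ
  have hmap : ∀ (x : ι → F) (V : Submodule F (ι → F)) (s : Set (ι → F)),
      x ∈ Submodule.span F s → (∀ y ∈ s, ap w y ∈ V) → ap w x ∈ V := fun x V s hx h =>
    (Submodule.span_le (p := V.comap (apEquiv w).toLinearMap)).2 h hx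
  refine ⟨w, hwG, fun x hx => ?_, fun x hx => ?_⟩
  · refine hmap x U' (Set.range e) ?_ ?_
    · have h := b.mem_span ⟨x, hx⟩
      have h' := Submodule.mem_map_of_mem (f := U.subtype) h
      rw [Submodule.map_span, ← Set.range_comp] at h'
      exact h'
    · rintro _ ⟨⟨i, t⟩, rfl⟩
      obtain ⟨a0, a1, -, -⟩ := hw1 i (Finset.mem_univ i)
      fin_cases t
      · exact a0 ▸ hfU _
      · exact a1 ▸ U'.neg_mem (hfU _)
  · refine hmap x U (Set.range f) ?_ ?_
    · have hli : LinearIndependent F f := by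
        rw [Fintype.linearIndependent_iff]
        intro c hc i
        have h : polarBilin Q (e i) (∑ l, c l • f l) = 0 := by rw [hc, map_zero]
        rw [map_sum, Finset.sum_eq_single i (fun l _ hl => ?_) (by simp)] at h
        · simpa [hef] using h
        · simp [hef, Ne.symm hl]
      have hle : Submodule.span F (Set.range f) ≤ U' :=
        Submodule.span_le.2 (by rintro _ ⟨i, rfl⟩; exact hfU i)
      have := Submodule.eq_of_le_of_finrank_le hle (by
        rw [finrank_span_eq_card hli, Fintype.card_prod, Fintype.card_fin, Fintype.card_fin,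
          hP.finrank_eq]
        omega)
      rwa [this]
    · rintro _ ⟨⟨i, t⟩, rfl⟩
      obtain ⟨-, -, a2, a3⟩ := hw1 i (Finset.mem_univ i)
      fin_cases t
      · exact a2 ▸ heU _
      · exact a3 ▸ U.neg_mem (heU _)

omit [Finite F] hQ hn in
lemma maps_sg {a b : ι → F} (ha : a ∈ U') (hb : b ∈ U) (h : polar Q a b = 0) :
    MapsIn (sg Q a b (hU' a ha) h) U U ∧ MapsIn (sg Q a b (hU' a ha) h) U' U' := by
  refine ⟨fun x hx => ?_, fun x hx => ?_⟩
  · rw [ap_sg, hU b hb, hP.sing x hx b hb]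
    simpa using U.add_mem hx (U.smul_mem _ hb)
  · rw [ap_sg, hU b hb, hP.sing' x hx a ha]
    simpa using U'.sub_mem hx (U'.smul_mem _ ha)

/-- A group above the stabiliser of the pair, and larger, contains `omegaGL`. -/
theorem omega_le_of_pair (hev : Even (Module.finrank F U)) (h5 : 5 ≤ Module.finrank F U) {M : Subgroup (GL ι F)}
    (hMG : M ≤ Cfsg.Geo.omegaGL (⇑Q))
    (hH : ∀ g ∈ Cfsg.Geo.omegaGL (⇑Q),
      (MapsIn g U U ∧ MapsIn g U' U') ∨ (MapsIn g U U' ∧ MapsIn g U' U) → g ∈ M)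
    {g₀ : GL ι F} (hg₀ : g₀ ∈ M) (hg₁ : ¬ (MapsIn g₀ U U ∧ MapsIn g₀ U' U'))
    (hg₂ : ¬ (MapsIn g₀ U U' ∧ MapsIn g₀ U' U)) : Cfsg.Geo.omegaGL (⇑Q) ≤ M := by
  have hMI : M ≤ Cfsg.isometryGroup F (⇑Q) := hMG.trans omegaGL_le
  have hroot : ∀ a, ∀ ha : a ∈ U', ∀ b ∈ U, ∀ h : polar Q a b = 0,
      sg Q a b (hU' a ha) h ∈ M := fun a ha b hb h =>
    hH _ (sg_mem hQ hn _ _) (Or.inl (maps_sg hU hU' hP ha hb h))
  have hroot' : ∀ a ∈ U', ∀ b, ∀ hb : b ∈ U, ∀ h : polar Q b a = 0,
      sg Q b a (hU b hb) h ∈ M := fun a ha b hb h =>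
    hH _ (sg_mem hQ hn _ _) (Or.inl ((maps_sg hU' hU hP.symm' hb ha h).symm))
  obtain ⟨sw, hswG, hsw₁, hsw₂⟩ := exists_swap_omega hQ hn hU hU' hP hev
  have hswM : sw ∈ M := hH sw hswG (Or.inr ⟨hsw₁, hsw₂⟩)
  obtain ⟨k, hk, hkU, a, ha, hka⟩ := hP.exists_fix_one h5 (neg_ne_zero.2 (one_ne_zero (α := F)))
    (fun g hg => polar_ap (hMI hg))
    (fun a ha b hb hab => ⟨_, hroot a ha b hb hab, fun x => by
      rw [ap_sg, hU b hb]; simp [sub_eq_add_neg]⟩) hswM hsw₁ hsw₂ hg₀ hg₁ hg₂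
  obtain ⟨κ, hκ, A, hA, hkA⟩ := hP.decomp (ap k a)
  have hκ0 : κ ≠ 0 := fun h => hka (by rw [hkA, h, zero_add]; exact hA)
  have hQκ := hU κ hκ
  have hbase : ∀ b, ∀ hb : b ∈ U, ∀ h : polar Q b κ = 0, polar Q b A = 0 →
      sg Q b κ (hU b hb) h ∈ M := by
    intro b hb hbκ hbA
    have hb₀ : ap k⁻¹ b ∈ U := hkU.inv le_rfl b hb
    have hab : polar Q (ap k⁻¹ b) a = 0 := by
      rw [← polar_ap (hMI hk), ap_ap_inv, hkA, polar_add_right, hbκ, hbA, add_zero]
    have h1 := mul_mem (mul_mem hk (hroot' a ha _ hb₀ hab)) (inv_mem hk)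
    rw [conj_sg (hMI hk)] at h1
    have hbκA : polar Q b (κ + A) = 0 := by rw [polar_add_right, hbκ, hbA, add_zero]
    have h2 : sg Q b (κ + A) (hU b hb) hbκA ∈ M := by
      convert h1 using 2
      · rw [ap_ap_inv]
      · rw [hkA]
    have hbnA : polar Q b (-A) = 0 := by rw [polar_neg_right, hbA, neg_zero]
    have h3 := mul_mem h2 (hroot' (-A) (U'.neg_mem hA) b hb hbnA)
    rw [sg_mul'] at h3
    convert h3 using 2
    abel
  have hbase' : ∀ b, ∀ _ : b ∈ U, ∀ h : polar Q κ b = 0, polar Q b A = 0 →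
      sg Q κ b hQκ h ∈ M := by
    intro b hb h hbA
    have h1 : polar Q b κ = 0 := by rwa [polar_comm]
    have h2 := inv_mem (hbase b hb h1 hbA)
    convert h2 using 1
    refine eq_inv_of_mul_eq_one_left (gl_ext fun x => ?_)
    simp only [ap_mul, ap_sg, ap_one, hU b hb, hQκ, polar_add_left, polar_sub_left,
      polar_smul_left, h, h1, hP.sing b hb b hb, hP.sing κ hκ κ hκ, smul_eq_mul]
    module
  have hκA : polar Q κ A = 0 := by
    have h : Q (ap k a) = 0 := by rw [mem_isometryGroup_iff.mp (hMI hk)]; exact hU' a ha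
    rwa [hkA, QuadraticMap.map_add (⇑Q), hQκ, hU' A hA, zero_add, zero_add] at h
  have hall : ∀ b, ∀ _ : b ∈ U, ∀ h : polar Q κ b = 0, sg Q κ b hQκ h ∈ M := by
    intro c hc h
    by_cases hcA : polar Q c A = 0
    · exact hbase' c hc h hcA
    obtain ⟨q₀, hq₀, hq₀A, hq₀κ⟩ := hP.exists_perp A κ
    obtain ⟨a₂, ha₂, hSa, hqa⟩ := hP.sep' (S := Submodule.span F {κ, c})
      (Submodule.span_le.2 (by simp [Set.insert_subset_iff, hκ, hc])) hq₀ (fun hm => by
        obtain ⟨r, s, hrs⟩ := Submodule.mem_span_pair.1 hm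
        rw [← hrs, polar_add_left, polar_smul_left, polar_smul_left, hκA, smul_zero, zero_add,
          smul_eq_mul, mul_eq_zero] at hq₀A
        rw [hq₀A.resolve_right hcA, zero_smul, add_zero] at hrs
        exact hq₀κ (Submodule.mem_span_singleton.2 ⟨r, hrs⟩))
    have hκa : polar Q κ a₂ = 0 := hSa κ (Submodule.subset_span (by simp))
    have hca : polar Q a₂ c = 0 := by
      rw [polar_comm]; exact hSa c (Submodule.subset_span (by simp))
    have hκq : polar Q κ q₀ = 0 := hP.sing κ hκ q₀ hq₀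
    have hh := hroot a₂ ha₂ c hc hca
    have h1 := mul_mem (mul_mem hh (hbase' q₀ hq₀ hκq hq₀A)) (inv_mem hh)
    rw [conj_sg (hMI hh)] at h1
    have e1 : ap (sg Q a₂ c (hU' a₂ ha₂) hca) κ = κ := ap_sg_fix _ _ hκa h
    have e2 : ap (sg Q a₂ c (hU' a₂ ha₂) hca) q₀ = q₀ + c := by
      rw [ap_sg, hqa, hP.sing q₀ hq₀ c hc, hU c hc]; simp
    have hκqc : polar Q κ (q₀ + c) = 0 := by rw [polar_add_right, hκq, h, add_zero]
    have h2 : sg Q κ (q₀ + c) hQκ hκqc ∈ M := by
      convert h1 using 2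
      · exact e1.symm
      · exact e2.symm
    have hκnq : polar Q κ (-q₀) = 0 := by rw [polar_neg_right, hκq, neg_zero]
    have h3 := mul_mem h2 (hbase' (-q₀) (U.neg_mem hq₀) hκnq
      (by rw [polar_neg_left, hq₀A, neg_zero]))
    rw [sg_mul'] at h3
    convert h3 using 2
    abel
  have hfullκ : Full Q M κ := by
    intro _ w hw
    obtain ⟨b, hb, b', hb', rfl⟩ := hP.decomp w
    have h1 : polar Q κ b = 0 := hP.sing κ hκ b hb
    have h2 : polar Q κ b' = 0 := by rwa [polar_add_right, h1, zero_add] at hw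
    rw [← sg_mul' hQκ h1 h2]
    exact mul_mem (hall b hb h1) (hroot' b' hb' κ hκ h2)
  have hfullU : ∀ p ∈ U, Full Q M p := by
    intro p hp
    by_cases hpκ : p ∈ Submodule.span F {κ}
    · obtain ⟨d, rfl⟩ := Submodule.mem_span_singleton.1 hpκ
      exact hfullκ.smul d
    obtain ⟨a₂, ha₂, hca, hκa⟩ := hP.sep_one hκ (U.sub_mem hp hκ) fun h => hpκ (by
      obtain ⟨d, hd⟩ := Submodule.mem_span_singleton.1 h
      by_cases hd0 : d = 0
      · exact absurd (by rw [← hd, hd0, zero_smul]) hκ0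
      · refine Submodule.mem_span_singleton.2 ⟨1 + d⁻¹, ?_⟩
        rw [add_smul, one_smul]
        conv_lhs => arg 2; rw [← hd, smul_smul, inv_mul_cancel₀ hd0, one_smul]
        abel)
    have h := hfullκ.ap hMI (hroot a₂ ha₂ (p - κ) (U.sub_mem hp hκ) (by rw [polar_comm, hca]))
    rwa [ap_sg, hκa, hP.sing κ hκ _ (U.sub_mem hp hκ), hU _ (U.sub_mem hp hκ), one_smul,
      zero_mul, add_zero, zero_smul, sub_zero, add_sub_cancel] at h
  obtain ⟨a₁, ha₁, -, hκa₁⟩ := hP.sep' (S := ⊥) bot_le hκ (by simpa using hκ0)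
  have hfa : Full Q M a₁ := by
    have h := (hfullU _ (hsw₁.inv hP.finrank_eq.le a₁ ha₁)).ap hMI hswM
    rwa [ap_ap_inv] at h
  exact Full.le_of_pair hQ hn hMI hfullκ hfa hQκ (hU' a₁ ha₁)
    (by rw [hκa₁]; exact one_ne_zero)

omit hn hU hU' hP in
/-- The stabiliser of a pair of complementary totally singular subspaces of even dimension. -/
theorem pair_stab_isMaximalIn (hn : 12 ≤ Fintype.card ι) {k : ℕ} (hke : Even k)
    {D : Fin 2 → Submodule F (ι → F)} (hD : Cfsg.Geo.IsMDecomposition k D)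
    (hts : ∀ i, ∀ x ∈ D i, Q x = 0) :
    Cfsg.Geo.IsMaximalIn (Cfsg.Geo.omegaGL (⇑Q))
      (Cfsg.Geo.decompositionStabilizer D ⊓ Cfsg.Geo.omegaGL (⇑Q)) := by
  have hc := isCompl_pair hD
  have h5 : 5 ≤ Module.finrank F (D 0) := by
    have h := Submodule.finrank_add_eq_of_isCompl hc
    rw [hD.finrank_eq, hD.finrank_eq, Module.finrank_fintype_fun_eq_card] at h
    rw [hD.finrank_eq]
    omega
  have hP := pairSpace_polar hQ hc (hts 0) (hts 1) (by rw [hD.finrank_eq, hD.finrank_eq]) h5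
  refine ⟨lt_of_le_of_ne inf_le_right fun he => ?_, fun M hHM hMG => ?_⟩
  · obtain ⟨b, hb, hb0⟩ := Submodule.exists_mem_ne_zero_of_ne_bot (p := D 0) fun h => by
      rw [h, finrank_bot] at h5
      omega
    obtain ⟨c, hcU, -, hcb⟩ := hP.exists_perp 0 b
    obtain ⟨a, ha, hca, hba⟩ := hP.sep_one hb hcU fun h => hcb (by
      obtain ⟨d, hd⟩ := Submodule.mem_span_singleton.1 h
      have hd0 : d ≠ 0 := fun h0 => hb0 (by rw [← hd, h0, zero_smul])
      exact Submodule.mem_span_singleton.2 ⟨d⁻¹, by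
        rw [← hd, smul_smul, inv_mul_cancel₀ hd0, one_smul]⟩)
    have hbc : polar Q b c = 0 := hP.sing b hb c hcU
    have hm : sg Q b c (hts 0 b hb) hbc ∈
        Cfsg.Geo.decompositionStabilizer D ⊓ Cfsg.Geo.omegaGL (⇑Q) := by
      rw [he]; exact sg_mem hQ (by omega) _ _
    have hab : polar Q a b = 1 := by rw [polar_comm]; exact hba
    have hac : polar Q a c = 0 := by rw [polar_comm]; exact hca
    have hc0 : c ≠ 0 := fun h => hcb (by rw [h]; exact zero_mem _)
    rcases (mem_pairStab hD).1 hm.1 with ⟨-, h⟩ | ⟨h, -⟩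
    · have h' := (D 1).sub_mem (h a ha) ha
      rw [ap_sg, hab, hac, hts 0 c hcU] at h'
      simp only [one_smul, zero_mul, add_zero, zero_smul, sub_zero, add_sub_cancel_left] at h'
      exact hc0 (Submodule.disjoint_def.1 hc.disjoint _ hcU h')
    · have h' := h b hb
      rw [ap_sg, hbc, hP.sing b hb b hb, hts 0 c hcU] at h'
      simp only [zero_mul, add_zero, zero_smul, sub_zero] at h'
      exact hb0 (Submodule.disjoint_def.1 hc.disjoint _ hb h')
  by_cases hM : M ≤ Cfsg.Geo.decompositionStabilizer D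
  · exact Or.inl (le_antisymm (le_inf hM hMG) hHM)
  refine Or.inr (le_antisymm hMG ?_)
  obtain ⟨g, hgM, hg⟩ := SetLike.not_le_iff_exists.mp hM
  rw [mem_pairStab hD, not_or] at hg
  exact omega_le_of_pair hQ (by omega) (hts 0) (hts 1) hP (by rw [hD.finrank_eq]; exact hke) h5 hMG
    (fun h hh hcase => hHM ⟨(mem_pairStab hD).2 hcase, hh⟩) hgM hg.1 hg.2

end CfsgLib.Geometric.Orth
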