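import Cfsg.Agent.Lib.Geometric.Orth.Singular

/-!
Over at most three elements a hyperbolic plane has one line of norm one, so its stabiliser is not
maximal.
-/

namespace CfsgLib.Geometric.Orth

open Matrix QuadraticMap

variable {ι : Type} [Fintype ι] [DecidableEq ι] {F : Type*} [Field F] [Fintype F]

lemma sq_eq_one_of_card_le_three (hq : Fintype.card F ≤ 3) {a : F} (ha : a ≠ 0) :
    a = 1 ∨ a = -1 := by
  have h := FiniteField.pow_card_sub_one_eq_one a ha
  have h1 := Fintype.one_lt_card (α := F)
  obtain h2 | h2 : Fintype.card F - 1 = 1 ∨ Fintype.card F - 1 = 2 := by omega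
  · rw [h2, pow_one] at h; exact Or.inl h
  · rw [h2] at h; exact sq_eq_one_iff.mp h

variable {Q : QuadraticForm F (ι → F)} (hQ : CfsgLib.ClassicalForms.Nondeg Q)
include hQ

/-- The stabiliser of a hyperbolic plane over at most three elements is not maximal. -/
theorem exists_between_plane (hq : Fintype.card F ≤ 3) (hn : 7 ≤ Fintype.card ι)
    {W : Submodule F (ι → F)} (hdim : Module.finrank F W = 2)
    (hW : Cfsg.Geo.IsNondegenerateOn (polar ⇑Q) W) (hp : Cfsg.Geo.IsPlusTypeOn (⇑Q) W) :
    ∃ K : Subgroup (GL ι F), Cfsg.Geo.subspaceStabilizer W ⊓ Cfsg.Geo.omegaGL (⇑Q) < K ∧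
      K < Cfsg.Geo.omegaGL (⇑Q) := by
  obtain ⟨U, hUW, hUs, hUd⟩ := hp
  obtain ⟨e, heU, he0⟩ := Submodule.exists_mem_ne_zero_of_ne_bot (p := U) fun h => by
    rw [h, finrank_bot] at hUd
    omega
  have hQe : Q e = 0 := hUs e heU
  have heW := hUW heU
  obtain ⟨y, hy, hey⟩ := (hW e heW he0).2
  set y' := (polar Q e y)⁻¹ • y with hy'
  have hey' : polar Q e y' = 1 := by
    rw [hy', polar_smul_right, smul_eq_mul, inv_mul_cancel₀ hey]
  have hy'W : y' ∈ W := W.smul_mem _ hy
  clear_value y'
  set f := y' - Q y' • e with hf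
  have hee : polar Q e e = 0 := by
    rw [CfsgLib.ClassicalForms.polar_self_mul, hQe, mul_zero]
  have hfW : f ∈ W := W.sub_mem hy'W (W.smul_mem _ heW)
  have hef : polar Q e f = 1 := by rw [hf, polar_sub_right, polar_smul_right, hey', hee]; simp
  have hQf : Q f = 0 := by
    rw [hf, CfsgLib.ClassicalForms.map_sub_eq, QuadraticMap.map_smul, hQe, polar_smul_right,
      polar_comm, hey']
    simp
  have hff : polar Q f f = 0 := by
    rw [CfsgLib.ClassicalForms.polar_self_mul, hQf, mul_zero]
  have hli : LinearIndependent F ![e, f] := by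
    rw [LinearIndependent.pair_iff]
    intro s t h
    have h1 := congrArg (fun z => polar Q z f) h
    have h2 := congrArg (fun z => polar Q z e) h
    simp [polar_add_left, polar_smul_left, hef, hee, hff, polar_comm Q f e] at h1 h2
    exact ⟨h1, h2⟩
  have hspan : ∀ z ∈ W, ∃ a b : F, z = a • e + b • f := by
    have hs : Submodule.span F ({e, f} : Set (ι → F)) = W := by
      refine Submodule.eq_of_le_of_finrank_eq
        (Submodule.span_le.mpr (by rintro _ (rfl | rfl) <;> assumption)) ?_
      have := finrank_span_eq_card hli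
      rw [Fintype.card_fin, show Set.range ![e, f] = {e, f} by simp [Set.pair_comm]] at this
      rw [this, hdim]
    intro z hz
    rw [← hs] at hz
    obtain ⟨a, b, h⟩ := Submodule.mem_span_pair.mp hz
    exact ⟨a, b, h.symm⟩
  set v := e + f with hv
  have hQv : Q v = 1 := by rw [hv, QuadraticMap.map_add (⇑Q), hQe, hQf, hef]; simp
  have hvW : v ∈ W := W.add_mem heW hfW
  have hv0 : v ≠ 0 := fun h => by rw [h, QuadraticMap.map_zero] at hQv; exact zero_ne_one hQv
  refine ⟨Cfsg.Geo.subspaceStabilizer (Submodule.span F {v}) ⊓ Cfsg.Geo.omegaGL (⇑Q), ?_, ?_⟩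
  · have hle : Cfsg.Geo.subspaceStabilizer W ⊓ Cfsg.Geo.omegaGL (⇑Q) ≤
        Cfsg.Geo.subspaceStabilizer (Submodule.span F {v}) ⊓ Cfsg.Geo.omegaGL (⇑Q) := by
      rintro g ⟨hgW, hg⟩
      refine ⟨mem_subspaceStabilizer_of_mapsTo g _ fun x hx => ?_, hg⟩
      obtain ⟨c, rfl⟩ := Submodule.mem_span_singleton.mp hx
      obtain ⟨a, b, hab⟩ := hspan _ (((mem_subspaceStabilizer_iff _ _).mp hgW v).mp hvW)
      have h1 : a * b = 1 := by
        have := isometry_of_mem hg v
        rw [hQv, hab, QuadraticMap.map_add (⇑Q), QuadraticMap.map_smul, QuadraticMap.map_smul, hQe,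
          hQf, polar_smul_left, polar_smul_right, hef] at this
        simpa using this
      have hab' : a = b := by
        rcases sq_eq_one_of_card_le_three hq (left_ne_zero_of_mul_eq_one h1) with rfl | rfl
        · linear_combination -h1
        · linear_combination h1
      rw [ap_smul, hab, hab', ← smul_add, ← hv]
      exact Submodule.smul_mem _ _ (Submodule.smul_mem _ _ (Submodule.mem_span_singleton_self v))
    refine lt_of_le_of_ne hle fun he => ?_
    obtain ⟨u, hu0, hQu, hu⟩ := CfsgLib.ClassicalForms.exists_singular_ker Q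
      ![(polarBilin Q) e, (polarBilin Q) f] (by rw [Module.finrank_fintype_fun_eq_card]; omega)
    have hue : polar Q e u = 0 := hu 0
    have huf : polar Q f u = 0 := hu 1
    have huW : u ∉ W := fun h => hu0 (by
      obtain ⟨a, b, rfl⟩ := hspan u h
      simp [polar_add_right, polar_smul_right, hee, hef, hff, polar_comm Q f e] at hue huf
      simp [hue, huf])
    have hnot : e ∉ Submodule.span F ({u, v} : Set (ι → F)) := by
      intro h
      obtain ⟨s, t, hst⟩ := Submodule.mem_span_pair.mp h
      have h2 := congrArg (fun z => polar Q z e) hst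
      simp [hv, polar_add_left, polar_smul_left, hee, polar_comm Q u e, hue,
        polar_comm Q f e, hef] at h2
      have h1 := congrArg (fun z => polar Q z f) hst
      simp [hv, polar_add_left, polar_smul_left, hef, hff, polar_comm Q u f, huf, h2] at h1
    obtain ⟨w, hw, hew⟩ := exists_polar_sep hQ hnot
    have huw := hw u (Submodule.subset_span (by simp))
    have hvw := hw v (Submodule.subset_span (by simp))
    have hvu : polar Q v u = 0 := by rw [hv, polar_add_left, hue, huf, add_zero]
    have hm : sg Q u w hQu huw ∈ Cfsg.Geo.subspaceStabilizer W ⊓ Cfsg.Geo.omegaGL (⇑Q) := by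
      rw [he]
      refine ⟨mem_subspaceStabilizer_of_mapsTo _ _ fun x hx => ?_, sg_mem hQ (by omega) _ _⟩
      obtain ⟨c, rfl⟩ := Submodule.mem_span_singleton.mp hx
      rw [ap_smul, ap_sg_fix _ _ hvu hvw]
      exact hx
    have h : ap (sg Q u w hQu huw) e ∈ W := ((mem_subspaceStabilizer_iff _ _).mp hm.1 e).mp heW
    rw [ap_sg, hue, hew] at h
    simp at h
    exact huW (by simpa using W.sub_mem heW h)
  · refine lt_of_le_of_ne inf_le_right fun he => ?_
    obtain ⟨u, hu0, hQu, hu⟩ := CfsgLib.ClassicalForms.exists_singular_ker Q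
      ![(polarBilin Q) v] (by rw [Module.finrank_fintype_fun_eq_card]; omega)
    have huv : polar Q v u = 0 := hu 0
    have hvn : v ∉ Submodule.span F {u} := by
      intro h
      obtain ⟨c, hc⟩ := Submodule.mem_span_singleton.mp h
      rw [← hc, QuadraticMap.map_smul, hQu, smul_zero] at hQv
      exact zero_ne_one hQv
    obtain ⟨w, huw, hvw⟩ := exists_polar_pair hQ hvn
    have hm : sg Q u w hQu huw ∈
        Cfsg.Geo.subspaceStabilizer (Submodule.span F {v}) ⊓ Cfsg.Geo.omegaGL (⇑Q) := by
      rw [he]; exact sg_mem hQ (by omega) _ _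
    have h : ap (sg Q u w hQu huw) v ∈ Submodule.span F {v} :=
      ((mem_subspaceStabilizer_iff _ _).mp hm.1 v).mp (Submodule.mem_span_singleton_self v)
    rw [ap_sg, huv, hvw] at h
    simp at h
    have h2 : u ∈ Submodule.span F {v} := by
      simpa using Submodule.sub_mem _ (Submodule.mem_span_singleton_self v) h
    obtain ⟨c, hc⟩ := Submodule.mem_span_singleton.mp h2
    have hc0 : c ≠ 0 := fun h0 => hu0 (by rw [← hc, h0, zero_smul])
    exact hvn (Submodule.mem_span_singleton.mpr ⟨c⁻¹, by
      rw [← hc, smul_smul, inv_mul_cancel₀ hc0, one_smul]⟩)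

end CfsgLib.Geometric.Orth

namespace CfsgLib.Geometric.Orth

open Matrix QuadraticMap

/-- The standard odd-dimensional form is non-degenerate in odd characteristic. -/
theorem isNondegenerateQuadraticForm_quadFormOdd {F : Type*} [Field F] [Fintype F]
    (hodd : Odd (Fintype.card F)) (m : ℕ) :
    Cfsg.Geo.IsNondegenerateQuadraticForm (Cfsg.quadFormOdd m F) := by
  have hp : ∀ u v, polar (Cfsg.quadFormOdd m F) u v = 2 * u (.inl ()) * v (.inl ()) +
      ∑ i : Fin m, (u (.inr (.inl i)) * v (.inr (.inr i)) + u (.inr (.inr i)) * v (.inr (.inl i)))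
      := by
    intro u v
    simp only [polar, Cfsg.quadFormOdd, Pi.add_apply]
    rw [show ∑ i : Fin m, (u (.inr (.inl i)) + v (.inr (.inl i))) *
        (u (.inr (.inr i)) + v (.inr (.inr i))) =
        ∑ i : Fin m, u (.inr (.inl i)) * u (.inr (.inr i)) +
          ∑ i : Fin m, v (.inr (.inl i)) * v (.inr (.inr i)) +
          ∑ i : Fin m, (u (.inr (.inl i)) * v (.inr (.inr i)) +
            u (.inr (.inr i)) * v (.inr (.inl i))) by
      rw [← Finset.sum_add_distrib, ← Finset.sum_add_distrib]
      exact Finset.sum_congr rfl fun i _ => by ring]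
    ring
  have h2 : (2 : F) ≠ 0 := fun h => by
    have h' : ringChar F = 2 := CharP.ringChar_of_prime_eq_zero Nat.prime_two (by exact_mod_cast h)
    exact (Nat.not_even_iff_odd.mpr hodd)
      (even_iff_two_dvd.mpr (Nat.dvd_of_mod_eq_zero (FiniteField.even_card_iff_char_two.mp h')))
  refine ⟨fun c v => ?_, ⟨fun x y v => ?_, fun c x v => ?_, fun v x y => ?_, fun c v x => ?_⟩,
    fun v hv => ?_⟩
  · simp only [Cfsg.quadFormOdd, Pi.smul_apply, smul_eq_mul, mul_add, Finset.mul_sum]
    congr 1
    · ring
    · exact Finset.sum_congr rfl fun i _ => by ring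
  · simp only [hp, Pi.add_apply, add_mul, mul_add, Finset.sum_add_distrib]; ring
  · simp only [hp, Pi.smul_apply, smul_eq_mul, mul_add, Finset.mul_sum]
    congr 1
    · ring
    · exact Finset.sum_congr rfl fun i _ => by ring
  · simp only [hp, Pi.add_apply, add_mul, mul_add, Finset.sum_add_distrib]; ring
  · simp only [hp, Pi.smul_apply, smul_eq_mul, mul_add, Finset.mul_sum]
    congr 1
    · ring
    · exact Finset.sum_congr rfl fun i _ => by ring
  · suffices h : ∃ x, polar (Cfsg.quadFormOdd m F) v x ≠ 0 by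
      obtain ⟨x, hx⟩ := h
      exact ⟨⟨x, by rwa [polar_comm]⟩, ⟨x, hx⟩⟩
    obtain ⟨i, hi⟩ := Function.ne_iff.mp hv
    simp only [Pi.zero_apply] at hi
    rcases i with ⟨⟩ | i | i
    · refine ⟨Pi.single (.inl ()) 1, ?_⟩
      rw [hp]
      simpa using mul_ne_zero h2 hi
    · refine ⟨Pi.single (.inr (.inr i)) 1, ?_⟩
      rw [hp]
      simpa [Pi.single_apply, Finset.sum_add_distrib] using hi
    · refine ⟨Pi.single (.inr (.inl i)) 1, ?_⟩
      rw [hp]
      simpa [Pi.single_apply, Finset.sum_add_distrib] using hi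

end CfsgLib.Geometric.Orth
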