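import Cfsg.Agent.Lib.Geometric.Orth.NondegStab

/-!
In characteristic two the stabiliser in `omegaGL` of a non-singular point is maximal.
-/

namespace CfsgLib.Geometric.Orth

open Matrix QuadraticMap CfsgLib.ClassicalForms

variable {ι : Type} [Fintype ι] [DecidableEq ι] {F : Type*} [Field F]
variable {Q : QuadraticForm F (ι → F)}

/-- The stabiliser in `omegaGL` of a non-singular point is maximal in characteristic two. -/
theorem point_stab_isMaximalIn [Finite F] (hQ : Nondeg Q) (h2 : (2 : F) = 0)
    (hn : 12 ≤ Fintype.card ι) {v : ι → F} (hv : Q v ≠ 0) :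
    Cfsg.Geo.IsMaximalIn (Cfsg.Geo.omegaGL (⇑Q))
      (Cfsg.Geo.subspaceStabilizer (Submodule.span F {v}) ⊓ Cfsg.Geo.omegaGL (⇑Q)) := by
  have hfr : Module.finrank F (ι → F) = Fintype.card ι := Module.finrank_fintype_fun_eq_card F
  have hv0 : v ≠ 0 := fun h => hv (by simp [h])
  have hvv : polar Q v v = 0 := by rw [polar_self_mul, h2, zero_mul]
  set W := Submodule.span F {v} with hWdef
  refine ⟨lt_of_le_of_ne inf_le_right fun he => ?_, fun M hHM hMS => ?_⟩
  · obtain ⟨u, -, hQu, huv⟩ := (Sec.top Q).exists_singular_polar_one hQ (by omega)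
      (Sec.mem_top v) hv0
    have hp : IsHypPair Q (u, v - Q v • u) :=
      ⟨hQu, by
        show Q (v - Q v • u) = 0
        rw [CfsgLib.ClassicalForms.map_sub_eq, QuadraticMap.map_smul, polar_smul_right, hQu,
          polar_comm Q v u, huv]
        simp,
      by
        show polar Q u (v - Q v • u) = 1
        rw [polar_sub_right, polar_smul_right, polar_self_mul, hQu, huv]
        simp⟩
    obtain ⟨w, hw, hQw⟩ := exists_mem_ne_zero_value
      ((Sec.top Q).cut u _ (Sec.mem_top u) (Sec.mem_top _) hp) hQ (by omega)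
    obtain ⟨huw, hvw, -⟩ := (Sec.mem_cut_iff _ _ _ hp w).1 hw
    rw [polar_sub_left, polar_smul_left, huw, smul_zero, sub_zero] at hvw
    have hm : sg Q u w hQu huw ∈ Cfsg.Geo.subspaceStabilizer W ⊓ Cfsg.Geo.omegaGL (⇑Q) := by
      rw [he]; exact sg_mem hQ (by omega) _ _
    have h := ((mem_subspaceStabilizer_iff _ _).mp hm.1 v).mp (Submodule.mem_span_singleton_self v)
    obtain ⟨t, ht⟩ := Submodule.mem_span_singleton.1 h
    rw [ap_sg, polar_comm Q v u, huv, hvw] at ht
    have h' := congrArg (polar Q v) ht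
    simp [polar_add_right, polar_sub_right, polar_smul_right, hvv, hvw, polar_comm Q v u, huv]
      at h'
    exact hQw h'
  by_cases hM : M ≤ Cfsg.Geo.subspaceStabilizer W
  · exact Or.inl (le_antisymm (le_inf hM hMS) hHM)
  refine Or.inr (le_antisymm hMS ?_)
  have hMI : M ≤ Cfsg.isometryGroup F (⇑Q) := hMS.trans omegaGL_le
  obtain ⟨g, hgM, hg⟩ := SetLike.not_le_iff_exists.mp hM
  have hgI := hMI hgM
  have hgv : ap g v ∉ W := fun h => hg (mem_subspaceStabilizer_of_mapsTo g W fun x hx => by
    obtain ⟨c, rfl⟩ := Submodule.mem_span_singleton.1 hx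
    rw [ap_smul]; exact W.smul_mem c h)
  set v' := ap g v with hv'def
  have hperp : ∀ u w, ∀ (hu : Q u = 0) (hw : polar Q u w = 0), polar Q v u = 0 → polar Q v w = 0 →
      sg Q u w hu hw ∈ M := fun u w hu hw hvu hvw =>
    hHM ⟨mem_subspaceStabilizer_of_mapsTo _ _ fun x hx => by
      obtain ⟨c, rfl⟩ := Submodule.mem_span_singleton.1 hx
      rw [ap_smul, ap_sg_fix hu hw hvu hvw]
      exact hx, sg_mem hQ (by omega) _ _⟩
  have hperp' : ∀ u w, ∀ (hu : Q u = 0) (hw : polar Q u w = 0), polar Q v' u = 0 →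
      polar Q v' w = 0 → sg Q u w hu hw ∈ M := by
    intro u w hu hw hvu hvw
    have hu' : Q (ap g⁻¹ u) = 0 := by rw [mem_isometryGroup_iff.mp (inv_mem hgI)]; exact hu
    have hw' : polar Q (ap g⁻¹ u) (ap g⁻¹ w) = 0 := by rw [polar_ap (inv_mem hgI)]; exact hw
    have e1 : polar Q v (ap g⁻¹ u) = 0 := by rw [← polar_ap hgI, ap_ap_inv]; exact hvu
    have e2 : polar Q v (ap g⁻¹ w) = 0 := by rw [← polar_ap hgI, ap_ap_inv]; exact hvw
    have h := mul_mem (mul_mem hgM (hperp _ _ hu' hw' e1 e2)) (inv_mem hgM)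
    rw [conj_sg hgI] at h
    convert h using 2 <;> rw [ap_ap_inv]
  obtain ⟨w₁, hw₁v', hw₁v⟩ := exists_polar_pair hQ (u := v') (x := v) fun h => by
    obtain ⟨c, hc⟩ := Submodule.mem_span_singleton.1 h
    have hc0 : c ≠ 0 := fun h0 => hv0 (by rw [← hc, h0, zero_smul])
    exact hgv (Submodule.mem_span_singleton.2 ⟨c⁻¹, by
      rw [← hc, smul_smul, inv_mul_cancel₀ hc0, one_smul]⟩)
  have hfull : ∀ u, Q u = 0 → polar Q v u = 0 → polar Q v' u = 0 → polar Q w₁ u = 0 →
      Full Q M u := by
    intro u hQu hvu hv'u hw₁u _ w hw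
    obtain ⟨w₀, hU, hw₀v⟩ := exists_polar_sep hQ (x := v) (U := Submodule.span F {u, v'})
      fun h => by
        obtain ⟨a, b, hab⟩ := Submodule.mem_span_pair.1 h
        have := congrArg (polar Q w₁) hab
        rw [polar_add_right, polar_smul_right, polar_smul_right, hw₁u, polar_comm Q w₁ v',
          hw₁v', polar_comm Q w₁ v, hw₁v, smul_zero, smul_zero, add_zero] at this
        exact zero_ne_one this
    have huw₀ : polar Q u w₀ = 0 := hU u (Submodule.subset_span (by simp))
    have hv'w₀ : polar Q v' w₀ = 0 := hU v' (Submodule.subset_span (by simp))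
    have h1 : polar Q u (w - polar Q v w • w₀) = 0 := by
      rw [polar_sub_right, polar_smul_right, hw, huw₀, smul_zero, sub_zero]
    have h2 : polar Q u (polar Q v w • w₀) = 0 := by
      rw [polar_smul_right, huw₀, smul_zero]
    have := mul_mem
      (hperp u (w - polar Q v w • w₀) hQu h1 hvu (by
        rw [polar_sub_right, polar_smul_right, hw₀v, smul_eq_mul, mul_one, sub_self]))
      (hperp' u (polar Q v w • w₀) hQu h2 hv'u (by rw [polar_smul_right, hv'w₀, smul_zero]))
    rw [sg_mul] at this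
    convert this using 2
    abel
  set U := Submodule.span F {v, v', w₁} with hUdef
  obtain ⟨C, hC⟩ := U.exists_isCompl
  have hU3 : Module.finrank F U ≤ 3 := by
    classical
    have e : U = Submodule.span F (({v, v', w₁} : Finset (ι → F)) : Set (ι → F)) := by
      rw [hUdef]; simp
    rw [e]
    exact (finrank_span_finset_le_card _).trans Finset.card_le_three
  let θ : Fin (Module.finrank F U) → (ι → F) →ₗ[F] F := fun i =>
    ((Module.finBasis F U).coord i).comp (U.projectionOnto C hC)
  obtain ⟨u, hu0, hQu, hu⟩ := exists_singular_ker Q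
    (Fin.cons (polarBilin Q v) (Fin.cons (polarBilin Q v') (Fin.cons (polarBilin Q w₁) θ)))
    (by omega)
  have hvu : polar Q v u = 0 := by simpa using hu 0
  have hv'u : polar Q v' u = 0 := by simpa using hu (Fin.succ 0)
  have hw₁u : polar Q w₁ u = 0 := by
    simpa only [Fin.cons_succ, Fin.cons_zero, polarBilin_apply_apply] using
      hu (Fin.succ (Fin.succ 0))
  have huU : u ∉ U := fun h => by
    refine hu0 ?_
    have h1 : U.projectionOnto C hC u = ⟨u, h⟩ := Submodule.projectionOnto_apply_of_mem_left hC h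
    have h2 : (⟨u, h⟩ : U) = 0 := (Module.finBasis F U).ext_elem fun i => by
      have h3 := hu i.succ.succ.succ
      simp only [Fin.cons_succ, θ, LinearMap.comp_apply, h1] at h3
      simpa using h3
    exact congrArg Subtype.val h2
  obtain ⟨x, hxU, hxu⟩ := exists_polar_sep hQ huU
  have hUu : ∀ a ∈ U, polar Q a u = 0 := fun a ha => by
    have hle : U ≤ LinearMap.ker ((polarBilin Q).flip u) := by
      rw [hUdef, Submodule.span_le]
      intro b hb
      simp only [Set.mem_insert_iff, Set.mem_singleton_iff] at hb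
      rcases hb with rfl | rfl | rfl <;> simp [hvu, hv'u, hw₁u]
    exact hle ha
  set y := x - Q x • u with hy
  have hQy : Q y = 0 := by
    rw [hy, CfsgLib.ClassicalForms.map_sub_eq, QuadraticMap.map_smul, polar_smul_right, hQu,
      polar_comm Q x u, hxu]
    simp
  have hyU : ∀ a ∈ U, polar Q a y = 0 := fun a ha => by
    rw [hy, polar_sub_right, polar_smul_right, hxU a ha, hUu a ha, smul_zero, sub_zero]
  refine Full.le_of_pair hQ (by omega) hMI (hfull u hQu hvu hv'u hw₁u)
    (hfull y hQy (hyU v ?_) (hyU v' ?_) (hyU w₁ ?_)) hQu hQy ?_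
  any_goals exact Submodule.subset_span (by simp)
  rw [hy, polar_sub_right, polar_smul_right, polar_self_mul, hQu, hxu]
  simp

end CfsgLib.Geometric.Orth
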