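import Cfsg.Agent.Lib.Geometric.Orth.Values
import Cfsg.Agent.Lib.Geometric.LinearSubfield

/-!
A group of determinant one containing all similarities of a non-degenerate quadratic form of odd characteristic
and large dimension, and one element more, is the special linear group.
-/

set_option autoImplicit false
set_option linter.unusedSectionVars false

namespace CfsgLib.Geometric.Orth

open Matrix QuadraticMap Module CfsgLib.ClassicalForms

variable {ι : Type} [Fintype ι] [DecidableEq ι] {F : Type*} [Field F] [Finite F]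
variable {Q : QuadraticForm F (ι → F)}
variable (hQ : Nondeg Q) (h2 : (2 : F) ≠ 0) (hn : 13 ≤ Fintype.card ι)

/-- The transvection with functional `polar Q · z` and centre `c` lies in `X`. -/
def Sz (Q : QuadraticForm F (ι → F)) (X : Subgroup (GL ι F)) (z c : ι → F) : Prop :=
  ∀ h : pf Q z c = 0, tv c (pf Q z) h ∈ X

lemma exists_singular_third {k : ℕ} (h2 : (2 : F) ≠ 0) (v : Fin k → ι → F) (hk : k + 3 ≤ Fintype.card ι) :
    ∃ e, (∀ i, polar Q e (v i) = 0) ∧ e ≠ 0 ∧ Q e = 0 := by
  have := card_le_finrank_perpOf (Q := Q) v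
  obtain ⟨e, he, he0, hQe⟩ := exists_singular (Q := Q) h2 (W := perpOf Q v) (by omega)
  exact ⟨e, mem_perpOf.mp he, he0, hQe⟩

include hQ h2 hn

lemma exists_halves_perp {k : ℕ} (v : Fin k → ι → F) (hk : k ≤ 3) {a : ι → F}
    (ha : ∀ i, polar Q a (v i) = 0) :
    ∃ a₁ a₂, (∀ i, polar Q a₁ (v i) = 0) ∧ (∀ i, polar Q a₂ (v i) = 0) ∧ Q a₁ = 0 ∧ Q a₂ = 0 ∧
      a = a₁ + a₂ := by
  have := card_le_finrank_perpOf (Q := Q) v
  obtain ⟨a₁, h₁, a₂, h₂, hQ₁, hQ₂, hs⟩ := exists_halves hQ h2 (W := perpOf Q v) (by omega)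
    (mem_perpOf.mpr ha)
  refine ⟨(2 : F)⁻¹ • a₁, (2 : F)⁻¹ • a₂, fun i => ?_, fun i => ?_, ?_, ?_, ?_⟩
  · rw [polar_smul_left, mem_perpOf.mp h₁, smul_zero]
  · rw [polar_smul_left, mem_perpOf.mp h₂, smul_zero]
  · rw [QuadraticMap.map_smul, hQ₁, smul_zero]
  · rw [QuadraticMap.map_smul, hQ₂, smul_zero]
  · rw [← smul_add, ← hs, smul_smul, inv_mul_cancel₀ h2, one_smul]

/-- A map keeping singular vectors singular is a similarity. -/
theorem similarity_of_singular {g : GL ι F} (hg : ∀ v, Q v = 0 → Q (ap g v) = 0) :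
    ∃ c : Fˣ, ∀ v, Q (ap g v) = (c : F) * Q v := by
  let B : (ι → F) → (ι → F) → F := fun x y => polar Q (ap g x) (ap g y)
  have hBa : ∀ x y z, B (x + y) z = B x z + B y z := fun x y z => by
    simp only [B, ap_add, polar_add_left]
  have hBs : ∀ (a : F) x z, B (a • x) z = a * B x z := fun a x z => by
    simp only [B, ap_smul, polar_smul_left, smul_eq_mul]
  have horth : ∀ u x, Q u = 0 → polar Q x u = 0 → B x u = 0 := by
    intro u x hu hx
    obtain ⟨x₁, x₂, h₁, h₂, hQ₁, hQ₂, rfl⟩ := exists_halves_perp hQ h2 hn ![u] (by omega)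
      (a := x) (fun i => by fin_cases i; exact hx)
    have key : ∀ y, Q y = 0 → polar Q y u = 0 → B y u = 0 := by
      intro y hy hyu
      have h3 : Q (y + u) = 0 := by rw [QuadraticMap.map_add (⇑Q), hy, hu, hyu]; ring
      have h4 := hg _ h3
      rw [ap_add, QuadraticMap.map_add (⇑Q), hg y hy, hg u hu] at h4
      simpa using h4
    rw [hBa, key x₁ hQ₁ (h₁ 0), key x₂ hQ₂ (h₂ 0), add_zero]
  have hκ : ∀ u, Q u = 0 → u ≠ 0 → ∃ κ, ∀ x, B x u = κ * polar Q x u := by
    intro u hu hu0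
    obtain ⟨p, hp⟩ : ∃ p, polar Q p u ≠ 0 := by
      by_contra h
      push Not at h
      exact hu0 (hQ u fun y => by rw [polar_comm]; exact h y)
    refine ⟨B p u / polar Q p u, fun x => ?_⟩
    have h0 := horth u (x + (-(polar Q x u / polar Q p u)) • p) hu (by
      rw [polar_add_left, polar_smul_left, smul_eq_mul]; field_simp; ring)
    rw [hBa, hBs] at h0
    field_simp at h0 ⊢
    linear_combination h0
  choose! κ hκ using hκ
  have hpair : ∀ u w, Q u = 0 → Q w = 0 → u ≠ 0 → w ≠ 0 → polar Q u w ≠ 0 → κ u = κ w := by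
    intro u w hu hw hu0 hw0 hne
    have e1 := hκ w hw hw0 u
    have e2 := hκ u hu hu0 w
    simp only [B] at e1 e2
    rw [polar_comm Q (ap g w), e1, polar_comm Q w u] at e2
    exact (mul_right_cancel₀ hne e2).symm
  have hconst : ∀ u w, Q u = 0 → Q w = 0 → u ≠ 0 → w ≠ 0 → κ u = κ w := by
    intro u w hu hw hu0 hw0
    by_cases hne : polar Q u w ≠ 0
    · exact hpair u w hu hw hu0 hw0 hne
    rw [not_not] at hne
    by_cases hli : LinearIndependent F ![u, w]
    · obtain ⟨y, hy, hyu, hyw⟩ := exists_singular_pairing hQ h2 (by omega) hli 1 1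
      have hy0 : y ≠ 0 := fun h => by rw [h, polar_zero_left] at hyu; exact zero_ne_one hyu
      rw [hpair u y hu hy hu0 hy0 (by rw [polar_comm, hyu]; exact one_ne_zero),
        hpair y w hy hw hy0 hw0 (by rw [hyw]; exact one_ne_zero)]
    · rw [LinearIndependent.pair_iff' hu0] at hli
      push Not at hli
      obtain ⟨a, rfl⟩ := hli
      obtain ⟨p, hp⟩ : ∃ p, polar Q p u ≠ 0 := by
        by_contra h
        push Not at h
        exact hu0 (hQ u fun y => by rw [polar_comm]; exact h y)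
      have e1 := hκ _ hw hw0 p
      have e2 := hκ u hu hu0 p
      simp only [B] at e1 e2
      rw [ap_smul, polar_smul_right, polar_smul_right, e2, smul_eq_mul, smul_eq_mul] at e1
      have ha : a ≠ 0 := fun h => hw0 (by rw [h, zero_smul])
      exact mul_right_cancel₀ hp (mul_left_cancel₀ ha (by linear_combination e1))
  obtain ⟨u, -, hu0, hu⟩ := exists_singular_third (Q := Q) h2 (k := 0) ![] (by omega)
  have hall : ∀ x y, B x y = κ u * polar Q x y := by
    intro x y
    obtain ⟨y₁, y₂, -, -, hQ₁, hQ₂, rfl⟩ := exists_halves_perp hQ h2 hn (k := 0) ![] (by omega)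
      (a := y) (fun i => i.elim0)
    have key : ∀ v, Q v = 0 → B x v = κ u * polar Q x v := by
      intro v hv
      by_cases hv0 : v = 0
      · simp [B, hv0, ap_zero]
      · rw [hκ v hv hv0 x, hconst u v hu hv hu0 hv0]
    have e1 := key _ hQ₁
    have e2 := key _ hQ₂
    simp only [B] at e1 e2 ⊢
    rw [ap_add, polar_add_right, polar_add_right, e1, e2, mul_add]
  have hne : κ u ≠ 0 := by
    intro h
    apply hu0
    refine ap_injective g ?_
    rw [ap_zero]
    refine hQ _ fun y => ?_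
    have := hall u (ap g⁻¹ y)
    simp only [B, ap_ap_inv, h, zero_mul] at this
    exact this
  refine ⟨Units.mk0 (κ u) hne, fun v => ?_⟩
  have := hall v v
  simp only [B, polar_self'] at this
  exact mul_left_cancel₀ h2 (by rw [Units.val_mk0]; linear_combination this)

variable {X : Subgroup (GL ι F)}
  (hX : ∀ g ∈ Cfsg.Geo.specialLinear ι F, (∃ c : Fˣ, ∀ v, Q (ap g v) = (c : F) * Q v) → g ∈ X)
include hX

lemma sg_memX {u w : ι → F} (hu : Q u = 0) (hw : polar Q u w = 0) : sg Q u w hu hw ∈ X := by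
  have hm := sg_mem hQ (by omega) hu hw
  refine hX _ ?_ ⟨1, fun v => by rw [Units.val_one, one_mul]; exact isometry_of_mem hm v⟩
  rw [omegaGL_eq] at hm
  refine (Subgroup.commutator_le.mpr fun a _ b _ => ?_) hm
  rw [Cfsg.Geo.specialLinear, MonoidHom.mem_ker, map_commutatorElement]
  exact commutatorElement_eq_one_iff_mul_comm.mpr (mul_comm _ _)

/-- An element that is not a similarity gives a transvection. -/
theorem exists_transvection {g : GL ι F} (hgX : g ∈ X) {u : ι → F} (hu : Q u = 0)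
    (hgu : Q (ap g u) ≠ 0) : ∃ z c, z ≠ 0 ∧ Q z = 0 ∧ c ≠ 0 ∧ polar Q c z = 0 ∧ Sz Q X z c := by
  have hu0 : u ≠ 0 := fun h => hgu (by rw [h, ap_zero, QuadraticMap.map_zero])
  obtain ⟨p, hp⟩ : ∃ p, polar Q p u ≠ 0 := by
    by_contra h
    push Not at h
    exact hu0 (hQ u fun y => by rw [polar_comm]; exact h y)
  obtain ⟨w, hw, hw0, hQw⟩ := exists_singular_third (Q := Q) h2 ![u, p] (by omega)
  have hwu : polar Q w u = 0 := hw 0
  have hli : LinearIndependent F ![u, w] := (LinearIndependent.pair_iff' hu0).mpr fun a ha => by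
    have h1 : polar Q w p = 0 := hw 1
    rw [← ha, polar_smul_left, polar_comm, smul_eq_mul, mul_eq_zero, or_iff_left hp] at h1
    exact hw0 (by rw [← ha, h1, zero_smul])
  have huw : polar Q u w = 0 := by rw [polar_comm]; exact hwu
  let C' : (ι → F) →ₗ[F] (ι → F) :=
    ((pf Q u) ∘ₗ (apEquiv g⁻¹).toLinearMap).smulRight (ap g w) -
      ((pf Q w) ∘ₗ (apEquiv g⁻¹).toLinearMap).smulRight (ap g u)
  set t' := g * sg Q u w hu huw * g⁻¹ with ht'
  have ht'X : t' ∈ X := mul_mem (mul_mem hgX (sg_memX hQ h2 hn hX hu huw)) (inv_mem hgX)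
  have hC'ap : ∀ x, ap t' x = x + C' x := by
    intro x
    rw [ht', ap_mul, ap_mul, ap_sg, hQw, zero_mul, add_zero, ap_sub, ap_add, ap_smul, ap_smul,
      ap_ap_inv]
    simp [C']
    abel
  have hrange : LinearMap.range C' ≤ Submodule.span F (Set.range ![ap g u, ap g w]) := by
    rintro _ ⟨x, rfl⟩
    simp only [C', LinearMap.sub_apply, LinearMap.smulRight_apply, LinearMap.comp_apply]
    exact Submodule.sub_mem _ (Submodule.smul_mem _ _ (Submodule.subset_span ⟨1, rfl⟩))
      (Submodule.smul_mem _ _ (Submodule.subset_span ⟨0, rfl⟩))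
  have hli' : LinearIndependent F ![ap g u, ap g w] := by
    refine LinearIndependent.pair_iff.mpr fun s t hst => LinearIndependent.pair_iff.mp hli s t ?_
    apply ap_injective g
    rw [ap_add, ap_smul, ap_smul, hst, ap_zero]
  have hspan2 : finrank F (Submodule.span F (Set.range ![ap g u, ap g w])) = 2 := by
    rw [finrank_span_eq_card hli', Fintype.card_fin]
  set H := LinearMap.ker C' with hH
  set A := perpOf Q ![ap g u, ap g w] with hA
  have hdH := LinearMap.finrank_range_add_finrank_ker C'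
  rw [Module.finrank_fintype_fun_eq_card] at hdH
  have hr1 : finrank F (LinearMap.range C') ≤ 2 := hspan2 ▸ Submodule.finrank_mono hrange
  have hr2 : 2 ≤ finrank F (LinearMap.range C') := by
    rw [← hspan2]
    refine Submodule.finrank_mono (Submodule.span_le.mpr ?_)
    rintro _ ⟨i, rfl⟩
    fin_cases i
    · obtain ⟨x, h1, h3⟩ := exists_pairings hQ hli 0 (-1)
      exact ⟨ap g x, by simp [C', ap_inv_ap, h1, h3]⟩
    · obtain ⟨x, h1, h3⟩ := exists_pairings hQ hli 1 0
      exact ⟨ap g x, by simp [C', ap_inv_ap, h1, h3]⟩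
  have hdA : Fintype.card ι ≤ finrank F A + 2 := card_le_finrank_perpOf (Q := Q) ![ap g u, ap g w]
  have hdH' : finrank F (LinearMap.range C') + finrank F H = Fintype.card ι := hdH
  have hguH : ap g u ∈ H := by
    have hQ' : polar Q u u = 0 := by rw [polar_self', hu, mul_zero]
    simp [hH, C', ap_inv_ap, hQ', huw]
  have hguA : ap g u ∉ A := fun h => by
    have h0 : polar Q (ap g u) (ap g u) = 0 := mem_perpOf.mp h 0
    rw [polar_self', mul_eq_zero, or_iff_right h2] at h0
    exact hgu h0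
  obtain ⟨a₀, ha₀A, ha₀H⟩ : ∃ a ∈ A, a ∉ H := by
    by_contra h
    push Not at h
    have hlt : A < H := lt_of_le_of_ne h fun he => hguA (he ▸ hguH)
    have := Submodule.finrank_lt_finrank_of_lt hlt
    omega
  obtain ⟨a, haA, haH, hQa⟩ : ∃ a ∈ A, a ∉ H ∧ Q a = 0 := by
    obtain ⟨a₁, a₂, h₁, h₂, hQ₁, hQ₂, rfl⟩ :=
      exists_halves_perp hQ h2 hn ![ap g u, ap g w] (by omega) (mem_perpOf.mp ha₀A)
    by_cases ha₁ : a₁ ∈ H
    · exact ⟨a₂, mem_perpOf.mpr h₂, fun h => ha₀H (H.add_mem ha₁ h), hQ₂⟩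
    · exact ⟨a₁, mem_perpOf.mpr h₁, ha₁, hQ₁⟩
  obtain ⟨b, ⟨⟨hbA, hbH⟩, hba⟩, hb0, hQb⟩ := exists_singular (Q := Q) h2
    (W := A ⊓ H ⊓ LinearMap.ker (pf Q a)) (by
      have e1 := finrank_le_inf_ker (A ⊓ H) (pf Q a)
      have e2 := Submodule.finrank_sup_add_finrank_inf_eq A H
      have e3 := Submodule.finrank_le (A ⊔ H)
      rw [Module.finrank_fintype_fun_eq_card] at e3
      omega)
  have hba' : polar Q b a = 0 := hba
  set t₀ := sg Q b a hQb hba' with ht₀
  have ht₀X : t₀ ∈ X := sg_memX hQ h2 hn hX hQb hba'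
  have ht₀ap : ∀ x, ap t₀ x = x + polar Q x b • a - polar Q x a • b := fun x => by
    rw [ht₀, ap_sg, hQa, zero_mul, add_zero]
  -- the images of the conjugate are orthogonal to `a` and `b`
  have himg : ∀ y ∈ A, ∀ x, polar Q (C' x) y = 0 := by
    intro y hy x
    have h1 : polar Q (ap g u) y = 0 := by rw [polar_comm]; exact mem_perpOf.mp hy 0
    have h3 : polar Q (ap g w) y = 0 := by rw [polar_comm]; exact mem_perpOf.mp hy 1
    simp [C', polar_sub_left, polar_smul_left, h1, h3]
  have hC'b : C' b = 0 := hbH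
  have hC'sq : ∀ x, C' (C' x) = 0 := by
    intro x
    have hQu : polar Q u u = 0 := by rw [polar_self', hu, mul_zero]
    have hQww : polar Q w w = 0 := by rw [polar_self', hQw, mul_zero]
    simp [C', ap_inv_ap, ap_sub, ap_smul, polar_sub_left, polar_smul_left, hQu, hQww, hwu, huw]
  refine ⟨b, C' a, hb0, hQb, haH, himg b hbA a, fun h => ?_⟩
  have hm : t' * t₀ * t'⁻¹ * t₀⁻¹ ∈ X :=
    mul_mem (mul_mem (mul_mem ht'X ht₀X) (inv_mem ht'X)) (inv_mem ht₀X)
  convert hm using 1
  rw [eq_mul_inv_iff_mul_eq, eq_mul_inv_iff_mul_eq]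
  refine gl_ext fun x => ?_
  have hbb : polar Q b b = 0 := by rw [polar_self', hQb, mul_zero]
  have hab : polar Q a b = 0 := by rw [polar_comm]; exact hba'
  simp only [ap_mul, ap_tv, hC'ap, pf_apply, ht₀ap, map_add, map_sub, map_smul, hC'b, smul_zero,
    sub_zero, add_zero, polar_add_left, polar_sub_left, polar_smul_left, himg b hbA, himg a haA,
    hbb, hab, hC'sq]
  module

lemma Sz.add {z c c' : ι → F} (h : Sz Q X z c) (h' : Sz Q X z c') (hc : polar Q c z = 0)
    (hc' : polar Q c' z = 0) : Sz Q X z (c + c') := by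
  intro h0
  have hc1 : pf Q z c = 0 := hc
  have hc2 : pf Q z c' = 0 := hc'
  convert mul_mem (h hc1) (h' hc2) using 1
  refine gl_ext fun x => ?_
  simp [ap_mul, polar_add_left, hc', smul_add]
  abel

lemma Sz.neg {z c : ι → F} (h : Sz Q X z c) (hc : polar Q c z = 0) : Sz Q X z (-c) := by
  intro h0
  have hc1 : pf Q z c = 0 := hc
  convert inv_mem (h hc1) using 1
  rw [tv_inv]
  exact gl_ext fun x => by simp

lemma Sz.sub {z c c' : ι → F} (h : Sz Q X z c) (h' : Sz Q X z c') (hc : polar Q c z = 0)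
    (hc' : polar Q c' z = 0) : Sz Q X z (c - c') := by
  rw [sub_eq_add_neg]
  exact Sz.add hQ h2 hn hX h (Sz.neg hQ h2 hn hX h' hc') hc (by simp [polar_neg_left, hc'])

lemma Sz.conj {z c : ι → F} (h : Sz Q X z c) {g : GL ι F} (hg : g ∈ X)
    (hiso : ∀ x, Q (ap g x) = Q x) : Sz Q X (ap g z) (ap g c) := by
  intro h0
  have hgi : g ∈ Cfsg.isometryGroup F (⇑Q) := mem_isometryGroup_iff.mpr hiso
  have hc : polar Q c z = 0 := by rw [← polar_ap hgi]; exact h0
  have hc1 : pf Q z c = 0 := hc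
  convert mul_mem (mul_mem hg (h hc1)) (inv_mem hg) using 1
  rw [conj_tv]
  congr 1
  refine LinearMap.ext fun x => ?_
  simp only [LinearMap.comp_apply, LinearEquiv.coe_coe, apEquiv_apply, pf_apply]
  rw [← polar_ap hgi (ap g⁻¹ x) z, ap_ap_inv]

/-- Moving the centre by a Siegel element fixing the functional. -/
lemma Sz.siegel {z c : ι → F} (h : Sz Q X z c) {u w : ι → F} (hu : Q u = 0)
    (hw : polar Q u w = 0) (hzu : polar Q z u = 0) (hzw : polar Q z w = 0) :
    Sz Q X z (c + polar Q c u • w - (polar Q c w + Q w * polar Q c u) • u) := by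
  have hm := sg_memX hQ h2 hn hX hu hw
  have := Sz.conj hQ h2 hn hX h hm (isometry_of_mem (sg_mem hQ (by omega) hu hw))
  rwa [ap_sg_fix hu hw hzu hzw, ap_sg] at this

/-- Transitivity on singular vectors. -/
lemma exists_move {z z' : ι → F} (hz : Q z = 0) (hz' : Q z' = 0) (hz0 : z ≠ 0) (hz'0 : z' ≠ 0) :
    ∃ g ∈ X, (∀ x, Q (ap g x) = Q x) ∧ ap g z = z' := by
  have one : ∀ z z' : ι → F, Q z = 0 → Q z' = 0 → LinearIndependent F ![z, z'] →
      ∃ g ∈ X, (∀ x, Q (ap g x) = Q x) ∧ ap g z = z' := by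
    intro z z' hz hz' hli
    obtain ⟨y, hy, hyz, hyz'⟩ := exists_singular_pairing hQ h2 (by omega) hli 1 1
    have h : polar Q y (z' - z) = 0 := by rw [polar_sub_right, hyz, hyz', sub_self]
    refine ⟨sg Q y (z' - z) hy h, sg_memX hQ h2 hn hX hy h,
      isometry_of_mem (sg_mem hQ (by omega) hy h), ?_⟩
    have hd : Q (z' - z) = -polar Q z z' := by
      rw [sub_eq_add_neg, QuadraticMap.map_add (⇑Q), QuadraticMap.map_neg, hz, hz', polar_neg_right,
        polar_comm Q z']
      ring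
    rw [ap_sg, hd, polar_sub_right, polar_comm Q z y, hyz, polar_self', hz]
    match_scalars <;> ring
  by_cases hli : LinearIndependent F ![z, z']
  · exact one z z' hz hz' hli
  obtain ⟨p, hp⟩ : ∃ p, polar Q p z ≠ 0 := by
    by_contra h
    push Not at h
    exact hz0 (hQ z fun y => by rw [polar_comm]; exact h y)
  obtain ⟨w, hw, hw0, hQw⟩ := exists_singular_third (Q := Q) h2 ![p] (by omega)
  have hwp : polar Q w p = 0 := hw 0
  have hli1 : LinearIndependent F ![z, w] := (LinearIndependent.pair_iff' hz0).mpr fun a ha => by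
    rw [← ha, polar_smul_left, polar_comm, smul_eq_mul, mul_eq_zero, or_iff_left hp] at hwp
    exact hw0 (by rw [← ha, hwp, zero_smul])
  have hli2 : LinearIndependent F ![w, z'] := by
    rw [LinearIndependent.pair_iff' hz0] at hli
    push Not at hli
    obtain ⟨a, rfl⟩ := hli
    refine (LinearIndependent.pair_iff' hw0).mpr fun b hb => ?_
    have ha0 : a ≠ 0 := fun h => hz'0 (by rw [h, zero_smul])
    have hb0 : b ≠ 0 := fun h => hz'0 (by rw [← hb, h, zero_smul])
    refine (LinearIndependent.pair_iff' hz0).mp hli1 (b⁻¹ * a) ?_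
    rw [mul_smul, ← hb, smul_smul, inv_mul_cancel₀ hb0, one_smul]
  obtain ⟨g₁, hg₁, hi₁, hm₁⟩ := one z w hz hQw hli1
  obtain ⟨g₂, hg₂, hi₂, hm₂⟩ := one w z' hQw hz' hli2
  exact ⟨g₂ * g₁, mul_mem hg₂ hg₁, fun x => by rw [ap_mul, hi₂, hi₁],
    by rw [ap_mul, hm₁, hm₂]⟩

/-- One transvection gives all of them. -/
theorem specialLinear_le_of_sz {z c : ι → F} (hz0 : z ≠ 0) (hz : Q z = 0) (hc0 : c ≠ 0)
    (hcz : polar Q c z = 0) (hS : Sz Q X z c) : Cfsg.Geo.specialLinear ι F ≤ X := by
  -- the centre can be the singular vector itself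
  obtain ⟨s, hs0, hs⟩ : ∃ s : F, s ≠ 0 ∧ Sz Q X z (s • z) := by
    by_cases hdep : ∀ a : F, a • z ≠ c
    · have hli : LinearIndependent F ![z, c] := (LinearIndependent.pair_iff' hz0).mpr hdep
      obtain ⟨w, hw1, hw2⟩ := exists_pairings hQ hli 0 1
      have hzz : polar Q z z = 0 := by rw [polar_self', hz, mul_zero]
      have hzw : polar Q z w = 0 := by rw [polar_comm]; exact hw1
      have h := Sz.siegel hQ h2 hn hX hS hz hzw hzz hzw
      rw [hcz, mul_zero, zero_smul, add_zero, add_zero, polar_comm Q c w, hw2] at h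
      refine ⟨-1, neg_ne_zero.mpr one_ne_zero, ?_⟩
      have h' := Sz.sub hQ h2 hn hX h hS (by simp [polar_sub_left, polar_smul_left, hcz, hzz]) hcz
      convert h' using 1
      module
    · push Not at hdep
      obtain ⟨a, rfl⟩ := hdep
      exact ⟨a, fun h => hc0 (by rw [h, zero_smul]), hS⟩
  have hzz : ∀ {y : ι → F}, Q y = 0 → ∀ a : F, polar Q (a • y) y = 0 := fun hy a => by
    rw [polar_smul_left, polar_self', hy, mul_zero, smul_zero]
  have hself : ∀ y, Q y = 0 → ∀ a : F, Sz Q X y (a • y) := by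
    intro y hy a
    by_cases hy0 : y = 0
    · intro h
      rw [show tv (a • y) (pf Q y) h = 1 from gl_ext fun x => by simp [hy0]]
      exact one_mem X
    have sq : ∀ l : F, Sz Q X y ((s * l ^ 2) • y) := by
      intro l
      by_cases hl : l = 0
      · intro h
        rw [show tv ((s * l ^ 2) • y) (pf Q y) h = 1 from gl_ext fun x => by simp [hl]]
        exact one_mem X
      obtain ⟨g, hg, hiso, hgz⟩ := exists_move hQ h2 hn hX hz
        (show Q (l • y) = 0 by rw [QuadraticMap.map_smul, hy, smul_zero]) hz0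
        (smul_ne_zero hl hy0)
      have h := Sz.conj hQ h2 hn hX hs hg hiso
      rw [ap_smul, hgz] at h
      intro h'
      convert h (hzz (by rw [QuadraticMap.map_smul, hy, smul_zero]) s) using 1
      refine gl_ext fun x => ?_
      simp [polar_smul_right, smul_smul]
      congr 1
      ring
    obtain ⟨l, m, hlm⟩ := exists_combination hs0 hs0 h2 a
    rw [← hlm, add_smul]
    exact Sz.add hQ h2 hn hX (sq l) (sq m) (hzz hy _) (hzz hy _)
  -- an anisotropic centre
  obtain ⟨z₀, c₁, hz₀0, hz₀, hc₁, hc₁z, hS₁⟩ :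
      ∃ z₀ c₁, z₀ ≠ 0 ∧ Q z₀ = 0 ∧ Q c₁ ≠ 0 ∧ polar Q c₁ z₀ = 0 ∧ Sz Q X z₀ c₁ := by
    obtain ⟨p, hp⟩ : ∃ p, polar Q p z ≠ 0 := by
      by_contra h
      push Not at h
      exact hz0 (hQ z fun y => by rw [polar_comm]; exact h y)
    obtain ⟨w, hw, hw0, -⟩ := exists_singular_third (Q := Q) h2 ![p] (by omega)
    have hwp : polar Q w p = 0 := hw 0
    have hli : LinearIndependent F ![z, w] := (LinearIndependent.pair_iff' hz0).mpr fun a ha => by
      rw [← ha, polar_smul_left, polar_comm, smul_eq_mul, mul_eq_zero, or_iff_left hp] at hwp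
      exact hw0 (by rw [← ha, hwp, zero_smul])
    obtain ⟨z', hz', hz'z, -⟩ := exists_singular_pairing hQ h2 (by omega) hli 1 0
    have hzz' : polar Q z z' = 1 := by rw [polar_comm]; exact hz'z
    have hzz1 : polar Q z z = 0 := by rw [polar_self', hz, mul_zero]
    have hz'z' : polar Q z' z' = 0 := by rw [polar_self', hz', mul_zero]
    have h1 := hself z hz 1
    rw [one_smul] at h1
    have h1' := hself z' hz' 1
    rw [one_smul] at h1'
    have g1 : pf Q z z = 0 := hzz1
    have g2 : pf Q z' z' = 0 := hz'z'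
    have hconj := mul_mem (mul_mem (h1 g1) (h1' g2)) (inv_mem (h1 g1))
    set y := z' - z with hy
    have hcy : pf Q y (z' + z) = 0 := by
      simp [hy, polar_add_left, polar_sub_right, hz'z', hz'z, hzz', hzz1]
    have hmem : tv (z' + z) (pf Q y) hcy ∈ X := by
      convert hconj using 1
      rw [eq_mul_inv_iff_mul_eq]
      refine gl_ext fun x => ?_
      simp [ap_mul, hy, polar_add_left, polar_sub_right, polar_smul_left, hz'z, hzz', hzz1]
      module
    have hd := card_le_finrank_perpOf (Q := Q) ![z, z']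
    obtain ⟨e, he, hQe⟩ := exists_value hQ h2 (W := perpOf Q ![z, z']) (by omega) 1
    rw [mem_perpOf] at he
    have he0 : polar Q e z = 0 := he 0
    have he1 : polar Q e z' = 0 := he 1
    have hQy : Q y = -1 := by
      rw [hy, sub_eq_add_neg, QuadraticMap.map_add (⇑Q), QuadraticMap.map_neg, hz, hz', polar_neg_right, hz'z]
      ring
    have hey : polar Q y e = 0 := by
      rw [polar_comm, hy, polar_sub_right, he0, he1, sub_zero]
    have hz₀ : Q (y + e) = 0 := by rw [QuadraticMap.map_add (⇑Q), hQy, hQe, hey]; ring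
    have hc₀ : polar Q (z' + z) (y + e) = 0 := by
      rw [polar_comm, polar_add_left, polar_add_right Q e, he0, he1, polar_comm Q y]
      have := hcy
      simp only [pf_apply] at this
      rw [this]; ring
    have hyy : polar Q (y + e) y = -2 := by
      rw [polar_add_left, polar_self', hQy, polar_comm Q e, hey]; ring
    have h0 := hself (y + e) hz₀ 1
    rw [one_smul] at h0
    have h3 := comm_mem hmem (h0 (by rw [pf_apply, polar_self', hz₀, mul_zero])) hc₀
    refine ⟨y + e, (-2 : F) • (z' + z), fun h => ?_, hz₀, ?_, ?_, fun h => ?_⟩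
    · rw [h, polar_zero_left] at hyy
      exact h2 (by linear_combination hyy)
    · rw [QuadraticMap.map_smul, QuadraticMap.map_add (⇑Q), hz, hz', hz'z, smul_eq_mul]
      simpa using h2
    · rw [polar_smul_left, hc₀, smul_zero]
    · convert h3 using 1
      refine gl_ext fun x => ?_
      simp only [ap_tv, LinearMap.smul_apply, pf_apply, hyy, smul_smul, smul_eq_mul, mul_comm]
  -- all centres at `z₀`
  have hzero : ∀ v, polar Q v z₀ = 0 → Q v = 0 → polar Q c₁ v ≠ 0 → Sz Q X z₀ v := by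
    intro u hu hQu hβ
    set β := polar Q c₁ u with hβdef
    have hd := card_le_finrank_perpOf (Q := Q) ![u, z₀]
    obtain ⟨w, hw, hQw⟩ := exists_value hQ h2 (W := perpOf Q ![u, z₀]) (by omega) (-(2 * β)⁻¹)
    rw [mem_perpOf] at hw
    have hwu : polar Q u w = 0 := by rw [polar_comm]; exact hw 0
    have hwz : polar Q z₀ w = 0 := by rw [polar_comm]; exact hw 1
    have hzu : polar Q z₀ u = 0 := by rw [polar_comm]; exact hu
    have e1 := Sz.siegel hQ h2 hn hX hS₁ hQu hwu hzu hwz
    have e2 := Sz.siegel hQ h2 hn hX hS₁ (w := -w) hQu (by rw [polar_neg_right, hwu, neg_zero])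
      hzu (by rw [polar_neg_right, hwz, neg_zero])
    have hwz' : polar Q w z₀ = 0 := hw 1
    have p1 : polar Q (c₁ + polar Q c₁ u • w - (polar Q c₁ w + Q w * polar Q c₁ u) • u) z₀ = 0 := by
      simp [polar_add_left, polar_sub_left, polar_smul_left, hc₁z, hwz', hu]
    have p2 : polar Q (c₁ + polar Q c₁ u • -w - (polar Q c₁ (-w) + Q (-w) * polar Q c₁ u) • u) z₀ = 0 := by
      simp [polar_add_left, polar_sub_left, polar_smul_left, hc₁z, hwz', hu]
    have e3 := Sz.add hQ h2 hn hX (Sz.sub hQ h2 hn hX e1 hS₁ p1 hc₁z)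
      (Sz.sub hQ h2 hn hX e2 hS₁ p2 hc₁z) (by rw [polar_sub_left, p1, hc₁z, sub_zero])
      (by rw [polar_sub_left, p2, hc₁z, sub_zero])
    convert e3 using 1
    rw [polar_neg_right, QuadraticMap.map_neg, hQw, ← hβdef]
    match_scalars
    · field_simp; ring
    · ring
    · ring
  have hsing : ∀ v, polar Q v z₀ = 0 → Q v = 0 → Sz Q X z₀ v := by
    intro v hv hQv
    by_cases hcv : polar Q c₁ v = 0
    swap
    · exact hzero v hv hQv hcv
    obtain ⟨u₁, u₂, h₁, h₂, hQ₁, hQ₂, hcs⟩ := exists_halves_perp hQ h2 hn ![z₀, v] (by omega)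
      (a := c₁) (fun i => by fin_cases i <;> assumption)
    obtain ⟨u, hu, hQu, hcu⟩ : ∃ u, (∀ i, polar Q u (![z₀, v] i) = 0) ∧ Q u = 0 ∧
        polar Q c₁ u ≠ 0 := by
      by_cases h : polar Q c₁ u₁ = 0
      · refine ⟨u₂, h₂, hQ₂, fun h' => hc₁ ?_⟩
        have : polar Q c₁ c₁ = 0 := by
          nth_rewrite 2 [hcs]
          rw [polar_add_right, h, h', add_zero]
        rw [polar_self', mul_eq_zero, or_iff_right h2] at this
        exact this
      · exact ⟨u₁, h₁, hQ₁, h⟩
    have huz : polar Q u z₀ = 0 := hu 0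
    have huv : polar Q u v = 0 := hu 1
    have e1 := hzero (u + v) (by rw [polar_add_left, huz, hv, add_zero])
      (by rw [QuadraticMap.map_add (⇑Q), hQu, hQv, huv]; ring)
      (by rwa [polar_add_right, hcv, add_zero])
    have e2 := Sz.sub hQ h2 hn hX e1 (hzero u huz hQu hcu)
      (by rw [polar_add_left, huz, hv, add_zero]) huz
    rwa [add_sub_cancel_left] at e2
  have hfull : ∀ v, polar Q v z₀ = 0 → Sz Q X z₀ v := by
    intro v hv
    obtain ⟨v₁, v₂, h₁, h₂, hQ₁, hQ₂, rfl⟩ := exists_halves_perp hQ h2 hn ![z₀] (by omega)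
      (a := v) (fun i => by fin_cases i; exact hv)
    exact Sz.add hQ h2 hn hX (hsing _ (h₁ 0) hQ₁) (hsing _ (h₂ 0) hQ₂) (h₁ 0) (h₂ 0)
  have hevery : ∀ y, Q y = 0 → y ≠ 0 → ∀ v, polar Q v y = 0 → Sz Q X y v := by
    intro y hy hy0 v hv
    obtain ⟨g, hg, hiso, hgz⟩ := exists_move hQ h2 hn hX hz₀ hy hz₀0 hy0
    have hgi : g ∈ Cfsg.isometryGroup F (⇑Q) := mem_isometryGroup_iff.mpr hiso
    have h := Sz.conj hQ h2 hn hX (hfull (ap g⁻¹ v)
      (by rw [← polar_ap hgi, ap_ap_inv, hgz, hv])) hg hiso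
    rwa [hgz, ap_ap_inv] at h
  refine specialLinear_le_of_tv_mem fun v φ hφ => ?_
  obtain ⟨y, rfl⟩ : ∃ y, pf Q y = φ := by
    let ψ : (ι → F) →ₗ[F] Module.Dual F (ι → F) :=
      { toFun := fun w => pf Q w
        map_add' := fun a b => LinearMap.ext fun x => by simp [polar_add_right]
        map_smul' := fun c a => LinearMap.ext fun x => by simp [polar_smul_right] }
    have hψ : Function.Injective ψ := by
      rw [injective_iff_map_eq_zero]
      intro w hw
      refine hQ _ fun y => ?_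
      rw [polar_comm]
      exact LinearMap.congr_fun hw y
    exact (LinearMap.injective_iff_surjective_of_finrank_eq_finrank
      Subspace.dual_finrank_eq.symm).1 hψ φ
  obtain ⟨y₁, y₂, h₁, h₂, hQ₁, hQ₂, rfl⟩ := exists_halves_perp hQ h2 hn ![v] (by omega)
    (a := y) (fun i => by fin_cases i; rw [polar_comm]; exact hφ)
  have key : ∀ w, Q w = 0 → ∀ hw : pf Q w v = 0, tv v (pf Q w) hw ∈ X := by
    intro w hQw hw
    by_cases hw0 : w = 0
    · rw [show tv v (pf Q w) hw = 1 from gl_ext fun x => by simp [hw0]]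
      exact one_mem X
    · exact hevery w hQw hw0 v hw hw
  have e1 : polar Q v y₁ = 0 := by rw [polar_comm]; exact h₁ 0
  have e2 : polar Q v y₂ = 0 := by rw [polar_comm]; exact h₂ 0
  have f1 : pf Q y₁ v = 0 := e1
  have f2 : pf Q y₂ v = 0 := e2
  convert mul_mem (key y₁ hQ₁ f1) (key y₂ hQ₂ f2) using 1
  rw [tv_add]
  refine gl_ext fun x => ?_
  simp [polar_add_right]

/-- The whole statement: a group of similarities or everything. -/
theorem specialLinear_le_of_not_similarity
    (hnot : ∃ g ∈ X, ¬ ∃ c : Fˣ, ∀ v, Q (ap g v) = (c : F) * Q v) :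
    Cfsg.Geo.specialLinear ι F ≤ X := by
  obtain ⟨g, hgX, hg⟩ := hnot
  obtain ⟨u, hu, hgu⟩ : ∃ u, Q u = 0 ∧ Q (ap g u) ≠ 0 := by
    by_contra h
    push Not at h
    exact hg (similarity_of_singular hQ h2 hn h)
  obtain ⟨z, c, hz0, hz, hc0, hcz, hS⟩ := exists_transvection hQ h2 hn hX hgX hu hgu
  exact specialLinear_le_of_sz hQ h2 hn hX hz0 hz hc0 hcz hS

end CfsgLib.Geometric.Orth
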