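import Cfsg.Agent.Lib.Geometric.SympSubfield
import Cfsg.Agent.Lib.Geometric.Orth.Full
import Cfsg.Agent.Lib.Geometric.Orth.PairStab

/-!
Subfield groups are maximal in `omegaGL` of a quadratic form.

A long root element meets the symmetric maps of a totally singular three-space over the subfield
in a group acting as `SL₂` on a pair of planes; its diagonal part would have to lie in the
subfield.
-/

set_option autoImplicit false

namespace CfsgLib.Geometric.Orth

open Matrix QuadraticMap CfsgLib.ClassicalForms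
open scoped MatrixGroups

variable {ι : Type} [Fintype ι] [DecidableEq ι] {F : Type*} [Field F]

namespace OSubfld

open LSubfld (RatV)
open SSubfld (em)

open Classical in
/-- The Siegel element, trivial when the pair is not admissible. -/
noncomputable def rs (Q : QuadraticForm F (ι → F)) (u w : ι → F) : GL ι F :=
  if h : Q u = 0 ∧ polar Q u w = 0 then sg Q u w h.1 h.2 else 1

variable {Q : QuadraticForm F (ι → F)}

omit [Fintype ι] [DecidableEq ι] in
lemma map_add_eq {R : Type*} [CommRing R] {V : Type*} [AddCommGroup V] [Module R V]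
    (Q' : QuadraticForm R V) (x y : V) : Q' (x + y) = Q' x + Q' y + polar Q' x y :=
  QuadraticMap.map_add Q' x y

lemma rs_eq {u w : ι → F} (hu : Q u = 0) (hw : polar Q u w = 0) :
    rs Q u w = sg Q u w hu hw := dif_pos ⟨hu, hw⟩

lemma ap_rs {u w : ι → F} (hu : Q u = 0) (hw : polar Q u w = 0) (x : ι → F) :
    ap (rs Q u w) x = x + polar Q x u • w - (polar Q x w + Q w * polar Q x u) • u := by
  rw [rs_eq hu hw, ap_sg]

lemma ap_rs' {u w : ι → F} (hu : Q u = 0) (hQw : Q w = 0) (hw : polar Q u w = 0) (x : ι → F) :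
    ap (rs Q u w) x = x + polar Q x u • w - polar Q x w • u := by
  rw [ap_rs hu hw, hQw, zero_mul, add_zero]

lemma conj_rs {g : GL ι F} (hg : g ∈ Cfsg.isometryGroup F (⇑Q)) {u w : ι → F} (hu : Q u = 0)
    (hw : polar Q u w = 0) : g * rs Q u w * g⁻¹ = rs Q (ap g u) (ap g w) := by
  rw [rs_eq hu hw, rs_eq (by rw [mem_isometryGroup_iff.mp hg, hu]) (by rw [polar_ap hg, hw]),
    conj_sg hg]

lemma rs_add {u w w' : ι → F} (hu : Q u = 0) (hw : polar Q u w = 0) (hw' : polar Q u w' = 0) :
    rs Q u w * rs Q u w' = rs Q u (w + w') := by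
  rw [rs_eq hu hw, rs_eq hu hw', rs_eq hu (by rw [polar_add_right, hw, hw', add_zero]),
    sg_mul' hu hw hw']

lemma rs_smul_swap {u w : ι → F} (hu : Q u = 0) (hQw : Q w = 0) (hw : polar Q u w = 0) (c : F) :
    rs Q u (c • w) = rs Q w ((-c) • u) := by
  apply gl_ext
  intro x
  rw [ap_rs' hu (by simp [QuadraticMap.map_smul, hQw]) (by simp [polar_smul_right, hw]),
    ap_rs' hQw (by simp [QuadraticMap.map_smul, hu])
      (by simp [polar_smul_right, polar_comm Q w u, hw])]
  simp only [polar_smul_right, smul_eq_mul]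
  module

lemma rs_self {u : ι → F} (hu : Q u = 0) (c : F) : rs Q u (c • u) = 1 := by
  apply gl_ext
  intro x
  rw [ap_rs' hu (by simp [QuadraticMap.map_smul, hu])
    (by simp [polar_smul_right, polar_self_mul, hu]), ap_one]
  simp only [polar_smul_right, smul_eq_mul]
  module

/-- Three pairwise orthogonal singular vectors. -/
structure Triple (Q : QuadraticForm F (ι → F)) (x y z : ι → F) : Prop where
  hx : Q x = 0
  hy : Q y = 0
  hz : Q z = 0
  hxy : polar Q x y = 0
  hxz : polar Q x z = 0
  hyz : polar Q y z = 0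

/-- The alternating map with entries `p, q, s` on a totally singular triple. -/
noncomputable def el (Q : QuadraticForm F (ι → F)) (p q s : F) (x y z : ι → F) : GL ι F :=
  rs Q x (p • y + q • z) * rs Q y (s • z)

section El

variable {x y z : ι → F} (T : Triple Q x y z)
include T

lemma ap_el (p q s : F) (v : ι → F) :
    ap (el Q p q s x y z) v = v + polar Q v x • (p • y + q • z)
      - (p * polar Q v y + q * polar Q v z) • x + s • (polar Q v y • z - polar Q v z • y) := by
  have h1 : polar Q x (p • y + q • z) = 0 := by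
    simp [polar_add_right, polar_smul_right, T.hxy, T.hxz]
  have h2 : Q (p • y + q • z) = 0 := by
    simp [map_add_eq, QuadraticMap.map_smul, T.hy, T.hz, polar_smul_left, polar_smul_right, T.hyz]
  have h3 : polar Q y (s • z) = 0 := by simp [polar_smul_right, T.hyz]
  have h4 : Q (s • z) = 0 := by simp [QuadraticMap.map_smul, T.hz]
  rw [el, ap_mul, ap_rs' T.hy h4 h3, ap_rs' T.hx h2 h1]
  simp only [polar_add_left, polar_sub_left, polar_smul_left, polar_smul_right, polar_add_right,
    smul_eq_mul, polar_comm Q z x, T.hxz, polar_comm Q y x, T.hxy, T.hyz, polar_comm Q z y,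
    polar_self_mul, T.hy, T.hz]
  module

lemma el_mul (p q s p' q' s' : F) :
    el Q p q s x y z * el Q p' q' s' x y z = el Q (p + p') (q + q') (s + s') x y z := by
  apply gl_ext
  intro v
  simp only [ap_mul, ap_el T, polar_add_left, polar_sub_left, polar_smul_left, smul_eq_mul,
    polar_comm Q z x, T.hxz, polar_comm Q y x, T.hxy, T.hyz, polar_comm Q z y, polar_self_mul,
    T.hx, T.hy, T.hz]
  module

lemma el_inv (p q s : F) : (el Q p q s x y z)⁻¹ = el Q (-p) (-q) (-s) x y z := by
  refine inv_eq_of_mul_eq_one_right ?_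
  rw [el_mul T]
  apply gl_ext
  intro v
  simp [ap_el T]

lemma el_second (q : F) : el Q 0 q 0 x y z = rs Q x (q • z) := by
  apply gl_ext
  intro v
  rw [ap_el T, ap_rs' T.hx (by simp [QuadraticMap.map_smul, T.hz])
    (by simp [polar_smul_right, T.hxz])]
  simp only [polar_smul_right, smul_eq_mul]
  module

lemma el_perm₁ (p q s : F) : el Q p q s x y z = el Q q p (-s) x z y := by
  have T' : Triple Q x z y :=
    ⟨T.hx, T.hz, T.hy, T.hxz, T.hxy, by rw [polar_comm]; exact T.hyz⟩
  apply gl_ext
  intro v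
  rw [ap_el T, ap_el T']
  module

lemma el_perm₂ (p q s : F) : el Q p q s x y z = el Q (-p) s q y x z := by
  have T' : Triple Q y x z :=
    ⟨T.hy, T.hx, T.hz, by rw [polar_comm]; exact T.hxy, T.hyz, T.hxz⟩
  apply gl_ext
  intro v
  rw [ap_el T, ap_el T']
  module

lemma el_shift (p q s : F) : el Q p q s x (y + z) z = el Q p (q + p) s x y z := by
  have T' : Triple Q x (y + z) z :=
    ⟨T.hx, by simp [map_add_eq, T.hy, T.hz, T.hyz], T.hz,
      by simp [polar_add_right, T.hxy, T.hxz], T.hxz,
      by simp [polar_add_left, T.hyz, polar_self_mul, T.hz]⟩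
  apply gl_ext
  intro v
  rw [ap_el T, ap_el T', polar_add_right]
  module

lemma conj_el {g : GL ι F} (hg : g ∈ Cfsg.isometryGroup F (⇑Q)) (p q s : F) :
    g * el Q p q s x y z * g⁻¹ = el Q p q s (ap g x) (ap g y) (ap g z) := by
  simp only [el, ← ap_smul, ← ap_add]
  rw [← conj_rs hg T.hx (by simp [polar_add_right, polar_smul_right, T.hxy, T.hxz]),
    ← conj_rs hg T.hy (by simp [polar_smul_right, T.hyz])]
  group

end El

variable {F₀ : Subfield F} (hrat : ∀ v, RatV F₀ v → Q v ∈ F₀)

include hrat in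
lemma polar_mem {u v : ι → F} (hu : RatV F₀ u) (hv : RatV F₀ v) : polar Q u v ∈ F₀ :=
  sub_mem (sub_mem (hrat _ (hu.add hv)) (hrat _ hu)) (hrat _ hv)

/-- The form on vectors over the subfield. -/
def form₀ : QuadraticForm F₀ (ι → F₀) :=
  QuadraticMap.ofPolar (fun u => (⟨Q (em u), hrat _ (SSubfld.ratV_em u)⟩ : F₀))
    (fun a x => Subtype.ext (by simp [SSubfld.em_smul, QuadraticMap.map_smul, mul_assoc]))
    (fun x x' y => Subtype.ext (by
      have := polar_add_left Q (em x) (em x') (em y)
      simp only [polar, Subfield.coe_sub, Subfield.coe_add, SSubfld.em_add] at this ⊢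
      exact this))
    (fun a x y => Subtype.ext (by
      have := polar_smul_left Q (a : F) (em x) (em y)
      simp only [polar, Subfield.coe_sub, SSubfld.em_add, SSubfld.em_smul, smul_eq_mul,
        Subfield.coe_mul] at this ⊢
      exact this))

lemma coe_form₀ (u : ι → F₀) : (form₀ hrat u : F) = Q (em u) := rfl

lemma coe_polar₀ (u v : ι → F₀) : ((polar (form₀ hrat) u v : F₀) : F) = polar Q (em u) (em v) := by
  simp [polar, coe_form₀, SSubfld.em_add]

lemma form₀_eq_zero {u : ι → F₀} : form₀ hrat u = 0 ↔ Q (em u) = 0 :=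
  ⟨fun h => by rw [← coe_form₀ hrat, h]; rfl, fun h => Subtype.ext h⟩

lemma polar₀_eq_zero {u v : ι → F₀} : polar (form₀ hrat) u v = 0 ↔ polar Q (em u) (em v) = 0 :=
  ⟨fun h => by rw [← coe_polar₀ hrat, h]; rfl, fun h => Subtype.ext ((coe_polar₀ hrat u v).trans h)⟩

lemma polar₀_eq_one {u v : ι → F₀} : polar (form₀ hrat) u v = 1 ↔ polar Q (em u) (em v) = 1 :=
  ⟨fun h => by rw [← coe_polar₀ hrat, h]; rfl, fun h => Subtype.ext ((coe_polar₀ hrat u v).trans h)⟩

variable (hQ : CfsgLib.ClassicalForms.Nondeg Q)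
include hQ

lemma eq_zero_of_rat {v : ι → F} (h : ∀ u : ι → F₀, polar Q v (em u) = 0) : v = 0 := by
  refine hQ v fun y => ?_
  change polarBilin Q v y = 0
  rw [LSubfld.apply_eq_sum (polarBilin Q v)]
  refine Finset.sum_eq_zero fun i _ => ?_
  have := h (Pi.single i 1)
  rw [SSubfld.em_single] at this
  rw [polarBilin_apply_apply, this, zero_mul]

include hrat in
lemma nondeg₀ : CfsgLib.ClassicalForms.Nondeg (form₀ hrat) := fun x hx =>
  SSubfld.em_injective ((eq_zero_of_rat hQ fun u => (polar₀_eq_zero hrat).1 (hx u)).trans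
    SSubfld.em_zero.symm)

include hrat in
/-- A singular partner of `y` orthogonal to the singular vectors `x` and `z`. -/
lemma exists_dual {x y z : ι → F₀} (hy : y ∉ Submodule.span F₀ {x, z})
    (hyy : form₀ hrat y = 0) (hxy : polar (form₀ hrat) x y = 0)
    (hzy : polar (form₀ hrat) z y = 0) :
    ∃ d : ι → F₀, form₀ hrat d = 0 ∧ polar (form₀ hrat) y d = 1 ∧
      polar (form₀ hrat) x d = 0 ∧ polar (form₀ hrat) z d = 0 := by
  obtain ⟨p, hp, hyp⟩ := exists_polar_sep (nondeg₀ hrat hQ) hy
  refine ⟨p - form₀ hrat p • y, ?_, ?_, ?_, ?_⟩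
  · simp [map_sub_eq, QuadraticMap.map_smul, hyy, polar_smul_right, polar_comm (form₀ hrat) p y, hyp]
  · simp [polar_sub_right, polar_smul_right, hyp, polar_self_mul, hyy]
  · rw [polar_sub_right, polar_smul_right, hxy, hp x (Submodule.subset_span (by simp))]; simp
  · rw [polar_sub_right, polar_smul_right, hzy, hp z (Submodule.subset_span (by simp))]; simp

omit hQ in
/-- A non-zero singular vector over the subfield orthogonal to few given ones. -/
lemma exists_singular_perp [Finite F] (hn : 9 ≤ Fintype.card ι) {j : ℕ} (hj : j ≤ 6)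
    (vs : Fin j → (ι → F₀)) :
    ∃ t : ι → F₀, t ≠ 0 ∧ form₀ hrat t = 0 ∧ ∀ i, polar (form₀ hrat) (vs i) t = 0 := by
  obtain ⟨t, ht0, ht, h⟩ := CfsgLib.ClassicalForms.exists_singular_ker (form₀ hrat)
    (fun i => polarBilin (form₀ hrat) (vs i))
    (by rw [Module.finrank_fintype_fun_eq_card]; omega)
  exact ⟨t, ht0, ht, fun i => by simpa using h i⟩

include hrat in
/-- Singular vectors span the orthogonal of two vectors. -/
lemma singular_induction {x y t : ι → F₀} (hxy : polar (form₀ hrat) x t = 0)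
    (hyt : polar (form₀ hrat) y t = 0) (ht : t ∉ Submodule.span F₀ {x, y})
    (htt : form₀ hrat t = 0) {C : (ι → F₀) → Prop}
    (hsing : ∀ v, form₀ hrat v = 0 → polar (form₀ hrat) x v = 0 → polar (form₀ hrat) y v = 0 → C v)
    (hadd : ∀ u v, C u → C v → C (u + v)) (v : ι → F₀) (hxv : polar (form₀ hrat) x v = 0)
    (hyv : polar (form₀ hrat) y v = 0) : C v := by
  have one : ∀ v, polar (form₀ hrat) x v = 0 → polar (form₀ hrat) y v = 0 →
      polar (form₀ hrat) v t ≠ 0 → C v := by
    intro v hxv hyv hvt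
    set k := form₀ hrat v / polar (form₀ hrat) v t
    have h1 : form₀ hrat (v - k • t) = 0 := by
      simp [map_sub_eq, QuadraticMap.map_smul, htt, polar_smul_right, k, hvt]
    have := hadd _ _ (hsing _ h1 (by simp [polar_sub_right, polar_smul_right, hxv, hxy])
        (by simp [polar_sub_right, polar_smul_right, hyv, hyt]))
      (hsing (k • t) (by simp [QuadraticMap.map_smul, htt]) (by simp [polar_smul_right, hxy])
        (by simp [polar_smul_right, hyt]))
    rwa [sub_add_cancel] at this
  by_cases hvt : polar (form₀ hrat) v t = 0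
  swap
  · exact one v hxv hyv hvt
  obtain ⟨w, hw, htw⟩ := exists_polar_sep (nondeg₀ hrat hQ) ht
  have hxw := hw x (Submodule.subset_span (by simp))
  have hyw := hw y (Submodule.subset_span (by simp))
  have hwt : polar (form₀ hrat) w t = 1 := by rw [polar_comm]; exact htw
  have := hadd _ _ (one (v + w) (by simp [polar_add_right, hxv, hxw])
      (by simp [polar_add_right, hyv, hyw]) (by simp [polar_add_left, hvt, hwt]))
    (one (-w) (by simp [polar_neg_right, hxw]) (by simp [polar_neg_right, hyw])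
      (by simp [polar_neg_left, hwt]))
  rwa [add_neg_cancel_right] at this

include hrat in
/-- Singular vectors span everything. -/
lemma singular_induction_top [Finite F] (hn : 9 ≤ Fintype.card ι) {C : (ι → F₀) → Prop}
    (hsing : ∀ v, form₀ hrat v = 0 → C v) (hadd : ∀ u v, C u → C v → C (u + v)) (v : ι → F₀) :
    C v := by
  obtain ⟨t, ht0, ht, -⟩ := exists_singular_perp hrat hn (j := 0) (by omega) Fin.elim0
  exact singular_induction hrat hQ (x := 0) (y := 0) (polar₀_eq_zero hrat |>.2 (by simp [SSubfld.em_zero]))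
    (polar₀_eq_zero hrat |>.2 (by simp [SSubfld.em_zero])) (by simpa using ht0) ht
    (fun v hv _ _ => hsing v hv) hadd v (polar₀_eq_zero hrat |>.2 (by simp [SSubfld.em_zero]))
    (polar₀_eq_zero hrat |>.2 (by simp [SSubfld.em_zero]))

include hrat in
/-- A vector with products in the subfield against all vectors over it is over it. -/
lemma rat_of_polar {v : ι → F} (h : ∀ u : ι → F₀, polar Q v (em u) ∈ F₀) :
    ∃ v₀ : ι → F₀, v = em v₀ := by
  have hr : ∀ w, RatV F₀ w → Q w ∈ F₀ := hrat
  let ψ : (ι → F₀) →ₗ[F₀] F₀ :=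
    { toFun := fun u => ⟨polar Q v (em u), h u⟩
      map_add' := fun a b => Subtype.ext (by simp [SSubfld.em_add, polar_add_right])
      map_smul' := fun c a => Subtype.ext (by simp [SSubfld.em_smul, polar_smul_right]) }
  obtain ⟨w, hw⟩ := exists_eq_polar (nondeg₀ hr hQ) ψ
  refine ⟨w, sub_eq_zero.1 (eq_zero_of_rat hQ (F₀ := F₀) fun u => ?_)⟩
  have e : polar Q (em u) (em w) = polar Q v (em u) := by
    rw [← coe_polar₀ hr, hw]; rfl
  rw [polar_sub_left, polar_comm Q (em w), e, sub_self]

/-- The plane spanned by `a` and `b` is spanned by vectors over the subfield. -/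
def RatPlane (F₀ : Subfield F) (a b : ι → F) : Prop :=
  ∃ a₀ b₀ : ι → F₀, a ∈ Submodule.span F {em a₀, em b₀} ∧ b ∈ Submodule.span F {em a₀, em b₀}

omit [Fintype ι] [DecidableEq ι] hrat hQ in
lemma combine {a a' b' : ι → F} {α β γ δ D : F} (h : a = α • a' + β • b')
    (hD : D = α * δ - γ * β) : D • b' + γ • a = α • (γ • a' + δ • b') := by
  subst h; subst hD; module

omit hrat hQ in
/-- The root element of a pair depends on the pair through a determinant. -/
lemma rs_basis {a b a' b' : ι → F} {α β γ δ : F} (ha : Q a' = 0) (hb : Q b' = 0)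
    (hab : polar Q a' b' = 0) (h1 : a = α • a' + β • b') (h2 : b = γ • a' + δ • b') :
    rs Q a b = rs Q a' ((α * δ - γ * β) • b') := by
  subst h1; subst h2
  have hba : polar Q b' a' = 0 := by rw [polar_comm]; exact hab
  apply gl_ext
  intro v
  rw [ap_rs' (by simp [map_add_eq, QuadraticMap.map_smul, ha, hb, polar_smul_left, polar_smul_right, hab])
      (by simp [map_add_eq, QuadraticMap.map_smul, ha, hb, polar_smul_left, polar_smul_right, hab])
      (by simp [polar_add_left, polar_add_right, polar_smul_left, polar_smul_right, hab, hba,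
        polar_self_mul, ha, hb]),
    ap_rs' ha (by simp [QuadraticMap.map_smul, hb]) (by simp [polar_smul_right, hab])]
  simp only [polar_add_right, polar_smul_right, smul_eq_mul]
  module

include hrat in
/-- A plane not over the subfield has a singular frame over the subfield seeing it. -/
lemma exists_frame [Finite F] (hn : 9 ≤ Fintype.card ι) {a b : ι → F} (ha : Q a = 0)
    (hb : Q b = 0) (hab : polar Q a b = 0) (hb_notMem : ∀ c : F, b ≠ c • a) (ha0 : a ≠ 0)
    (hne : ¬ RatPlane F₀ a b) :
    ∃ (x y z : ι → F₀) (a' b' : ι → F) (D : F), Triple (form₀ hrat) x y z ∧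
      Q a' = 0 ∧ Q b' = 0 ∧ polar Q a' b' = 0 ∧ D ≠ 0 ∧ rs Q a b = rs Q a' (D • b') ∧
      polar Q a' (em x) = 1 ∧ polar Q a' (em y) = 0 ∧
      polar Q b' (em x) = 0 ∧ polar Q b' (em y) = 1 ∧
      (polar Q a' (em z) ∉ F₀ ∨ polar Q b' (em z) ∉ F₀) := by
  by_contra hK
  push Not at hK
  set Q₀ := form₀ hrat with hQ₀
  obtain ⟨x, hxx, hax⟩ : ∃ x : ι → F₀, Q₀ x = 0 ∧ polar Q a (em x) ≠ 0 := by
    by_contra h
    push Not at h
    exact ha0 (eq_zero_of_rat hQ (F₀ := F₀) (singular_induction_top hrat hQ hn h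
      (fun u v hu hv => by rw [SSubfld.em_add, polar_add_right, hu, hv, add_zero])))
  have hx0 : x ≠ 0 := fun e => hax (by simp [e, SSubfld.em_zero])
  set b₁ := polar Q a (em x) • b - polar Q b (em x) • a with hb₁
  have hb₁x : polar Q b₁ (em x) = 0 := by
    rw [hb₁, polar_sub_left, polar_smul_left, polar_smul_left, smul_eq_mul, smul_eq_mul]; ring
  obtain ⟨y, hyy, hxy, hby⟩ : ∃ y : ι → F₀, Q₀ y = 0 ∧ polar Q₀ x y = 0 ∧
      polar Q b₁ (em y) ≠ 0 := by
    by_contra h
    push Not at h
    obtain ⟨d, hd, hxd, -, -⟩ := exists_dual hrat hQ (x := 0) (y := x) (z := 0) (by simpa using hx0)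
      hxx ((polar₀_eq_zero hrat).2 (by simp [SSubfld.em_zero]))
      ((polar₀_eq_zero hrat).2 (by simp [SSubfld.em_zero]))
    obtain ⟨t, ht0, ht, htp⟩ := exists_singular_perp hrat hn (j := 2) (by omega) ![x, d]
    have htx : polar Q₀ x t = 0 := htp 0
    have htd : polar Q₀ d t = 0 := htp 1
    have hts : t ∉ Submodule.span F₀ {x, x} := by
      intro e
      rw [Set.pair_eq_singleton] at e
      obtain ⟨c, hc⟩ := Submodule.mem_span_singleton.1 e
      rw [← hc, polar_smul_right, polar_comm Q₀ d x, hxd, smul_eq_mul, mul_one] at htd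
      exact ht0 (by rw [← hc, htd, zero_smul])
    have hall : ∀ v, polar Q₀ x v = 0 → polar Q b₁ (em v) = 0 := fun v hv =>
      singular_induction hrat hQ htx htx hts ht (C := fun v => polar Q b₁ (em v) = 0)
        (fun v hv hxv _ => h v hv hxv)
        (fun u v hu hv => by rw [SSubfld.em_add, polar_add_right, hu, hv, add_zero]) v hv hv
    -- so `b₁` is a multiple of `x`
    have e : b₁ = polar Q b₁ (em d) • em x := by
      refine sub_eq_zero.1 (eq_zero_of_rat hQ (F₀ := F₀) fun v => ?_)
      have h1 := hall (v - polar Q₀ x v • d) (by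
        rw [polar_sub_right, polar_smul_right, hxd, smul_eq_mul, mul_one, sub_self])
      rw [SSubfld.em_sub, SSubfld.em_smul, polar_sub_right, polar_smul_right, smul_eq_mul,
        sub_eq_zero] at h1
      rw [polar_sub_left, polar_smul_left, smul_eq_mul, h1, ← coe_polar₀ hrat]
      ring
    have h2 : polar Q a b₁ = 0 := by
      rw [hb₁, polar_sub_right, polar_smul_right, polar_smul_right, hab, polar_self_mul, ha]
      simp
    rw [e, polar_smul_right, smul_eq_mul, mul_eq_zero] at h2
    rcases h2 with h2 | h2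
    · rw [e, h2, zero_smul] at hb₁
      apply hb_notMem (polar Q b (em x) / polar Q a (em x))
      have h3 := congrArg (fun z => (polar Q a (em x))⁻¹ • z) hb₁.symm
      simp only [smul_sub, smul_smul, inv_mul_cancel₀ hax, one_smul, smul_zero, sub_eq_zero] at h3
      exact h3.trans (by rw [div_eq_inv_mul])
    · exact hax h2
  -- the normalised basis
  set b' := (polar Q b₁ (em y))⁻¹ • b₁ with hb'
  set a' := (polar Q a (em x))⁻¹ • (a - polar Q a (em y) • b') with ha'
  have hab' : polar Q b a = 0 := by rw [polar_comm]; exact hab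
  have haa : polar Q a a = 0 := by simp [polar_self_mul, ha]
  have hbb : polar Q b b = 0 := by simp [polar_self_mul, hb]
  have hQb' : Q b' = 0 := by
    simp [hb', hb₁, QuadraticMap.map_smul, map_sub_eq, ha, hb, polar_smul_left, polar_smul_right,
      hab']
  have hQa' : Q a' = 0 := by
    simp [ha', hb', hb₁, QuadraticMap.map_smul, map_sub_eq, ha, hb, polar_smul_left,
      polar_smul_right, polar_sub_left, polar_sub_right, hab, hab', haa, hbb]
  have hpab : polar Q a' b' = 0 := by
    simp [ha', hb', hb₁, polar_smul_left, polar_smul_right, polar_sub_left, polar_sub_right, hab,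
      hab', haa, hbb]
  have hbx : polar Q b' (em x) = 0 := by rw [hb', polar_smul_left, hb₁x, smul_zero]
  have hby' : polar Q b' (em y) = 1 := by
    rw [hb', polar_smul_left, smul_eq_mul, inv_mul_cancel₀ hby]
  have hax' : polar Q a' (em x) = 1 := by
    rw [ha', polar_smul_left, polar_sub_left, polar_smul_left, hbx, smul_zero, sub_zero,
      smul_eq_mul, inv_mul_cancel₀ hax]
  have hay' : polar Q a' (em y) = 0 := by
    rw [ha', polar_smul_left, polar_sub_left, polar_smul_left, hby', smul_eq_mul, smul_eq_mul,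
      mul_one, sub_self, mul_zero]
  set D := polar Q b₁ (em y)
  have haC : a = polar Q a (em x) • a' + polar Q a (em y) • b' := by
    rw [ha', smul_smul, mul_inv_cancel₀ hax, one_smul, sub_add_cancel]
  have hD : D = polar Q a (em x) * polar Q b (em y) - polar Q b (em x) * polar Q a (em y) := by
    show polar Q b₁ (em y) = _
    rw [hb₁, polar_sub_left, polar_smul_left, polar_smul_left, smul_eq_mul, smul_eq_mul]
  have hbC : b = polar Q b (em x) • a' + polar Q b (em y) • b' := by
    have e1 : polar Q a (em x) • b = D • b' + polar Q b (em x) • a := by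
      rw [hb', smul_smul, mul_inv_cancel₀ hby, one_smul, hb₁, sub_add_cancel]
    exact smul_right_injective (ι → F) hax (e1.trans (combine haC hD))
  have hrs : rs Q a b = rs Q a' (D • b') := by
    rw [hD]
    exact rs_basis hQa' hQb' hpab haC hbC
  -- every frame gives values in the subfield
  have K : ∀ (x y : ι → F₀) (a' b' : ι → F) (D : F), Q₀ x = 0 → Q₀ y = 0 → polar Q₀ x y = 0 →
      Q a' = 0 → Q b' = 0 → polar Q a' b' = 0 → D ≠ 0 → rs Q a b = rs Q a' (D • b') →
      polar Q a' (em x) = 1 → polar Q a' (em y) = 0 → polar Q b' (em x) = 0 →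
      polar Q b' (em y) = 1 → ∀ v, polar Q₀ x v = 0 → polar Q₀ y v = 0 →
      polar Q a' (em v) ∈ F₀ ∧ polar Q b' (em v) ∈ F₀ := by
    intro x y a' b' D hxx hyy hxy hQa hQb hpab hD hrs h1 h2 h3 h4
    have hyx : polar Q₀ y x = 0 := by rw [polar_comm]; exact hxy
    have hx0 : x ≠ 0 := fun e => by
      rw [e, SSubfld.em_zero] at h1; simp at h1
    have hy0 : y ≠ 0 := fun e => by
      rw [e, SSubfld.em_zero] at h4; simp at h4
    have hxy' : x ∉ Submodule.span F₀ {y, y} := by
      intro e
      rw [Set.pair_eq_singleton] at e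
      obtain ⟨c, hc⟩ := Submodule.mem_span_singleton.1 e
      rw [← hc, SSubfld.em_smul, polar_smul_right, h2, smul_zero] at h1
      exact zero_ne_one h1
    have hyx' : y ∉ Submodule.span F₀ {x, x} := by
      intro e
      rw [Set.pair_eq_singleton] at e
      obtain ⟨c, hc⟩ := Submodule.mem_span_singleton.1 e
      rw [← hc, SSubfld.em_smul, polar_smul_right, h3, smul_zero] at h4
      exact zero_ne_one h4
    obtain ⟨dx, -, hdx, hdx', -⟩ := exists_dual hrat hQ hxy' hxx hyx hyx
    obtain ⟨dy, -, hdy, hdy', -⟩ := exists_dual hrat hQ hyx' hyy hxy hxy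
    obtain ⟨t, ht0, ht, htp⟩ := exists_singular_perp hrat hn (j := 4) (by omega) ![x, y, dx, dy]
    have ht' : t ∉ Submodule.span F₀ {x, y} := by
      intro e
      obtain ⟨p, q, rfl⟩ := Submodule.mem_span_pair.1 e
      have e1 : polar Q₀ dx (p • x + q • y) = 0 := htp 2
      have e2 : polar Q₀ dy (p • x + q • y) = 0 := htp 3
      rw [polar_add_right, polar_smul_right, polar_smul_right, polar_comm Q₀ dx x, hdx,
        polar_comm Q₀ dx y, hdx'] at e1
      rw [polar_add_right, polar_smul_right, polar_smul_right, polar_comm Q₀ dy x, hdy',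
        polar_comm Q₀ dy y, hdy] at e2
      simp only [smul_eq_mul, mul_one, mul_zero, add_zero, zero_add] at e1 e2
      exact ht0 (by simp [e1, e2])
    refine singular_induction hrat hQ (htp 0) (htp 1) ht' ht ?_ (fun u v hu hv => ?_)
    · intro v hvv hxv hyv
      exact hK x y v a' b' D ⟨hxx, hyy, hvv, hxy, hxv, hyv⟩ hQa hQb hpab hD hrs h1 h2 h3 h4
    · rw [SSubfld.em_add, polar_add_right, polar_add_right]
      exact ⟨add_mem hu.1 hv.1, add_mem hu.2 hv.2⟩
  -- values on the orthogonal of one vector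
  have side : ∀ (x y : ι → F₀) (a' b' : ι → F) (D : F), Q₀ x = 0 → Q₀ y = 0 → polar Q₀ x y = 0 →
      Q a' = 0 → Q b' = 0 → polar Q a' b' = 0 → D ≠ 0 → rs Q a b = rs Q a' (D • b') →
      polar Q a' (em x) = 1 → polar Q a' (em y) = 0 → polar Q b' (em x) = 0 →
      polar Q b' (em y) = 1 → ∀ v, polar Q₀ x v = 0 →
      polar Q a' (em v) ∈ F₀ ∧ polar Q b' (em v) ∈ F₀ := by
    intro x y a' b' D hxx hyy hxy hQa hQb hpab hD hrs h1 h2 h3 h4
    have hyx : polar Q₀ y x = 0 := by rw [polar_comm]; exact hxy
    have hxy' : x ∉ Submodule.span F₀ {y, y} := by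
      intro e
      rw [Set.pair_eq_singleton] at e
      obtain ⟨c, hc⟩ := Submodule.mem_span_singleton.1 e
      rw [← hc, SSubfld.em_smul, polar_smul_right, h2, smul_zero] at h1
      exact zero_ne_one h1
    have hyx' : y ∉ Submodule.span F₀ {x, x} := by
      intro e
      rw [Set.pair_eq_singleton] at e
      obtain ⟨c, hc⟩ := Submodule.mem_span_singleton.1 e
      rw [← hc, SSubfld.em_smul, polar_smul_right, h3, smul_zero] at h4
      exact zero_ne_one h4
    obtain ⟨dx, -, hdx, hdx', -⟩ := exists_dual hrat hQ hxy' hxx hyx hyx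
    obtain ⟨dy, -, hdy, hdy', -⟩ := exists_dual hrat hQ hyx' hyy hxy hxy
    obtain ⟨t, ht0, ht, htp⟩ := exists_singular_perp hrat hn (j := 4) (by omega) ![x, y, dx, dy]
    have hxt : polar Q₀ x t = 0 := htp 0
    have hyt : polar Q₀ y t = 0 := htp 1
    have ht' : t ∉ Submodule.span F₀ {x, y} := by
      intro e
      obtain ⟨p, q, rfl⟩ := Submodule.mem_span_pair.1 e
      have e1 : polar Q₀ dx (p • x + q • y) = 0 := htp 2
      have e2 : polar Q₀ dy (p • x + q • y) = 0 := htp 3
      rw [polar_add_right, polar_smul_right, polar_smul_right, polar_comm Q₀ dx x, hdx,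
        polar_comm Q₀ dx y, hdx'] at e1
      rw [polar_add_right, polar_smul_right, polar_smul_right, polar_comm Q₀ dy x, hdy',
        polar_comm Q₀ dy y, hdy] at e2
      simp only [smul_eq_mul, mul_one, mul_zero, add_zero, zero_add] at e1 e2
      exact ht0 (by simp [e1, e2])
    -- a second singular vector with non-degenerate value
    obtain ⟨z₀, hz₀, hxz, hyz, hzs, hc⟩ : ∃ z₀ : ι → F₀, Q₀ z₀ = 0 ∧ polar Q₀ x z₀ = 0 ∧
        polar Q₀ y z₀ = 0 ∧ z₀ ∉ Submodule.span F₀ {x, y} ∧ 1 + polar Q b' (em z₀) ≠ 0 := by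
      by_cases hc : 1 + polar Q b' (em t) = 0
      · refine ⟨t + y, ?_, ?_, ?_, fun e => ht' ?_, ?_⟩
        · simp [map_add_eq, hyy, polar_comm Q₀ t y, hyt]; exact ht
        · simp [polar_add_right, hxt, hxy]
        · simp [polar_add_right, hyt, polar_self_mul, hyy]
        · simpa using Submodule.sub_mem _ e (Submodule.subset_span (by simp : y ∈ ({x, y} : Set _)))
        · rw [SSubfld.em_add, polar_add_right, h4, ← add_assoc, hc, zero_add]; exact one_ne_zero
      · exact ⟨t, ht, hxt, hyt, ht', hc⟩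
    set c := 1 + polar Q b' (em z₀) with hcdef
    set b'' := c⁻¹ • b' with hb''
    set a'' := a' - (polar Q a' (em z₀) / c) • b' with ha''
    have hbb' : polar Q b' b' = 0 := by simp [polar_self_mul, hQb]
    have hba' : polar Q b' a' = 0 := by rw [polar_comm]; exact hpab
    have hrs' : rs Q a b = rs Q a'' ((D * c) • b'') := by
      rw [hrs, hb'', smul_smul, mul_assoc, mul_inv_cancel₀ hc, mul_one]
      have hQa2 : Q a'' = 0 := by
        simp [ha'', map_sub_eq, QuadraticMap.map_smul, hQa, hQb, polar_smul_right, hpab]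
      have hp2 : polar Q a'' (D • b') = 0 := by
        simp [ha'', polar_sub_left, polar_smul_left, polar_smul_right, hpab, hbb']
      apply gl_ext
      intro v
      rw [ap_rs' hQa (by simp [QuadraticMap.map_smul, hQb]) (by simp [polar_smul_right, hpab]),
        ap_rs' hQa2 (by simp [QuadraticMap.map_smul, hQb]) hp2, ha'']
      simp only [polar_sub_right, polar_smul_right, smul_eq_mul]
      module
    have k2 := K x (y + z₀) a'' b'' (D * c) hxx
      (by simp [map_add_eq, hyy, hz₀, hyz]) (by simp [polar_add_right, hxy, hxz])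
      (by simp [ha'', map_sub_eq, QuadraticMap.map_smul, hQa, hQb, polar_smul_right, hpab])
      (by simp [hb'', QuadraticMap.map_smul, hQb])
      (by simp [ha'', hb'', polar_sub_left, polar_smul_left, polar_smul_right, hpab, hbb'])
      (mul_ne_zero hD hc) hrs'
      (by simp [ha'', polar_sub_left, polar_smul_left, h1, h3])
      (by
        rw [ha'', SSubfld.em_add, polar_sub_left, polar_smul_left, polar_add_right, polar_add_right,
          h2, h4, zero_add, ← hcdef, smul_eq_mul, div_mul_cancel₀ _ hc, sub_self])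
      (by simp [hb'', polar_smul_left, h3])
      (by rw [hb'', SSubfld.em_add, polar_smul_left, polar_add_right, h4, ← hcdef, smul_eq_mul,
        inv_mul_cancel₀ hc])
    have k1 := K x y a' b' D hxx hyy hxy hQa hQb hpab hD hrs h1 h2 h3 h4
    intro v hxv
    obtain ⟨w, hw, hwz⟩ := exists_polar_sep (nondeg₀ hrat hQ) hzs
    have hxw : polar Q₀ x w = 0 := hw x (Submodule.subset_span (by simp))
    have hyw : polar Q₀ y w = 0 := hw y (Submodule.subset_span (by simp))
    set s : F₀ := polar Q₀ (y + z₀) v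
    obtain ⟨g1, g2⟩ := k1 (s • w) (by simp [polar_smul_right, hxw]) (by simp [polar_smul_right, hyw])
    obtain ⟨h5, h6⟩ := k2 (v - s • w) (by simp [polar_sub_right, polar_smul_right, hxv, hxw]) (by
      rw [polar_sub_right, polar_smul_right, polar_add_left (form₀ hrat) y z₀ w, hyw, hwz, zero_add,
        smul_eq_mul, mul_one, sub_self])
    have hv : em v = em (v - s • w) + em (s • w) := by rw [← SSubfld.em_add, sub_add_cancel]
    have hz : 1 + polar Q b' (em z₀) ∈ F₀ := add_mem (one_mem F₀) (k1 z₀ hxz hyz).2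
    have hb6 : polar Q b' (em (v - s • w)) ∈ F₀ := by
      have := mul_mem hz h6
      rwa [← hcdef, hb'', polar_smul_left, smul_eq_mul, mul_inv_cancel_left₀ hc] at this
    have ha6 : polar Q a' (em (v - s • w)) ∈ F₀ := by
      have := add_mem h5 (mul_mem (div_mem (k1 z₀ hxz hyz).1 hz) hb6)
      rwa [← hcdef, ha'', polar_sub_left, polar_smul_left, smul_eq_mul, sub_add_cancel] at this
    rw [hv, polar_add_right, polar_add_right]
    exact ⟨add_mem ha6 g1, add_mem hb6 g2⟩
  have hyx : polar Q₀ y x = 0 := by rw [polar_comm]; exact hxy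
  have hrs2 : rs Q a b = rs Q b' ((-D) • a') := by rw [hrs, rs_smul_swap hQa' hQb' hpab]
  have k1 := side x y a' b' D hxx hyy hxy hQa' hQb' hpab hby hrs hax' hay' hbx hby'
  have k2 := side y x b' a' (-D) hyy hxx hyx hQb' hQa' (by rw [polar_comm]; exact hpab)
    (neg_ne_zero.2 hby) hrs2 hby' hbx hay' hax'
  have hxyne : x ∉ Submodule.span F₀ {y, y} := by
    intro e
    rw [Set.pair_eq_singleton] at e
    obtain ⟨c, hc⟩ := Submodule.mem_span_singleton.1 e
    rw [← hc, SSubfld.em_smul, polar_smul_right, hay', smul_zero] at hax'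
    exact zero_ne_one hax'
  obtain ⟨d, hd, hxd, hyd, -⟩ := exists_dual hrat hQ hxyne hxx hyx hyx
  have hall : ∀ v : ι → F₀, polar Q a' (em v) ∈ F₀ ∧ polar Q b' (em v) ∈ F₀ := by
    intro v
    set s : F₀ := polar Q₀ x v
    obtain ⟨g1, g2⟩ := k2 (s • d) (by simp [polar_smul_right]; exact Or.inr hyd)
    obtain ⟨h5, h6⟩ := k1 (v - s • d) (by
      rw [polar_sub_right, polar_smul_right, hxd, smul_eq_mul, mul_one, sub_self])
    have hv : em v = em (v - s • d) + em (s • d) := by rw [← SSubfld.em_add, sub_add_cancel]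
    rw [hv, polar_add_right, polar_add_right]
    exact ⟨add_mem h5 g2, add_mem h6 g1⟩
  obtain ⟨a₀, ha₀⟩ := rat_of_polar hrat hQ fun v => (hall v).1
  obtain ⟨b₀, hb₀⟩ := rat_of_polar hrat hQ fun v => (hall v).2
  exact hne ⟨a₀, b₀,
    Submodule.mem_span_pair.2 ⟨_, _, by rw [← ha₀, ← hb₀]; exact haC.symm⟩,
    Submodule.mem_span_pair.2 ⟨_, _, by rw [← ha₀, ← hb₀]; exact hbC.symm⟩⟩

end OSubfld

end CfsgLib.Geometric.Orth
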