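import Cfsg.Agent.Lib.Geometric.Orth.Subfield

/-!
Root elements in an overgroup of an orthogonal subfield group: coefficients, and planes over the
subfield.
-/

set_option autoImplicit false

namespace CfsgLib.Geometric.Orth

open Matrix QuadraticMap CfsgLib.ClassicalForms
open CfsgLib.ClassicalLinear (upS upS_coe)
open CfsgLib.SL2.Dickson (lowS lowS_coe)
open scoped MatrixGroups

variable {ι : Type} [Fintype ι] [DecidableEq ι] {F : Type*} [Field F]

namespace OSubfld

open LSubfld (RatV)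
open SSubfld (em em_add em_sub em_smul em_zero)

variable {Q : QuadraticForm F (ι → F)} {F₀ : Subfield F} (hrat : ∀ v, RatV F₀ v → Q v ∈ F₀)

/-- Two vectors independent over the subfield. -/
def Ind (x z : ι → F₀) : Prop := ∀ p q : F₀, p • x + q • z = 0 → p = 0 ∧ q = 0

/-- Three vectors independent over the subfield. -/
def Ind₃ (x y z : ι → F₀) : Prop :=
  ∀ p q s : F₀, p • x + q • y + s • z = 0 → p = 0 ∧ q = 0 ∧ s = 0

omit [Fintype ι] [DecidableEq ι] in
lemma Ind₃.swap₂₃ {x y z : ι → F₀} (h : Ind₃ x y z) : Ind₃ x z y := fun p q s e => by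
  obtain ⟨h1, h2, h3⟩ := h p s q (by rw [← e]; abel)
  exact ⟨h1, h3, h2⟩

omit [Fintype ι] [DecidableEq ι] in
lemma Ind₃.swap₁₂ {x y z : ι → F₀} (h : Ind₃ x y z) : Ind₃ y x z := fun p q s e => by
  obtain ⟨h1, h2, h3⟩ := h q p s (by rw [← e]; abel)
  exact ⟨h2, h1, h3⟩

omit [Fintype ι] [DecidableEq ι] in
lemma Ind₃.ind₁₃ {x y z : ι → F₀} (h : Ind₃ x y z) : Ind x z := fun p q e => by
  obtain ⟨h1, -, h3⟩ := h p 0 q (by rw [zero_smul, add_zero]; exact e)
  exact ⟨h1, h3⟩

omit [Fintype ι] [DecidableEq ι] in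
lemma Ind₃.notMem {x y z : ι → F₀} (h : Ind₃ x y z) : y ∉ Submodule.span F₀ {x, z} := fun e => by
  obtain ⟨p, q, hpq⟩ := Submodule.mem_span_pair.1 e
  exact neg_ne_zero.2 one_ne_zero (h p (-1) q (by rw [← hpq]; module)).2.1

omit [Fintype ι] [DecidableEq ι] in
lemma Triple.swap₂₃ {G : Type*} [Field G] {R : QuadraticForm G (ι → G)} {x y z : ι → G}
    (T : Triple R x y z) : Triple R x z y :=
  ⟨T.hx, T.hz, T.hy, T.hxz, T.hxy, by rw [polar_comm]; exact T.hyz⟩

omit [Fintype ι] [DecidableEq ι] in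
lemma Triple.swap₁₂ {G : Type*} [Field G] {R : QuadraticForm G (ι → G)} {x y z : ι → G}
    (T : Triple R x y z) : Triple R y x z :=
  ⟨T.hy, T.hx, T.hz, by rw [polar_comm]; exact T.hxy, T.hyz, T.hxz⟩

lemma triple_em {x y z : ι → F₀} (T : Triple (form₀ hrat) x y z) :
    Triple Q (em x) (em y) (em z) :=
  ⟨(form₀_eq_zero hrat).1 T.hx, (form₀_eq_zero hrat).1 T.hy, (form₀_eq_zero hrat).1 T.hz,
    (polar₀_eq_zero hrat).1 T.hxy, (polar₀_eq_zero hrat).1 T.hxz, (polar₀_eq_zero hrat).1 T.hyz⟩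

variable (hQ : Nondeg Q) {M : Subgroup (GL ι F)} (hMI : M ≤ Cfsg.isometryGroup F (⇑Q))
  (hM : ∀ u w : ι → F₀, form₀ hrat u = 0 → polar (form₀ hrat) u w = 0 → rs Q (em u) (em w) ∈ M)

include hQ hMI hM

/-- A root element at `x` spreads to the vectors orthogonal to `x` and `z`. -/
lemma spread {x z y : ι → F₀} (T : Triple (form₀ hrat) x z y) (I : Ind₃ x z y) {c : F}
    (h : rs Q (em x) (c • em z) ∈ M) (k : F₀) : rs Q (em x) ((c * k) • em y) ∈ M := by
  obtain ⟨d, hd, hzd, hxd, hyd⟩ := exists_dual hrat hQ I.notMem T.hy T.hxy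
    (by rw [polar_comm]; exact T.hyz)
  have E := triple_em hrat T
  have hd' : Q (em d) = 0 := (form₀_eq_zero hrat).1 hd
  have hdy : polar (form₀ hrat) d y = 0 := by rw [polar_comm]; exact hyd
  have hy' : polar Q (em d) ((k : F) • em y) = 0 := by
    rw [polar_smul_right, (polar₀_eq_zero hrat).1 hdy, smul_zero]
  set g := rs Q (em d) ((k : F) • em y) with hg
  have hgM : g ∈ M := by
    rw [hg, ← em_smul]
    exact hM d (k • y) hd (by rw [polar_smul_right, hdy, smul_zero])
  have hky : Q ((k : F) • em y) = 0 := by simp [QuadraticMap.map_smul, E.hz]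
  have gx : ap g (em x) = em x := by
    rw [hg, ap_rs' hd' hky hy', (polar₀_eq_zero hrat).1 hxd, polar_smul_right, E.hxz]
    simp
  have gz : ap g (c • em z) = c • em z + (c * k) • em y := by
    rw [ap_smul, hg, ap_rs' hd' hky hy', (polar₀_eq_one hrat).1 hzd, polar_smul_right, E.hyz]
    simp [smul_smul]
  have h2 := mul_mem (mul_mem hgM h) (inv_mem hgM)
  rw [conj_rs (hMI hgM) E.hx (by rw [polar_smul_right, E.hxy, smul_zero]), gx, gz,
    ← rs_add E.hx (by rw [polar_smul_right, E.hxy, smul_zero])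
      (by rw [polar_smul_right, E.hxz, smul_zero])] at h2
  have h3 := mul_mem (inv_mem h) h2
  rwa [inv_mul_cancel_left] at h3

variable (hΛ : ∀ x z : ι → F₀, form₀ hrat x = 0 → form₀ hrat z = 0 → polar (form₀ hrat) x z = 0 →
  Ind x z → ∀ c : F, rs Q (em x) (c • em z) ∈ M → c ∈ F₀)

include hΛ

omit [Fintype ι] [DecidableEq ι] hQ hMI hM hΛ in
lemma mem_of_sq_mem [Finite F] (h2 : (2 : F) = 0) {x : F} (hx : x * x ∈ F₀) : x ∈ F₀ := by
  have : Fintype F₀ := Fintype.ofFinite F₀
  have hc : ringChar F₀ = 2 := by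
    have h : ((2 : ℕ) : F₀) = 0 := by
      apply Subtype.ext
      simpa [show ((2 : F₀) : F) = 2 from map_ofNat F₀.subtype 2] using h2
    exact CharP.ringChar_of_prime_eq_zero Nat.prime_two h
  obtain ⟨y, hy⟩ := FiniteField.isSquare_of_char_two hc ⟨x * x, hx⟩
  have hy' : x * x = (y : F) * y := congrArg Subtype.val hy
  have : (x - y) * (x - y) = 0 := by linear_combination hy' + ((y : F) * y - x * y) * h2
  rw [sub_eq_zero.1 (mul_self_eq_zero.1 this)]
  exact y.2

lemma el_coeff₁ {x y z : ι → F₀} (T : Triple (form₀ hrat) x y z) (I : Ind₃ x y z) {p q s : F}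
    (h : el Q p q s (em x) (em y) (em z) ∈ M) : p ∈ F₀ := by
  obtain ⟨d, hd, hyd, hxd, hzd⟩ := exists_dual hrat hQ I.notMem T.hy T.hxy
    (by rw [polar_comm]; exact T.hyz)
  have E := triple_em hrat T
  have hd' : Q (em d) = 0 := (form₀_eq_zero hrat).1 hd
  have hdz : polar (form₀ hrat) d z = 0 := by rw [polar_comm]; exact hzd
  have hdz' := (polar₀_eq_zero hrat).1 hdz
  have hgM : rs Q (em d) (em z) ∈ M := hM d z hd hdz
  have gx : ap (rs Q (em d) (em z)) (em x) = em x := by
    rw [ap_rs' hd' E.hz hdz', (polar₀_eq_zero hrat).1 hxd, E.hxz]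
    simp
  have gy : ap (rs Q (em d) (em z)) (em y) = em y + em z := by
    rw [ap_rs' hd' E.hz hdz', (polar₀_eq_one hrat).1 hyd, E.hyz]
    simp
  have gz : ap (rs Q (em d) (em z)) (em z) = em z := by
    rw [ap_rs' hd' E.hz hdz', (polar₀_eq_zero hrat).1 hzd, polar_self_mul, E.hz]
    simp
  have h2 := mul_mem (mul_mem hgM h) (inv_mem hgM)
  rw [conj_el E (hMI hgM), gx, gy, gz, el_shift E] at h2
  have h3 := mul_mem h2 (inv_mem h)
  rw [el_inv E, el_mul E, add_neg_cancel, add_neg_cancel, show q + p + -q = p by ring,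
    el_second E] at h3
  exact hΛ x z T.hx T.hz T.hxz I.ind₁₃ p h3

lemma el_coeff {x y z : ι → F₀} (T : Triple (form₀ hrat) x y z) (I : Ind₃ x y z) {p q s : F}
    (h : el Q p q s (em x) (em y) (em z) ∈ M) : p ∈ F₀ ∧ q ∈ F₀ ∧ s ∈ F₀ := by
  have E := triple_em hrat T
  refine ⟨el_coeff₁ hrat hQ hMI hM hΛ T I h, ?_, ?_⟩
  · rw [el_perm₁ E] at h
    exact el_coeff₁ hrat hQ hMI hM hΛ T.swap₂₃ I.swap₂₃ h
  · rw [el_perm₂ E, el_perm₁ E.swap₁₂] at h
    exact el_coeff₁ hrat hQ hMI hM hΛ T.swap₁₂.swap₂₃ I.swap₁₂.swap₂₃ h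

omit hQ hMI hM hΛ in
/-- The root element of two vectors in the span of a triple. -/
lemma rs_eq_el {x y z : ι → F} (T : Triple Q x y z) (a₁ a₂ a₃ b₁ b₂ b₃ : F) :
    rs Q (a₁ • x + a₂ • y + a₃ • z) (b₁ • x + b₂ • y + b₃ • z) =
      el Q (a₁ * b₂ - a₂ * b₁) (a₁ * b₃ - a₃ * b₁) (a₂ * b₃ - a₃ * b₂) x y z := by
  have hyx : polar Q y x = 0 := by rw [polar_comm]; exact T.hxy
  have hzx : polar Q z x = 0 := by rw [polar_comm]; exact T.hxz
  have hzy : polar Q z y = 0 := by rw [polar_comm]; exact T.hyz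
  apply gl_ext
  intro v
  rw [ap_rs' (by simp [map_add_eq, QuadraticMap.map_smul, T.hx, T.hy, T.hz, polar_add_left,
        polar_smul_left, polar_smul_right, T.hxy, T.hxz, T.hyz])
      (by simp [map_add_eq, QuadraticMap.map_smul, T.hx, T.hy, T.hz, polar_add_left,
        polar_smul_left, polar_smul_right, T.hxy, T.hxz, T.hyz])
      (by simp [polar_add_left, polar_add_right, polar_smul_left, polar_smul_right, T.hxy, T.hxz,
        T.hyz, hyx, hzx, hzy, polar_self_mul, T.hx, T.hy, T.hz]),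
    ap_el T]
  simp only [polar_add_right, polar_smul_right, smul_eq_mul]
  module

include hrat in
/-- A root element of the overgroup sees a plane over the subfield. -/
lemma ratPlane [Finite F] (hn : 9 ≤ Fintype.card ι) {r : ℕ} (hr : r.Prime)
    (hcard : Nat.card F = Nat.card F₀ ^ r) {a b : ι → F} (ha : Q a = 0) (hb : Q b = 0)
    (hab : polar Q a b = 0) (hb' : ∀ c : F, b ≠ c • a) (ha0 : a ≠ 0) (hT : rs Q a b ∈ M) :
    RatPlane F₀ a b := by
  by_contra hne
  obtain ⟨x, y, z, a', b', D, T₀, hQa, hQb, hpab, hD, hrs, hax, hay, hbx, hby, hAB⟩ :=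
    exists_frame hrat hQ hn ha hb hab hb' ha0 hne
  have E := triple_em hrat T₀
  set A := polar Q a' (em z) with hA
  set B := polar Q b' (em z) with hB
  have I : Ind₃ x y z := by
    intro p q s h
    have h' : em (p • x + q • y + s • z) = (0 : ι → F) := by rw [h, em_zero]
    rw [em_add, em_add, em_smul, em_smul, em_smul] at h'
    have h1 : polar Q a' ((p : F) • em x + (q : F) • em y + (s : F) • em z) = 0 := by
      rw [h', polar_zero_right]
    have h2 : polar Q b' ((p : F) • em x + (q : F) • em y + (s : F) • em z) = 0 := by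
      rw [h', polar_zero_right]
    simp only [polar_add_right, polar_smul_right, hax, hay, hbx, hby, ← hA, ← hB, smul_eq_mul,
      mul_one, mul_zero, add_zero, zero_add] at h1 h2
    by_cases hs : s = 0
    · subst hs
      simp only [ZeroMemClass.coe_zero, zero_mul, add_zero] at h1 h2
      exact ⟨Subtype.ext h1, Subtype.ext h2, rfl⟩
    · exfalso
      have hs' : (s : F) ≠ 0 := fun e => hs (Subtype.ext e)
      rcases hAB with h | h
      · exact h (by
          rw [show A = -(p : F) / s by field_simp; linear_combination h1]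
          exact div_mem (neg_mem p.2) s.2)
      · exact h (by
          rw [show B = -(q : F) / s by field_simp; linear_combination h2]
          exact div_mem (neg_mem q.2) s.2)
  set r₀ := em z - A • em x - B • em y with hr₀
  let Lift : SL(2, F) → GL ι F → Prop := fun m h => ap h r₀ = r₀ ∧
    (∃ k : F, ap h (em y) = m.1 0 0 • em y + m.1 1 0 • a' + k • r₀) ∧
    (∃ k : F, ap h a' = m.1 0 1 • em y + m.1 1 1 • a' + k • r₀) ∧
    (∃ k : F, ap h (em x) = m.1 0 0 • em x - m.1 1 0 • b' + k • r₀) ∧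
    (∃ k : F, ap h b' = -(m.1 0 1) • em x + m.1 1 1 • b' + k • r₀)
  let S : Submonoid SL(2, F) :=
    { carrier := {m | ∃ h ∈ M, Lift m h}
      one_mem' := ⟨1, one_mem M, by simp, ⟨0, by simp⟩, ⟨0, by simp⟩, ⟨0, by simp⟩, ⟨0, by simp⟩⟩
      mul_mem' := by
        rintro m m' ⟨g, hg, g0, ⟨k1, g1⟩, ⟨k2, g2⟩, ⟨k3, g3⟩, ⟨k4, g4⟩⟩
          ⟨h, hh, h0, ⟨l1, h1⟩, ⟨l2, h2⟩, ⟨l3, h3⟩, ⟨l4, h4⟩⟩
        refine ⟨g * h, mul_mem hg hh, by rw [ap_mul, h0, g0],
          ⟨m'.1 0 0 * k1 + m'.1 1 0 * k2 + l1, ?_⟩, ⟨m'.1 0 1 * k1 + m'.1 1 1 * k2 + l2, ?_⟩,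
          ⟨m'.1 0 0 * k3 - m'.1 1 0 * k4 + l3, ?_⟩, ⟨-(m'.1 0 1) * k3 + m'.1 1 1 * k4 + l4, ?_⟩⟩
        · rw [ap_mul, h1, ap_add, ap_add, ap_smul, ap_smul, ap_smul, g0, g1, g2]
          simp only [Matrix.SpecialLinearGroup.coe_mul, Matrix.mul_apply, Fin.sum_univ_two]
          module
        · rw [ap_mul, h2, ap_add, ap_add, ap_smul, ap_smul, ap_smul, g0, g1, g2]
          simp only [Matrix.SpecialLinearGroup.coe_mul, Matrix.mul_apply, Fin.sum_univ_two]
          module
        · rw [ap_mul, h3, ap_add, ap_sub, ap_smul, ap_smul, ap_smul, g0, g3, g4]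
          simp only [Matrix.SpecialLinearGroup.coe_mul, Matrix.mul_apply, Fin.sum_univ_two]
          module
        · rw [ap_mul, h4, ap_add, ap_add, ap_smul, ap_smul, ap_smul, g0, g3, g4]
          simp only [Matrix.SpecialLinearGroup.coe_mul, Matrix.mul_apply, Fin.sum_univ_two]
          module }
  let G : Subgroup SL(2, F) :=
    { S with
      inv_mem' := fun {m} hm => by
        have e : m⁻¹ = m ^ (orderOf m - 1) := by
          refine inv_eq_of_mul_eq_one_right ?_
          rw [← pow_succ', Nat.sub_add_cancel (orderOf_pos m), pow_orderOf_eq_one]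
        show m⁻¹ ∈ S
        rw [e]
        exact S.pow_mem hm _ }
  have hya : polar Q (em y) a' = 0 := by rw [polar_comm]; exact hay
  have hyb : polar Q (em y) b' = 1 := by rw [polar_comm]; exact hby
  have hxa : polar Q (em x) a' = 1 := by rw [polar_comm]; exact hax
  have hxb : polar Q (em x) b' = 0 := by rw [polar_comm]; exact hbx
  have hyx : polar Q (em y) (em x) = 0 := by rw [polar_comm]; exact E.hxy
  have hzx : polar Q (em z) (em x) = 0 := by rw [polar_comm]; exact E.hxz
  have hzy : polar Q (em z) (em y) = 0 := by rw [polar_comm]; exact E.hyz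
  have hza : polar Q (em z) a' = A := by rw [polar_comm]
  have hzb : polar Q (em z) b' = B := by rw [polar_comm]
  have hba : polar Q b' a' = 0 := by rw [polar_comm]; exact hpab
  -- translations
  have hup : ∀ p q s : F₀, upS ((p : F) + q * B - s * A) ∈ G := by
    intro p q s
    have hm : el Q (p : F) q s (em x) (em y) (em z) ∈ M := by
      refine mul_mem ?_ ?_
      · rw [← em_smul, ← em_smul, ← em_add]
        exact hM x _ T₀.hx (by
          rw [polar_add_right, polar_smul_right, polar_smul_right, T₀.hxy, T₀.hxz]; simp)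
      · rw [← em_smul]
        exact hM y _ T₀.hy (by rw [polar_smul_right, T₀.hyz]; simp)
    refine ⟨_, hm, ?_, ⟨0, ?_⟩, ⟨q, ?_⟩, ⟨0, ?_⟩, ⟨s, ?_⟩⟩
    · simp only [hr₀, ap_el E, polar_sub_left, polar_smul_left, polar_self_mul, E.hx, E.hy,
        E.hxy, E.hxz, E.hyz, hyx, hzx, hzy, hzy, E.hz, smul_eq_mul, mul_zero, sub_zero]
      module
    · simp only [ap_el E, polar_self_mul, E.hy, hyx, E.hyz, upS_coe]
      simp
    · simp only [ap_el E, hax, hay, ← hA, hr₀, upS_coe]
      simp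
      module
    · simp only [ap_el E, polar_self_mul, E.hx, E.hxy, E.hxz, upS_coe]
      simp
    · simp only [ap_el E, hbx, hby, ← hB, hr₀, upS_coe]
      simp
      module
  -- the opposite element
  have hlow : lowS (-D) ∈ G := by
    have h1 : Q (D • b') = 0 := by simp [QuadraticMap.map_smul, hQb]
    have h2 : polar Q a' (D • b') = 0 := by simp [polar_smul_right, hpab]
    refine ⟨rs Q a' (D • b'), hrs ▸ hT, ?_, ⟨0, ?_⟩, ⟨0, ?_⟩, ⟨0, ?_⟩, ⟨0, ?_⟩⟩
    · rw [ap_rs' hQa h1 h2, hr₀]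
      simp [polar_sub_left, polar_smul_left, polar_smul_right, hxa, hxb, hya, hyb, hza, hzb]
    · rw [ap_rs' hQa h1 h2]
      simp [lowS_coe, polar_smul_right, hya, hyb]
      module
    · rw [ap_rs' hQa h1 h2]
      simp [lowS_coe, polar_smul_right, hpab, polar_self_mul, hQa]
    · rw [ap_rs' hQa h1 h2]
      simp [lowS_coe, polar_smul_right, hxa, hxb]
    · rw [ap_rs' hQa h1 h2]
      simp [lowS_coe, polar_smul_right, hba, polar_self_mul, hQb]
  -- an upper triangular element with a diagonal entry outside the subfield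
  obtain ⟨g, ⟨h, hhM, h0, ⟨t₂, h1⟩, -, ⟨t₁, h3⟩, -⟩, hg10, hg00⟩ :
      ∃ g ∈ G, (g : Matrix (Fin 2) (Fin 2) F) 1 0 = 0 ∧
        (g : Matrix (Fin 2) (Fin 2) F) 0 0 ∉ F₀ := by
    have hD' : -D ≠ 0 := neg_ne_zero.2 hD
    obtain ⟨w, hw, hwV⟩ : ∃ w, w ∉ F₀ ∧ (w = A ∨ w = B) := by
      rcases hAB with h | h
      exacts [⟨A, h, Or.inl rfl⟩, ⟨B, h, Or.inr rfl⟩]
    let V : Submodule F₀ F := Submodule.span F₀ {1, B, A}
    have hVG : ∀ c ∈ V, upS c ∈ G := by
      intro c hc
      simp only [V, Submodule.mem_span_insert, Submodule.mem_span_singleton] at hc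
      obtain ⟨p, _, ⟨q, _, ⟨s, rfl⟩, rfl⟩, rfl⟩ := hc
      have := hup p q (-s)
      simp only [Subfield.smul_def, smul_eq_mul]
      convert this using 2
      push_cast
      ring
    have h1V : (1 : F) ∈ V := Submodule.subset_span (by simp)
    have hwV' : w ∈ V := by
      rcases hwV with rfl | rfl <;> exact Submodule.subset_span (by simp)
    have hind : ∀ p q : F₀, (p : F) * 1 + (q : F) * w = 0 → p = 0 ∧ q = 0 := by
      intro p q hpq
      by_cases hq : q = 0
      · subst hq; simpa using hpq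
      · exfalso
        apply hw
        have hq' : (q : F) ≠ 0 := fun h => hq (Subtype.ext h)
        rw [show w = -(p : F) / q by field_simp; linear_combination hpq]
        exact div_mem (neg_mem p.2) q.2
    by_cases hF4 : Nat.card F = 4
    · have hsurj : ∀ c, upS c ∈ G := by
        intro c
        refine hVG c ?_
        have hinj : Function.Injective (fun pq : F₀ × F₀ =>
            (⟨(pq.1 : F) * 1 + (pq.2 : F) * w,
              V.add_mem (V.smul_mem pq.1 h1V) (V.smul_mem pq.2 hwV')⟩ : V)) := by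
          rintro ⟨p, q⟩ ⟨p', q'⟩ h
          have h' : (p : F) * 1 + (q : F) * w = (p' : F) * 1 + (q' : F) * w :=
            congrArg Subtype.val h
          obtain ⟨e1, e2⟩ := hind (p - p') (q - q') (by push_cast; linear_combination h')
          rw [sub_eq_zero.1 e1, sub_eq_zero.1 e2]
        have hge := Nat.card_le_card_of_injective _ hinj
        rw [Nat.card_prod] at hge
        have hq : 2 ≤ Nat.card F₀ := Finite.one_lt_card
        have hle : Nat.card V ≤ Nat.card F :=
          Nat.card_le_card_of_injective _ Subtype.val_injective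
        have h4 : Nat.card V = Nat.card F := le_antisymm hle (by nlinarith)
        have : V.toAddSubgroup = ⊤ := AddSubgroup.eq_top_of_card_eq _ h4
        have hc : c ∈ V.toAddSubgroup := by rw [this]; exact AddSubgroup.mem_top c
        exact hc
      set β := -D
      set u := upS (-β⁻¹) * lowS β * upS (-β⁻¹)
      have hu : u ∈ G := mul_mem (mul_mem (hsurj _) hlow) (hsurj _)
      have hall : ∀ d, lowS d ∈ G := by
        intro d
        have e : lowS d = u * upS (-d / (β * β)) * u⁻¹ := by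
          rw [eq_mul_inv_iff_mul_eq]
          apply Subtype.ext
          ext i j
          simp only [u, Matrix.SpecialLinearGroup.coe_mul, upS_coe, lowS_coe]
          fin_cases i <;> fin_cases j <;> simp [Matrix.mul_apply, Fin.sum_univ_two] <;>
            field_simp <;> first | ring1 | simp
        rw [e]
        exact mul_mem (mul_mem hu (hsurj _)) (inv_mem hu)
      have hw0 : w ≠ 0 := fun e => hw (e ▸ zero_mem F₀)
      refine ⟨lowS (-(w - 1) / w) * upS 1 * lowS (w - 1),
        mul_mem (mul_mem (hall _) (hsurj _)) (hall _), ?_, ?_⟩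
      · simp [upS_coe, lowS_coe, Matrix.mul_apply, Fin.sum_univ_two]
        field_simp
        ring
      · simp [upS_coe, lowS_coe, Matrix.mul_apply, Fin.sum_univ_two]
        exact hw
    · obtain ⟨g, hg, h10, htr⟩ :=
        exists_borel_trace_notMem hr hcard hF4 V h1V hwV' hind hVG hD' hlow
      refine ⟨g, hg, h10, fun h => htr ?_⟩
      have hd := CfsgLib.SL2.det_eq g
      rw [h10] at hd
      have h11 : (g : Matrix (Fin 2) (Fin 2) F) 1 1 = ((g : Matrix (Fin 2) (Fin 2) F) 0 0)⁻¹ :=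
        eq_inv_of_mul_eq_one_right (by linear_combination hd)
      rw [h11]
      exact add_mem h (inv_mem h)
  set l := (g : Matrix (Fin 2) (Fin 2) F) 0 0 with hl
  rw [hg10, zero_smul, sub_zero] at h3
  rw [hg10, zero_smul, add_zero] at h1
  set k := 1 - l + A * t₁ + B * t₂ with hk
  have hhz : ap h (em z) = (-(k * A)) • em x + (-(k * B)) • em y + (l + k) • em z := by
    have e : em z = r₀ + A • em x + B • em y := by rw [hr₀]; abel
    conv_lhs => rw [e]
    rw [ap_add, ap_add, ap_smul, ap_smul, h0, h1, h3, hr₀, hk]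
    module
  have hhx : ap h (em x) = (l - t₁ * A) • em x + (-(t₁ * B)) • em y + t₁ • em z := by
    rw [h3, hr₀]; module
  have hhy : ap h (em y) = (-(t₂ * A)) • em x + (l - t₂ * B) • em y + t₂ • em z := by
    rw [h1, hr₀]; module
  -- the minors lie over the subfield
  have hminor : ∀ {u w : ι → F₀}, form₀ hrat u = 0 → polar (form₀ hrat) u w = 0 →
      rs Q (ap h (em u)) (ap h (em w)) ∈ M := by
    intro u w hu huw
    rw [← conj_rs (hMI hhM) ((form₀_eq_zero hrat).1 hu) ((polar₀_eq_zero hrat).1 huw)]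
    exact mul_mem (mul_mem hhM (hM u w hu huw)) (inv_mem hhM)
  have m₁ := hminor T₀.hx T₀.hxy
  have m₂ := hminor T₀.hx T₀.hxz
  have m₃ := hminor T₀.hy T₀.hyz
  rw [hhx, hhy, rs_eq_el E] at m₁
  rw [hhx, hhz, rs_eq_el E] at m₂
  rw [hhy, hhz, rs_eq_el E] at m₃
  obtain ⟨c11, c12, c13⟩ := el_coeff hrat hQ hMI hM hΛ T₀ I m₁
  obtain ⟨c21, c22, c23⟩ := el_coeff hrat hQ hMI hM hΛ T₀ I m₂
  obtain ⟨c31, c32, c33⟩ := el_coeff hrat hQ hMI hM hΛ T₀ I m₃
  have e1 : l * l + 2 * l ∈ F₀ := by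
    convert add_mem (add_mem c11 c22) c33 using 1
    rw [hk]; ring
  have e2 : l * l * (1 + 2 * l) ∈ F₀ := by
    convert add_mem (add_mem (sub_mem (mul_mem c11 c22) (mul_mem c12 c21))
      (sub_mem (mul_mem c11 c33) (mul_mem c13 c31)))
      (sub_mem (mul_mem c22 c33) (mul_mem c23 c32)) using 1
    rw [hk]; ring
  have e3 : l * l * l * l ∈ F₀ := by
    convert add_mem (add_mem (mul_mem c11 (sub_mem (mul_mem c22 c33) (mul_mem c23 c32)))
      (neg_mem (mul_mem c12 (sub_mem (mul_mem c21 c33) (mul_mem c23 c31)))))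
      (mul_mem c13 (sub_mem (mul_mem c21 c32) (mul_mem c22 c31))) using 1
    rw [hk]; ring
  apply hg00
  by_cases h2 : (2 : F) = 0
  · have : l * l ∈ F₀ := by convert e1 using 1; rw [h2]; ring
    exact mem_of_sq_mem h2 this
  · have hl0 : l ≠ 0 := fun e => hg00 (e ▸ zero_mem F₀)
    have h4 : 1 - 4 * l ∈ F₀ := by
      convert sub_mem (div_mem (mul_mem e2 e2) e3) (mul_mem (ofNat_mem F₀ 4) e1) using 1
      field_simp
      ring
    have h5 := div_mem (sub_mem (one_mem F₀) h4) (ofNat_mem F₀ 4)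
    rwa [sub_sub_cancel, mul_div_cancel_left₀] at h5
    intro h
    exact h2 (mul_self_eq_zero.1 (by linear_combination h))

end OSubfld

end CfsgLib.Geometric.Orth
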