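import Cfsg.Agent.Lib.Geometric.Orth.SubfieldPlanes

/-!
Subfield groups of prime degree are maximal in `omegaGL` of a quadratic form in dimension at least
nine.
-/

set_option autoImplicit false

namespace CfsgLib.Geometric.Orth

open Matrix QuadraticMap CfsgLib.ClassicalForms

variable {ι : Type} [Fintype ι] [DecidableEq ι] {F : Type*} [Field F]

namespace OSubfld

open LSubfld (RatV)
open SSubfld (em em_add em_sub em_smul em_zero em_injective em_ne_zero ratV_em)

variable [Finite F] {Q : QuadraticForm F (ι → F)} {F₀ : Subfield F}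
  (hrat : ∀ v, RatV F₀ v → Q v ∈ F₀) (hQ : Nondeg Q) (hn : 9 ≤ Fintype.card ι)
  {M : Subgroup (GL ι F)} (hMI : M ≤ Cfsg.isometryGroup F (⇑Q))
  (hM : ∀ u w : ι → F₀, form₀ hrat u = 0 → polar (form₀ hrat) u w = 0 → rs Q (em u) (em w) ∈ M)
  (hΛ : ∀ x z : ι → F₀, form₀ hrat x = 0 → form₀ hrat z = 0 → polar (form₀ hrat) x z = 0 →
    Ind x z → ∀ c : F, rs Q (em x) (c • em z) ∈ M → c ∈ F₀)
include hrat hQ hn hMI hM hΛ

/-- The planes of the overgroup are over the subfield, so it is inside the subfield group. -/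
lemma mem_subfield {r : ℕ} (hr : r.Prime) (hcard : Nat.card F = Nat.card F₀ ^ r) {g : GL ι F}
    (hg : g ∈ M) : g ∈ Cfsg.Geo.subfieldSubgroup F₀ (1 : GL ι F) := by
  refine mem_subfield_of_planes hrat hQ hn fun x z P => ?_
  have hxx := P.hx
  have hx0 : x ≠ 0 := fun e => by
    subst e; exact one_ne_zero (P.ind 1 0 (by simp)).1
  have hx := (form₀_eq_zero hrat).1 hxx
  have hz := (form₀_eq_zero hrat).1 P.hz
  have hxz := (polar₀_eq_zero hrat).1 P.hxz
  have hiso := mem_isometryGroup_iff.1 (hMI hg)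
  refine ratPlane hrat hQ hMI hM hΛ hn hr hcard (by rw [hiso, hx]) (by rw [hiso, hz])
    (by rw [polar_ap (hMI hg), hxz]) (fun c hc => ?_) (ap_ne_zero g (em_ne_zero hx0)) ?_
  · rw [← ap_smul] at hc
    have hc' := ap_injective g hc
    obtain ⟨i, hi⟩ := Function.ne_iff.1 hx0
    simp only [Pi.zero_apply] at hi
    have e := congrFun hc' i
    simp only [SSubfld.em, Pi.smul_apply, smul_eq_mul] at e
    have hi' : (x i : F) ≠ 0 := fun e => hi (Subtype.ext e)
    have hk : c = ((z i / x i : F₀) : F) := by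
      rw [Subfield.coe_div, e, mul_div_cancel_right₀ _ hi']
    rw [hk, ← em_smul] at hc'
    have := (P.ind (z i / x i) (-1) (by rw [← em_injective hc']; simp)).2
    exact one_ne_zero (neg_eq_zero.1 this)
  · rw [← conj_rs (hMI hg) hx hxz]
    exact mul_mem (mul_mem hg (hM x z hxx P.hxz)) (inv_mem hg)

end OSubfld

open OSubfld LSubfld SSubfld in
/-- The subfield group of prime degree is maximal in `omegaGL` of a quadratic form rational on the
standard basis. -/
theorem orthSubfield_isMaximalIn [Finite F] (hn : 9 ≤ Fintype.card ι)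
    {Q : QuadraticForm F (ι → F)} (hQ : Nondeg Q) {F₀ : Subfield F}
    (hrat : ∀ v, RatV F₀ v → Q v ∈ F₀) {r : ℕ} (hr : r.Prime)
    (hcard : Nat.card F = Nat.card F₀ ^ r) :
    Cfsg.Geo.IsMaximalIn (Cfsg.Geo.omegaGL (⇑Q))
      (Cfsg.Geo.subfieldSubgroup F₀ (1 : GL ι F) ⊓ Cfsg.Geo.omegaGL (⇑Q)) := by
  classical
  obtain ⟨μ, hμ⟩ : ∃ μ, μ ∉ F₀ := by
    by_contra h
    push Not at h
    have : Nat.card F₀ = Nat.card F := Nat.card_congr (Equiv.subtypeUnivEquiv h)
    rw [this] at hcard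
    have h1 : 1 = r := Nat.pow_right_injective Finite.one_lt_card (by simpa using hcard)
    exact hr.one_lt.ne h1
  obtain ⟨x, hx0, hxx, -⟩ := exists_singular_perp hrat hn (j := 0) (by omega) Fin.elim0
  obtain ⟨d, hd, hxd, -, -⟩ := OSubfld.exists_dual hrat hQ (x := 0) (y := x) (z := 0)
    (by simpa using hx0) hxx (polar₀_eq_zero hrat |>.2 (by simp [SSubfld.em_zero]))
    (polar₀_eq_zero hrat |>.2 (by simp [SSubfld.em_zero]))
  obtain ⟨z, P, hzp⟩ := exists_perp_ind hrat hn (x := x) (d := d) (j := 2) (by omega) ![x, d] 0 1 rfl rfl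
    (by rw [polar_comm]; exact hxd) hxx
  obtain ⟨x', z', -, -, hxz', h1, h2, h3, h4⟩ := P.exists_duals hrat hQ
  refine ⟨lt_of_le_of_ne inf_le_right fun heq => ?_, fun M hHM hMS => ?_⟩
  · have hx := (form₀_eq_zero hrat).1 P.hx
    have hz : Q (μ • em z) = 0 := by
      simp [QuadraticMap.map_smul, (form₀_eq_zero hrat).1 P.hz]
    have hxz : polar Q (em x) (μ • em z) = 0 := by
      simp [polar_smul_right, (polar₀_eq_zero hrat).1 P.hxz]
    have hm : rs Q (em x) (μ • em z) ∈
        Cfsg.Geo.subfieldSubgroup F₀ (1 : GL ι F) ⊓ Cfsg.Geo.omegaGL (⇑Q) := by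
      rw [heq, rs_eq hx hxz]; exact sg_mem hQ (by omega) hx hxz
    obtain ⟨c, v, hv, hc⟩ := Subfld.lineRat_of_mem hm.1
      (show Subfld.Rat F₀ (1 : GL ι F) (em x') from fun l => by simpa using ratV_em x' l)
    have hv' : RatV F₀ v := fun l => by simpa using hv l
    have h1' := (polar₀_eq_one hrat).1 h1
    have h2' := (polar₀_eq_zero hrat).1 h2
    rw [ap_rs' hx hz hxz, polar_comm Q (em x') (em x), h1', polar_smul_right,
      polar_comm Q (em x') (em z), h2'] at hc
    simp only [smul_zero, zero_smul, sub_zero, one_smul] at hc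
    have e1 := congrArg (fun w => polar Q w (em x)) hc
    have e2 := congrArg (fun w => polar Q w (em z')) hc
    simp only [polar_add_left, polar_smul_left, polar_comm Q (em x') (em x), h1',
      polar_comm Q (em z) (em x), (polar₀_eq_zero hrat).1 P.hxz, (polar₀_eq_zero hrat).1 hxz',
      (polar₀_eq_one hrat).1 h4, smul_eq_mul, mul_zero, mul_one, add_zero, zero_add] at e1 e2
    have hv1 := polar_mem hrat hv' (ratV_em x)
    have hv2 := polar_mem hrat hv' (ratV_em z')
    have hne : polar Q v (em x) ≠ 0 := fun h => one_ne_zero (by rw [e1, h, mul_zero])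
    apply hμ
    rw [show μ = polar Q v (em z') / polar Q v (em x) by
      rw [eq_div_iff hne, e2]; linear_combination (-(polar Q v (em z'))) * e1]
    exact div_mem hv2 hv1
  have hMI : M ≤ Cfsg.isometryGroup F (⇑Q) := hMS.trans omegaGL_le
  have hM : ∀ u w : ι → F₀, form₀ hrat u = 0 → polar (form₀ hrat) u w = 0 →
      rs Q (em u) (em w) ∈ M := by
    intro u w hu huw
    have hu' := (form₀_eq_zero hrat).1 hu
    have huw' := (polar₀_eq_zero hrat).1 huw
    refine hHM ⟨Subfld.mem_of_rat fun v hv i => ?_, ?_⟩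
    · have hv' : RatV F₀ v := fun j => by simpa using hv j
      simpa [ap_rs hu' huw'] using
        sub_mem (add_mem (hv' i) (mul_mem (polar_mem hrat hv' (ratV_em u)) (ratV_em w i)))
          (mul_mem (add_mem (polar_mem hrat hv' (ratV_em w))
            (mul_mem (hrat _ (ratV_em w)) (polar_mem hrat hv' (ratV_em u)))) (ratV_em u i))
    · rw [rs_eq hu' huw']
      exact sg_mem hQ (by omega) hu' huw'
  by_cases htop : ∃ (x z : ι → F₀) (c : F), Pair hrat x z ∧ rs Q (em x) (c • em z) ∈ M ∧ c ∉ F₀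
  · obtain ⟨x, z, c, P, hc, hcF⟩ := htop
    exact Or.inr (le_antisymm hMS (le_of_top hrat hQ hn hMI hM hr hcard P hc hcF))
  left
  push Not at htop
  exact le_antisymm (le_inf (fun g hg => mem_subfield hrat hQ hn hMI hM
    (fun x z hx hz hxz hi c hc => htop x z c ⟨hx, hz, hxz, hi⟩ hc) hr hcard hg) hMS) hHM

/-- Pulling a form back along an invertible matrix conjugates its isometry group. -/
lemma map_conj_isometryGroup (Q : (ι → F) → F) {ζ : F} (hζ : ζ ≠ 0) (P : GL ι F) :
    (Cfsg.isometryGroup F (fun v => ζ * Q (ap P v))).map (MulAut.conj P).toMonoidHom =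
      Cfsg.isometryGroup F Q := by
  ext g
  rw [Subgroup.mem_map_equiv, MulAut.conj_symm_apply]
  constructor
  · intro h u v
    have := mul_left_cancel₀ hζ (h (ap P⁻¹ u) (ap P⁻¹ u))
    simpa [ap_mul, ap_ap_inv, ap_def] using this
  · intro h u v
    show ζ * Q (ap P (ap (P⁻¹ * g * P) u)) = ζ * Q (ap P u)
    rw [← ap_mul, show P * (P⁻¹ * g * P) = g * P by group, ap_mul]
    exact congrArg (ζ * ·) (h (ap P u) (ap P u))

/-- The subfield group of any rational structure of a quadratic form is maximal. -/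
theorem orthSubfield_isMaximalIn' [Finite F] (hn : 9 ≤ Fintype.card ι) {Q : (ι → F) → F}
    (hQ : Cfsg.Geo.IsNondegenerateQuadraticForm Q) {F₀ : Subfield F} {P : GL ι F} {ζ : F}
    (hζ : ζ ≠ 0) (hP : Cfsg.Geo.IsQuadFormRationalStructure (fun v => ζ * Q v) F₀ P) {r : ℕ}
    (hr : r.Prime) (hcard : Nat.card F = Nat.card F₀ ^ r) :
    Cfsg.Geo.IsMaximalIn (Cfsg.Geo.omegaGL Q)
      (Cfsg.Geo.subfieldSubgroup F₀ P ⊓ Cfsg.Geo.omegaGL Q) := by
  set Q₁ : QuadraticForm F (ι → F) := ζ • (toQF hQ).comp (apEquiv P).toLinearMap with hQ₁def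
  have hQ₁ : ∀ v, Q₁ v = ζ * Q (ap P v) := fun v => rfl
  have hnd : Nondeg Q₁ := by
    intro v hv
    have h : ap P v = 0 := by
      refine nondeg_toQF hQ _ fun y => ?_
      have := hv (ap P⁻¹ y)
      simp only [polar, hQ₁, ap_add, ap_ap_inv] at this ⊢
      rw [← mul_sub, ← mul_sub, mul_eq_zero] at this
      exact this.resolve_left hζ
    exact ap_injective P (h.trans (ap_zero P).symm)
  have hmax := isMaximalIn_map_equiv (orthSubfield_isMaximalIn hn hnd (F₀ := F₀)
    (fun v hv => hP v hv) hr hcard) (MulAut.conj P)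
  have e : (Cfsg.Geo.omegaGL ⇑Q₁).map (MulAut.conj P).toMonoidHom = Cfsg.Geo.omegaGL Q := by
    rw [omegaGL_eq, Subgroup.map_commutator]
    have : ⇑Q₁ = fun v => ζ * Q (ap P v) := funext hQ₁
    rw [this, map_conj_isometryGroup Q hζ P, ← coe_toQF hQ, omegaGL_eq]
  rw [Subgroup.map_inf _ _ _ (MulAut.conj P).injective, e] at hmax
  convert hmax using 2
  rw [Cfsg.Geo.subfieldSubgroup, Cfsg.Geo.subfieldSubgroup, map_one (MulAut.conj (G := GL ι F)),
    Subgroup.map_map]
  rfl

end CfsgLib.Geometric.Orth
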