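import Cfsg.Agent.Lib.Geometric.Orth.SubfieldCoeff

/-!
In an overgroup of an orthogonal subfield group the multipliers of a root element at vectors over
the subfield form the subfield or everything, and in the second case the overgroup is everything.
-/

set_option autoImplicit false

namespace CfsgLib.Geometric.Orth

open Matrix QuadraticMap CfsgLib.ClassicalForms
open CfsgLib.ClassicalLinear (upS upS_coe)
open CfsgLib.SL2.Dickson (lowS lowS_coe)
open scoped MatrixGroups

variable {ι : Type} [Fintype ι] [DecidableEq ι] {F : Type*} [Field F]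

namespace OSubfld

open LSubfld (RatV)
open SSubfld (em em_add em_sub em_smul em_zero)

variable {Q : QuadraticForm F (ι → F)} {F₀ : Subfield F} (hrat : ∀ v, RatV F₀ v → Q v ∈ F₀)

/-- Independent orthogonal singular vectors over the subfield. -/
structure Pair (x z : ι → F₀) : Prop where
  hx : form₀ hrat x = 0
  hz : form₀ hrat z = 0
  hxz : polar (form₀ hrat) x z = 0
  ind : Ind x z

lemma Pair.swap {x z : ι → F₀} (P : Pair hrat x z) : Pair hrat z x :=
  ⟨P.hz, P.hx, by rw [polar_comm]; exact P.hxz, fun p q e =>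
    (P.ind q p (by rw [← e]; abel)).symm⟩

lemma Pair.notMem {x z : ι → F₀} (P : Pair hrat x z) : x ∉ Submodule.span F₀ {z, z} := by
  intro e
  rw [Set.pair_eq_singleton] at e
  obtain ⟨c, hc⟩ := Submodule.mem_span_singleton.1 e
  exact neg_ne_zero.2 one_ne_zero (P.ind (-1) c (by rw [← hc]; module)).1

variable (hQ : Nondeg Q)
include hrat hQ

lemma Pair.exists_duals {x z : ι → F₀} (P : Pair hrat x z) :
    ∃ x' z' : ι → F₀, form₀ hrat x' = 0 ∧ form₀ hrat z' = 0 ∧ polar (form₀ hrat) x' z' = 0 ∧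
      polar (form₀ hrat) x x' = 1 ∧ polar (form₀ hrat) z x' = 0 ∧
      polar (form₀ hrat) x z' = 0 ∧ polar (form₀ hrat) z z' = 1 := by
  have hzx : polar (form₀ hrat) z x = 0 := P.swap.hxz
  obtain ⟨x', hx', h1, h2, -⟩ := exists_dual hrat hQ P.notMem P.hx hzx hzx
  have hn : z ∉ Submodule.span F₀ {x, x'} := by
    intro e
    obtain ⟨p, q, e⟩ := Submodule.mem_span_pair.1 e
    exact neg_ne_zero.2 one_ne_zero (P.ind p (-1) (by
      have e' := congrArg (polar (form₀ hrat) x) e
      rw [polar_add_right, polar_smul_right, polar_smul_right, polar_self_mul, P.hx, P.hxz, h1]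
        at e'
      have hq : q = 0 := by simpa using e'
      rw [← e, hq]; module)).2
  obtain ⟨z', hz', h3, h4, h5⟩ := exists_dual hrat hQ hn P.hz P.hxz
    (by rw [polar_comm]; exact h2)
  exact ⟨x', z', hx', hz', h5, h1, h2, h4, h3⟩

variable [Finite F] (hn : 9 ≤ Fintype.card ι)
include hn

omit hQ in
lemma exists_perp_ind {j : ℕ} (hj : j ≤ 6) (vs : Fin j → (ι → F₀)) {x : ι → F₀}
    {d : ι → F₀} (i i' : Fin j) (hx : vs i = x) (hd : vs i' = d)
    (hxd : polar (form₀ hrat) d x = 1) (hxx : form₀ hrat x = 0) :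
    ∃ t, Pair hrat x t ∧ ∀ k, polar (form₀ hrat) (vs k) t = 0 := by
  obtain ⟨t, ht0, ht, hp⟩ := exists_singular_perp hrat hn hj vs
  refine ⟨t, ⟨hxx, ht, hx ▸ hp i, fun p q e => ?_⟩, hp⟩
  have e' := congrArg (polar (form₀ hrat) d) e
  rw [polar_add_right, polar_smul_right, polar_smul_right, hxd, ← hd, hp i', polar_zero_right] at e'
  have hp0 : p = 0 := by simpa using e'
  subst hp0
  simp [ht0] at e
  exact ⟨rfl, e⟩

variable {M : Subgroup (GL ι F)} (hMI : M ≤ Cfsg.isometryGroup F (⇑Q))
  (hM : ∀ u w : ι → F₀, form₀ hrat u = 0 → polar (form₀ hrat) u w = 0 → rs Q (em u) (em w) ∈ M)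
include hMI hM

/-- A root element of a pair spreads to all multiples over the subfield. -/
lemma smul_mem {x z : ι → F₀} (P : Pair hrat x z) {c : F}
    (h : rs Q (em x) (c • em z) ∈ M) (k : F₀) : rs Q (em x) ((c * k) • em z) ∈ M := by
  obtain ⟨x', z', hx', hz', hxz', h1, h2, h3, h4⟩ := P.exists_duals hrat hQ
  obtain ⟨y, Py, hy⟩ := exists_perp_ind hrat hn (j := 4) (by omega) ![x, z, x', z'] 0 2 rfl rfl
    (by rw [polar_comm]; exact h1) P.hx
  have hxy : polar (form₀ hrat) x y = 0 := hy 0
  have hzy : polar (form₀ hrat) z y = 0 := hy 1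
  have hy3 : polar (form₀ hrat) x' y = 0 := hy 2
  have hy4 : polar (form₀ hrat) z' y = 0 := hy 3
  have T : Triple (form₀ hrat) x z y := ⟨P.hx, P.hz, Py.hz, P.hxz, hxy, hzy⟩
  have I : Ind₃ x z y := by
    intro p q s e
    have e1 := congrArg (polar (form₀ hrat) x') e
    have e2 := congrArg (polar (form₀ hrat) z') e
    simp only [polar_add_right, polar_smul_right, polar_zero_right, polar_comm _ x' x,
      polar_comm _ x' z, polar_comm _ z' x, polar_comm _ z' z, h1, h2, h3, h4, hy3, hy4,
      smul_eq_mul, mul_one, mul_zero, add_zero, zero_add] at e1 e2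
    subst e1 e2
    obtain ⟨-, hs⟩ := Py.ind 0 s (by rw [← e]; module)
    exact ⟨rfl, rfl, hs⟩
  have h5 := spread hrat hQ hMI hM T I h k
  have h6 := spread hrat hQ hMI hM T.swap₂₃ I.swap₂₃ h5 1
  simpa using h6

/-- The multipliers of a pair. -/
def lamP {x z : ι → F₀} (P : Pair hrat x z) : Submodule F₀ F where
  carrier := {c | rs Q (em x) (c • em z) ∈ M}
  zero_mem' := by
    have := hM x 0 P.hx (by rw [polar_zero_right])
    simpa [em_zero] using this
  add_mem' := by
    intro a b ha hb
    have hxz := (polar₀_eq_zero hrat).1 P.hxz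
    show rs Q (em x) ((a + b) • em z) ∈ M
    rw [add_smul, ← rs_add ((form₀_eq_zero hrat).1 P.hx) (by rw [polar_smul_right, hxz, smul_zero])
      (by rw [polar_smul_right, hxz, smul_zero])]
    exact mul_mem ha hb
  smul_mem' := fun k c hc => by
    have := smul_mem hrat hQ hn hMI hM P hc k
    show rs Q (em x) ((k • c) • em z) ∈ M
    rw [Subfield.smul_def, smul_eq_mul, mul_comm]
    exact this

/-- The multipliers of a pair form the subfield unless they are everything. -/
lemma pair_cases {r : ℕ} (hr : r.Prime) (hcard : Nat.card F = Nat.card F₀ ^ r) {x z : ι → F₀}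
    (P : Pair hrat x z) (hne : ∃ c : F, rs Q (em x) (c • em z) ∉ M) {c : F}
    (hc : rs Q (em x) (c • em z) ∈ M) : c ∈ F₀ := by
  by_contra hcF
  set V := lamP hrat hQ hn hMI hM P with hV
  have hVt : V ≠ ⊤ := fun e => by
    obtain ⟨a, ha⟩ := hne
    exact ha (show a ∈ V from e ▸ Submodule.mem_top)
  obtain ⟨x', z', hx₀', hz₀', hxz₀', h1₀, h2₀, h3₀, h4₀⟩ := P.exists_duals hrat hQ
  have hx := (form₀_eq_zero hrat).1 P.hx
  have hz := (form₀_eq_zero hrat).1 P.hz
  have hxz := (polar₀_eq_zero hrat).1 P.hxz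
  have hx' := (form₀_eq_zero hrat).1 hx₀'
  have hz' := (form₀_eq_zero hrat).1 hz₀'
  have hxz' := (polar₀_eq_zero hrat).1 hxz₀'
  have h1 := (polar₀_eq_one hrat).1 h1₀
  have h2 := (polar₀_eq_zero hrat).1 h2₀
  have h3 := (polar₀_eq_zero hrat).1 h3₀
  have h4 := (polar₀_eq_one hrat).1 h4₀
  have hzx : polar Q (em z) (em x) = 0 := by rw [polar_comm]; exact hxz
  have hz'x' : polar Q (em z') (em x') = 0 := by rw [polar_comm]; exact hxz'
  have h1' : polar Q (em x') (em x) = 1 := by rw [polar_comm]; exact h1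
  have h2' : polar Q (em x') (em z) = 0 := by rw [polar_comm]; exact h2
  have h3' : polar Q (em z') (em x) = 0 := by rw [polar_comm]; exact h3
  have h4' : polar Q (em z') (em z) = 1 := by rw [polar_comm]; exact h4
  set W := Submodule.span F {em x, em z, em x', em z'} with hWdef
  have hxW : em x ∈ W := Submodule.subset_span (by simp)
  have hzW : em z ∈ W := Submodule.subset_span (by simp)
  have hx'W : em x' ∈ W := Submodule.subset_span (by simp)
  have hz'W : em z' ∈ W := Submodule.subset_span (by simp)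
  let Lift : SL(2, F) → GL ι F → Prop := fun m h => (∀ v, ap h v - v ∈ W) ∧
    ap h (em z) = m.1 0 0 • em z + m.1 1 0 • em x' ∧
    ap h (em x') = m.1 0 1 • em z + m.1 1 1 • em x' ∧
    ap h (em x) = m.1 0 0 • em x - m.1 1 0 • em z' ∧
    ap h (em z') = -(m.1 0 1) • em x + m.1 1 1 • em z'
  let S : Submonoid SL(2, F) :=
    { carrier := {m | ∃ h ∈ M, Lift m h}
      one_mem' := ⟨1, one_mem M, fun v => by simp, by simp, by simp, by simp, by simp⟩
      mul_mem' := by
        rintro m m' ⟨g, hg, g0, g1, g2, g3, g4⟩ ⟨h, hh, h0, e1, e2, e3, e4⟩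
        refine ⟨g * h, mul_mem hg hh, fun v => ?_, ?_, ?_, ?_, ?_⟩
        · rw [ap_mul, ← sub_add_sub_cancel (ap g (ap h v)) (ap h v) v]
          exact W.add_mem (g0 _) (h0 v)
        · rw [ap_mul, e1, ap_add, ap_smul, ap_smul, g1, g2]
          simp only [Matrix.SpecialLinearGroup.coe_mul, Matrix.mul_apply, Fin.sum_univ_two]
          module
        · rw [ap_mul, e2, ap_add, ap_smul, ap_smul, g1, g2]
          simp only [Matrix.SpecialLinearGroup.coe_mul, Matrix.mul_apply, Fin.sum_univ_two]
          module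
        · rw [ap_mul, e3, ap_sub, ap_smul, ap_smul, g3, g4]
          simp only [Matrix.SpecialLinearGroup.coe_mul, Matrix.mul_apply, Fin.sum_univ_two]
          module
        · rw [ap_mul, e4, ap_add, ap_smul, ap_smul, g3, g4]
          simp only [Matrix.SpecialLinearGroup.coe_mul, Matrix.mul_apply, Fin.sum_univ_two]
          module }
  let G : Subgroup SL(2, F) :=
    { S with
      inv_mem' := fun {m} hm => by
        have e : m⁻¹ = m ^ (orderOf m - 1) := by
          refine inv_eq_of_mul_eq_one_right ?_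
          rw [← pow_succ', Nat.sub_add_cancel (orderOf_pos m), pow_orderOf_eq_one]
        show m⁻¹ ∈ S
        rw [e]
        exact S.pow_mem hm _ }
  have h1V : (1 : F) ∈ V := by
    show rs Q (em x) ((1 : F) • em z) ∈ M
    rw [one_smul]; exact hM x z P.hx P.hxz
  obtain ⟨y, hy, h, hh, hW, e1, e2, e3, e4⟩ := exists_upS_notMem (G := G) hr hcard V hVt h1V hc
    (fun p q hpq => by
      by_cases hq : q = 0
      · subst hq; simpa using hpq
      · exfalso
        apply hcF
        have hq' : (q : F) ≠ 0 := fun h => hq (Subtype.ext h)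
        rw [show c = -(p : F) / q by field_simp; linear_combination hpq]
        exact div_mem (neg_mem p.2) q.2)
    (fun a ha => ⟨rs Q (em x) (a • em z), ha, fun v => by
        rw [ap_rs' hx (by simp [QuadraticMap.map_smul, hz]) (by simp [polar_smul_right, hxz]),
          add_sub_assoc, add_sub_cancel_left]
        exact W.sub_mem (W.smul_mem _ (W.smul_mem _ hzW)) (W.smul_mem _ hxW),
      by simp [ap_rs' hx, QuadraticMap.map_smul, hz, polar_smul_right, hxz, hzx, polar_self_mul,
        upS_coe],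
      by simp [ap_rs' hx, QuadraticMap.map_smul, hz, polar_smul_right, hxz, h1', h2', upS_coe]
         module,
      by simp [ap_rs' hx, QuadraticMap.map_smul, hz, polar_smul_right, hxz, polar_self_mul, hx,
        upS_coe],
      by simp [ap_rs' hx, QuadraticMap.map_smul, hz, polar_smul_right, hxz, h3', h4', upS_coe]
         module⟩)
    (β := -1) (neg_ne_zero.2 one_ne_zero)
    ⟨rs Q (em x') (em z'), hM x' z' hx₀' hxz₀', fun v => by
        rw [ap_rs' hx' hz' hxz', add_sub_assoc, add_sub_cancel_left]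
        exact W.sub_mem (W.smul_mem _ hz'W) (W.smul_mem _ hx'W),
      by simp [ap_rs' hx' hz' hxz', h2, h4, lowS_coe]; module,
      by simp [ap_rs' hx' hz' hxz', polar_self_mul, hx', lowS_coe]; exact Or.inl hxz',
      by simp [ap_rs' hx' hz' hxz', h1, h3, lowS_coe],
      by simp [ap_rs' hx' hz' hxz', hz'x', polar_self_mul, hz', lowS_coe]⟩
  simp only [upS_coe, Matrix.of_apply, Matrix.cons_val', Matrix.cons_val_zero,
    Matrix.cons_val_one, Matrix.cons_val_fin_one, one_smul, zero_smul, add_zero, sub_zero]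
    at e1 e2 e3 e4
  -- the lift is a root element
  apply hy
  show rs Q (em x) (y • em z) ∈ M
  suffices h = rs Q (em x) (y • em z) by rw [← this]; exact hh
  apply gl_ext
  intro v
  have hmem := hW v
  simp only [W, Submodule.mem_span_insert, Submodule.mem_span_singleton] at hmem
  obtain ⟨a, _, ⟨b, _, ⟨a', _, ⟨b', rfl⟩, rfl⟩, rfl⟩, hab⟩ := hmem
  have hhv : ap h v = v + (a • em x + (b • em z + (a' • em x' + b' • em z'))) := by
    rw [← hab, add_sub_cancel]
  have p1 := polar_ap (hMI hh) v (em x)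
  have p2 := polar_ap (hMI hh) v (em z)
  have p3 := polar_ap (hMI hh) v (em x')
  have p4 := polar_ap (hMI hh) v (em z')
  rw [hhv, e3] at p1
  rw [hhv, e1] at p2
  rw [hhv, e2] at p3
  rw [hhv, e4] at p4
  simp only [polar_add_left, polar_add_right, polar_smul_left, polar_smul_right, polar_neg_right,
    polar_self_mul, hx, hz, hx', hz', hxz, hzx, hxz', hz'x', h1, h1', h2, h2', h3, h3', h4, h4',
    smul_eq_mul, mul_zero, mul_one, add_zero, zero_add, neg_smul, neg_zero] at p1 p2 p3 p4
  have ha' : a' = 0 := by linear_combination p1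
  have hb' : b' = 0 := by linear_combination p2
  subst ha' hb'
  have hav : a = -(y * polar Q v (em z)) := by linear_combination p3
  have hbv : b = y * polar Q v (em x) := by linear_combination p4
  rw [hhv, ap_rs' hx (by simp [QuadraticMap.map_smul, hz]) (by simp [polar_smul_right, hxz]),
    hav, hbv]
  simp only [polar_smul_right, smul_eq_mul]
  module

/-- A pair with every multiplier. -/
def FullPair (x z : ι → F₀) : Prop :=
  Pair hrat x z ∧ ∀ c : F, rs Q (em x) (c • em z) ∈ M

local notation "FP" => FullPair hrat (M := M)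

lemma fullPair_swap {x z : ι → F₀} (h : FP x z) : FP z x := by
  refine ⟨h.1.swap, fun c => ?_⟩
  have := h.2 (-c)
  rw [rs_smul_swap ((form₀_eq_zero hrat).1 h.1.hx) ((form₀_eq_zero hrat).1 h.1.hz)
    ((polar₀_eq_zero hrat).1 h.1.hxz), neg_neg] at this
  exact this

lemma fullPair_right {x z q : ι → F₀} (h : FP x z) (Pq : Pair hrat x q) : FP x q := by
  obtain ⟨x', z', hx', hz', hxz', h1, h2, h3, h4⟩ := h.1.exists_duals hrat hQ
  obtain ⟨q', -, h5, h6, -⟩ := exists_dual hrat hQ Pq.swap.notMem Pq.hz Pq.hxz Pq.hxz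
  obtain ⟨y, Py, hy⟩ := exists_perp_ind hrat hn (j := 6) le_rfl ![x, z, q, x', z', q'] 0 3 rfl rfl
    (by rw [polar_comm]; exact h1) Pq.hx
  have hxy : polar (form₀ hrat) x y = 0 := hy 0
  have hzy : polar (form₀ hrat) z y = 0 := hy 1
  have hqy : polar (form₀ hrat) q y = 0 := hy 2
  have hy4 : polar (form₀ hrat) x' y = 0 := hy 3
  have hy5 : polar (form₀ hrat) z' y = 0 := hy 4
  have hy6 : polar (form₀ hrat) q' y = 0 := hy 5
  have T : Triple (form₀ hrat) x z y := ⟨Pq.hx, h.1.hz, Py.hz, h.1.hxz, hxy, hzy⟩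
  have I : Ind₃ x z y := by
    intro p k s e
    have e1 := congrArg (polar (form₀ hrat) x') e
    have e2 := congrArg (polar (form₀ hrat) z') e
    simp only [polar_add_right, polar_smul_right, polar_zero_right, polar_comm _ x' x,
      polar_comm _ x' z, polar_comm _ z' x, polar_comm _ z' z, h1, h2, h3, h4, hy4, hy5,
      smul_eq_mul, mul_one, mul_zero, add_zero, zero_add] at e1 e2
    subst e1 e2
    obtain ⟨-, hs⟩ := Py.ind 0 s (by rw [← e]; module)
    exact ⟨rfl, rfl, hs⟩
  have T' : Triple (form₀ hrat) x y q :=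
    ⟨Pq.hx, Py.hz, Pq.hz, hxy, Pq.hxz, by rw [polar_comm]; exact hqy⟩
  have I' : Ind₃ x y q := by
    intro p s k e
    have e2 := congrArg (polar (form₀ hrat) q') e
    simp only [polar_add_right, polar_smul_right, polar_zero_right, polar_comm _ q' x,
      polar_comm _ q' q, h5, h6, hy6, smul_eq_mul, mul_one, mul_zero, add_zero, zero_add] at e2
    subst e2
    obtain ⟨hp, hs⟩ := Py.ind p s (by simpa using e)
    exact ⟨hp, hs, rfl⟩
  refine ⟨Pq, fun c => ?_⟩
  have := spread hrat hQ hMI hM T' I' (spread hrat hQ hMI hM T I (h.2 c) 1) 1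
  simpa using this

lemma fullPair_all {x z p q : ι → F₀} (h : FP x z) (Pq : Pair hrat p q) : FP p q := by
  obtain ⟨x', -, -, -, -, h1, -, -, -⟩ := h.1.exists_duals hrat hQ
  obtain ⟨p', -, -, -, -, h2, -, -, -⟩ := Pq.exists_duals hrat hQ
  obtain ⟨y, Py, hy⟩ := exists_perp_ind hrat hn (j := 4) (by omega) ![x, p, x', p'] 0 2 rfl rfl
    (by rw [polar_comm]; exact h1) h.1.hx
  have hpy : polar (form₀ hrat) p y = 0 := hy 1
  have hy4 : polar (form₀ hrat) p' y = 0 := hy 3
  have Pyp : Pair hrat y p := by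
    refine ⟨Py.hz, Pq.hx, by rw [polar_comm]; exact hpy, fun a b e => ?_⟩
    have e1 := congrArg (polar (form₀ hrat) p') e
    simp only [polar_add_right, polar_smul_right, polar_zero_right, polar_comm _ p' p, h2, hy4,
      smul_eq_mul, mul_one, mul_zero, zero_add] at e1
    subst e1
    exact ⟨(Py.ind 0 a (by rw [← e]; module)).2, rfl⟩
  exact fullPair_right hrat hQ hn hMI hM (fullPair_swap hrat hQ hn hMI hM
    (fullPair_right hrat hQ hn hMI hM (fullPair_swap hrat hQ hn hMI hM
      (fullPair_right hrat hQ hn hMI hM h Py)) Pyp)) Pq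

lemma full_em (hall : ∀ x z : ι → F₀, Pair hrat x z → FP x z) {x : ι → F₀} (hx₀ : form₀ hrat x = 0)
    (hx0 : x ≠ 0) : Full Q M (em x) := by
  intro hu w hw
  rw [← rs_eq hu hw]
  obtain ⟨d, hd, hxd, -, -⟩ := exists_dual hrat hQ (x := 0) (y := x) (z := 0)
    (by simpa using hx0) hx₀ (polar₀_eq_zero hrat |>.2 (by simp [em_zero]))
    (polar₀_eq_zero hrat |>.2 (by simp [em_zero]))
  obtain ⟨t, Pt, -⟩ := exists_perp_ind hrat hn (j := 2) (by omega) ![x, d] 0 1 rfl rfl
    (by rw [polar_comm]; exact hxd) hx₀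
  have ht : t ∉ Submodule.span F₀ {x, x} := Pt.swap.notMem
  have hrat' : ∀ v : ι → F₀, polar (form₀ hrat) x v = 0 → ∀ c : F,
      rs Q (em x) (c • em v) ∈ M := by
    intro v hv
    refine singular_induction hrat hQ Pt.hxz Pt.hxz ht Pt.hz
      (C := fun v => polar (form₀ hrat) x v = 0 ∧ ∀ c : F, rs Q (em x) (c • em v) ∈ M)
      (fun v hv hxv _ => ⟨hxv, fun c => ?_⟩) (fun a b ha hb => ⟨?_, fun c => ?_⟩) v hv hv |>.2
    · by_cases hi : Ind x v
      · exact (hall x v ⟨hx₀, hv, hxv, hi⟩).2 c
      · have hmul : ∃ k : F₀, v = k • x := by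
          simp only [Ind, not_forall] at hi
          obtain ⟨p, q, e, hpq⟩ := hi
          have hq : q ≠ 0 := fun hq => hpq ⟨by
            subst hq; simpa [hx0] using e, hq⟩
          exact ⟨-(q⁻¹ * p), by
            rw [show v = q⁻¹ • (p • x + q • v) - (q⁻¹ * p) • x by
              rw [smul_add, smul_smul, smul_smul, inv_mul_cancel₀ hq, one_smul, add_sub_cancel_left],
              e, smul_zero, zero_sub, neg_smul]⟩
        obtain ⟨k, rfl⟩ := hmul
        rw [em_smul, smul_smul, rs_self hu]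
        exact one_mem M
    · rw [polar_add_right, ha.1, hb.1, add_zero]
    · rw [em_add, smul_add, ← rs_add hu
        (by rw [polar_smul_right, (polar₀_eq_zero hrat).1 ha.1, smul_zero])
        (by rw [polar_smul_right, (polar₀_eq_zero hrat).1 hb.1, smul_zero])]
      exact mul_mem (ha.2 c) (hb.2 c)
  set e : ι → (ι → F₀) := fun i => Pi.single i 1 - polar (form₀ hrat) x (Pi.single i 1) • d
  have he : ∀ i, polar (form₀ hrat) x (e i) = 0 := fun i => by
    simp [e, polar_sub_right, polar_smul_right, hxd]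
  have hw' : w = ∑ i, w i • em (e i) := by
    have h0 : polar Q (em x) w = ∑ i, w i * polar Q (em x) (Pi.single i (1 : F)) := by
      rw [← polarBilin_apply_apply, LSubfld.apply_eq_sum (polarBilin Q (em x)) w]
      exact Finset.sum_congr rfl fun i _ => by rw [polarBilin_apply_apply, mul_comm]
    simp only [e, em_sub, em_smul, coe_polar₀, smul_sub, smul_smul, Finset.sum_sub_distrib,
      ← Finset.sum_smul, SSubfld.em_single]
    rw [← h0, hw, zero_smul, sub_zero]
    exact pi_eq_sum_univ' w
  rw [hw']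
  suffices ∀ s : Finset ι, polar Q (em x) (∑ i ∈ s, w i • em (e i)) = 0 ∧
      rs Q (em x) (∑ i ∈ s, w i • em (e i)) ∈ M from (this Finset.univ).2
  intro s
  induction s using Finset.induction with
  | empty => exact ⟨by simp, by simpa [em_zero] using hM x 0 hx₀ (polar₀_eq_zero hrat |>.2 (by simp [em_zero]))⟩
  | @insert i s his ih =>
    have hi := (polar₀_eq_zero hrat).1 (he i)
    rw [Finset.sum_insert his]
    refine ⟨by rw [polar_add_right, polar_smul_right, hi, ih.1, smul_zero, add_zero], ?_⟩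
    rw [← rs_add hu (by rw [polar_smul_right, hi, smul_zero]) ih.1]
    exact mul_mem (hrat' (e i) (he i) _) ih.2

/-- Multipliers outside the subfield make the overgroup everything. -/
lemma le_of_top {r : ℕ} (hr : r.Prime) (hcard : Nat.card F = Nat.card F₀ ^ r) {x z : ι → F₀}
    (P : Pair hrat x z) {c : F} (hc : rs Q (em x) (c • em z) ∈ M) (hcF : c ∉ F₀) :
    Cfsg.Geo.omegaGL (⇑Q) ≤ M := by
  have h : FP x z := ⟨P, fun a => by_contra fun ha =>
    hcF (pair_cases hrat hQ hn hMI hM hr hcard P ⟨a, ha⟩ hc)⟩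
  have hx0 : x ≠ 0 := fun e => by
    subst e; exact one_ne_zero (P.ind 1 0 (by simp)).1
  obtain ⟨x', -, hx', -, -, h1, -, -, -⟩ := P.exists_duals hrat hQ
  have hx'0 : x' ≠ 0 := fun e => by
    rw [e, polar_zero_right] at h1; exact zero_ne_one h1
  have hall : ∀ p q : ι → F₀, Pair hrat p q → FP p q := fun p q hpq =>
    fullPair_all hrat hQ hn hMI hM h hpq
  exact Full.le_of_pair hQ (by omega) hMI (full_em hrat hQ hn hMI hM hall P.hx hx0)
    (full_em hrat hQ hn hMI hM hall hx' hx'0) ((form₀_eq_zero hrat).1 P.hx)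
    ((form₀_eq_zero hrat).1 hx') (by rw [(polar₀_eq_one hrat).1 h1]; exact one_ne_zero)

end OSubfld

end CfsgLib.Geometric.Orth
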