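import Cfsg.Agent.Lib.Geometric.Orth.SubfieldPairs

/-!
A linear map carrying the planes of orthogonal pairs of singular vectors over a subfield onto planes
over it lies in the subfield group.
-/

set_option autoImplicit false

namespace CfsgLib.Geometric.Orth

open Matrix QuadraticMap CfsgLib.ClassicalForms

variable {ι : Type} [Fintype ι] [DecidableEq ι] {F : Type*} [Field F]

namespace OSubfld

open LSubfld (RatV)
open SSubfld (em em_add em_sub em_smul em_zero em_injective em_ne_zero ratV_em)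

variable [Finite F] {Q : QuadraticForm F (ι → F)} {F₀ : Subfield F}
  (hrat : ∀ v, RatV F₀ v → Q v ∈ F₀) (hQ : Nondeg Q) (hn : 9 ≤ Fintype.card ι)
  {g : GL ι F}
  (hplane : ∀ x z : ι → F₀, Pair hrat x z → RatPlane F₀ (ap g (em x)) (ap g (em z)))
include hrat hQ hn hplane

/-- Singular vectors over the subfield go to lines over it. -/
lemma lineRat_of_planes {x : ι → F₀} (hxx : form₀ hrat x = 0) :
    ∃ (c : F) (y : ι → F₀), ap g (em x) = c • em y := by
  by_cases hx0 : x = 0
  · exact ⟨0, 0, by rw [hx0, em_zero, ap_zero, zero_smul]⟩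
  obtain ⟨d, hd, hxd, -, -⟩ := exists_dual hrat hQ (x := 0) (y := x) (z := 0)
    (by simpa using hx0) hxx (polar₀_eq_zero hrat |>.2 (by simp [em_zero]))
    (polar₀_eq_zero hrat |>.2 (by simp [em_zero]))
  obtain ⟨z, P, hzp⟩ := exists_perp_ind hrat hn (x := x) (d := d) (j := 2) (by omega) ![x, d] 0 1 rfl rfl
    (by rw [polar_comm]; exact hxd) hxx
  obtain ⟨x', z', hx', hz', -, h1, h2, h3, h4⟩ := P.exists_duals hrat hQ
  obtain ⟨z₂, P₂, hp⟩ := exists_perp_ind hrat hn (x := x) (d := x') (j := 4) (by omega) ![x, z, x', z'] 0 2 rfl rfl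
    (by rw [polar_comm]; exact h1) hxx
  have hxz2 : polar (form₀ hrat) x z₂ = 0 := hp 0
  have hzz2 : polar (form₀ hrat) z z₂ = 0 := hp 1
  have hx'z2 : polar (form₀ hrat) x' z₂ = 0 := hp 2
  have hz'z2 : polar (form₀ hrat) z' z₂ = 0 := hp 3
  have hn2 : z₂ ∉ Submodule.span F₀ {x, z} := by
    intro e
    obtain ⟨p, q, rfl⟩ := Submodule.mem_span_pair.1 e
    rw [polar_add_right, polar_smul_right, polar_smul_right, polar_comm _ z' x, h3,
      polar_comm _ z' z, h4] at hz'z2
    rw [polar_add_right, polar_smul_right, polar_smul_right, polar_comm _ x' x, h1,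
      polar_comm _ x' z, h2] at hx'z2
    simp only [smul_eq_mul, mul_one, mul_zero, add_zero, zero_add] at hz'z2 hx'z2
    subst hz'z2 hx'z2
    exact one_ne_zero (P₂.ind 0 1 (by simp)).2
  obtain ⟨w₂, hw₂, h5, h6, h7⟩ := exists_dual hrat hQ hn2 P₂.hz hxz2 hzz2
  obtain ⟨a₀, b₀, ha, hb⟩ := hplane _ _ P
  obtain ⟨c₀, d₀, hc, hd'⟩ := hplane _ _ P₂
  obtain ⟨α, β, hαβ⟩ := Submodule.mem_span_pair.1 ha
  by_cases hβ : β = 0
  · exact ⟨α, a₀, by rw [← hαβ, hβ, zero_smul, add_zero]⟩
  by_cases hk : α / β ∈ F₀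
  · refine ⟨β, (⟨_, hk⟩ : F₀) • a₀ + b₀, ?_⟩
    rw [em_add, em_smul, smul_add, smul_smul, ← hαβ]
    simp only [mul_div_cancel₀ _ hβ]
  exfalso
  -- otherwise the two planes are the same
  have hin : ∀ {v : ι → F₀}, (v = a₀ ∨ v = b₀) → em v ∈ Submodule.span F {em c₀, em d₀} := by
    intro v hv
    by_contra hne
    have hv₀ : v ∉ Submodule.span F₀ {c₀, d₀} := by
      intro e
      obtain ⟨p, q, rfl⟩ := Submodule.mem_span_pair.1 e
      exact hne (Submodule.mem_span_pair.2 ⟨p, q, by rw [em_add, em_smul, em_smul]⟩)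
    obtain ⟨p, hp, hvp⟩ := exists_polar_sep (nondeg₀ hrat hQ) hv₀
    have hgx : polar Q (ap g (em x)) (em p) = 0 := by
      obtain ⟨s, t, hst⟩ := Submodule.mem_span_pair.1 hc
      rw [← hst, polar_add_left, polar_smul_left, polar_smul_left,
        (polar₀_eq_zero hrat).1 (hp c₀ (Submodule.subset_span (by simp))),
        (polar₀_eq_zero hrat).1 (hp d₀ (Submodule.subset_span (by simp))), smul_zero, smul_zero,
        add_zero]
    rw [← hαβ, polar_add_left, polar_smul_left, polar_smul_left, ← coe_polar₀ hrat,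
      ← coe_polar₀ hrat, smul_eq_mul, smul_eq_mul] at hgx
    rcases hv with rfl | rfl
    · rw [hvp] at hgx
      apply hk
      rw [show α / β = -((polar (form₀ hrat) b₀ p : F₀) : F) by
        field_simp
        simp only [OneMemClass.coe_one, mul_one] at hgx
        linear_combination hgx]
      exact neg_mem (polar (form₀ hrat) b₀ p).2
    · rw [hvp] at hgx
      simp only [OneMemClass.coe_one, mul_one] at hgx
      by_cases hpa : ((polar (form₀ hrat) a₀ p : F₀) : F) = 0
      · rw [hpa, mul_zero, zero_add] at hgx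
        exact hβ hgx
      · apply hk
        rw [show α / β = -(((polar (form₀ hrat) a₀ p : F₀) : F))⁻¹ by
          field_simp
          linear_combination hgx]
        exact neg_mem (inv_mem (polar (form₀ hrat) a₀ p).2)
  have hb' : ap g (em z) ∈ Submodule.span F {em c₀, em d₀} := by
    refine (Submodule.span_le.2 ?_) hb
    intro v hv
    rcases hv with rfl | rfl
    exacts [hin (Or.inl rfl), hin (Or.inr rfl)]
  obtain ⟨α₁, β₁, e1⟩ := Submodule.mem_span_pair.1 hc
  obtain ⟨α₂, β₂, e2⟩ := Submodule.mem_span_pair.1 hb'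
  obtain ⟨α₃, β₃, e3⟩ := Submodule.mem_span_pair.1 hd'
  -- three independent vectors in a plane
  have hind : ∀ p q s : F, p • em x + q • em z + s • em z₂ = 0 → p = 0 ∧ q = 0 ∧ s = 0 := by
    intro p q s h
    have f1 := congrArg (fun v => polar Q v (em x')) h
    have f2 := congrArg (fun v => polar Q v (em z')) h
    have f3 := congrArg (fun v => polar Q v (em w₂)) h
    simp only [polar_add_left, polar_smul_left, polar_zero_left, (polar₀_eq_one hrat).1 h1,
      (polar₀_eq_zero hrat).1 h2, (polar₀_eq_zero hrat).1 h3, (polar₀_eq_one hrat).1 h4,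
      (polar₀_eq_one hrat).1 h5, (polar₀_eq_zero hrat).1 h6, (polar₀_eq_zero hrat).1 h7,
      polar_comm Q (em z₂) (em x'), (polar₀_eq_zero hrat).1 hx'z2,
      polar_comm Q (em z₂) (em z'), (polar₀_eq_zero hrat).1 hz'z2,
      smul_eq_mul, mul_zero, mul_one, add_zero, zero_add] at f1 f2 f3
    exact ⟨f1, f2, f3⟩
  have hcomb : ∀ p q s : F, p * α₁ + q * α₂ + s * α₃ = 0 → p * β₁ + q * β₂ + s * β₃ = 0 →
      p = 0 ∧ q = 0 ∧ s = 0 := by
    intro p q s hA hB
    refine hind p q s (ap_injective g ?_)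
    rw [ap_zero, ap_add, ap_add, ap_smul, ap_smul, ap_smul, ← e1, ← e2, ← e3]
    calc p • (α₁ • em c₀ + β₁ • em d₀) + q • (α₂ • em c₀ + β₂ • em d₀)
          + s • (α₃ • em c₀ + β₃ • em d₀)
        = (p * α₁ + q * α₂ + s * α₃) • em c₀ + (p * β₁ + q * β₂ + s * β₃) • em d₀ := by module
      _ = 0 := by rw [hA, hB, zero_smul, zero_smul, add_zero]
  obtain ⟨-, -, k3⟩ := hcomb (α₂ * β₃ - α₃ * β₂) (α₃ * β₁ - α₁ * β₃) (α₁ * β₂ - α₂ * β₁)
    (by ring) (by ring)
  obtain ⟨hβ₂, -, -⟩ := hcomb β₂ (-β₁) 0 (by linear_combination k3) (by ring)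
  obtain ⟨hα₂, -, -⟩ := hcomb α₂ (-α₁) 0 (by ring) (by linear_combination -k3)
  obtain ⟨-, k2, -⟩ := hcomb 0 1 0 (by linear_combination hα₂) (by linear_combination hβ₂)
  exact one_ne_zero k2

/-- The map lies in the subfield group. -/
lemma mem_subfield_of_planes : g ∈ Cfsg.Geo.subfieldSubgroup F₀ (1 : GL ι F) := by
  have hline := fun (x : ι → F₀) (hx : form₀ hrat x = 0) =>
    lineRat_of_planes hrat hQ hn hplane hx
  -- the scalars of orthogonal singular vectors agree
  have hpair : ∀ x y : ι → F₀, form₀ hrat x = 0 → form₀ hrat y = 0 →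
      polar (form₀ hrat) x y = 0 → ∀ (c : F) (s : ι → F₀), ap g (em x) = c • em s → x ≠ 0 →
      RatV F₀ (c⁻¹ • ap g (em y)) := by
    intro x y hxx hyy hxy c s hs hx0
    have hc0 : c ≠ 0 ∧ em s ≠ 0 := by
      have := ap_ne_zero g (em_ne_zero hx0); rw [hs] at this; exact smul_ne_zero_iff.1 this
    by_cases hyx : y ∈ Submodule.span F₀ {x}
    · obtain ⟨k, rfl⟩ := Submodule.mem_span_singleton.1 hyx
      rw [em_smul, ap_smul, hs, smul_smul, smul_smul,
        show c⁻¹ * (k : F) * c = k by field_simp [hc0.1]]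
      exact (ratV_em s).smul k.2
    obtain ⟨ν, t, ht⟩ := hline y hyy
    obtain ⟨ρ, w, hw⟩ := hline (x + y) (by
      rw [map_add_eq, hxx, hyy, hxy, add_zero, add_zero])
    rw [em_add, ap_add, hs, ht] at hw
    have hy0 : y ≠ 0 := fun h => hyx (h ▸ zero_mem _)
    have hν0 : ν ≠ 0 ∧ em t ≠ 0 := by
      have := ap_ne_zero g (em_ne_zero hy0); rw [ht] at this; exact smul_ne_zero_iff.1 this
    have hts : em t ∉ Submodule.span F {em s} := by
      intro h
      obtain ⟨k, hk⟩ := Submodule.mem_span_singleton.1 h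
      have hxy' : em y = (ν * k * c⁻¹) • em x := by
        apply ap_injective g
        rw [ap_smul, hs, ht, ← hk, smul_smul, smul_smul, inv_mul_cancel_right₀ hc0.1]
      apply hyx
      obtain ⟨i, hi⟩ := Function.ne_iff.1 hx0
      simp only [Pi.zero_apply] at hi
      refine Submodule.mem_span_singleton.2 ⟨y i / x i, em_injective ?_⟩
      rw [em_smul, hxy']
      congr 1
      have h2 := congrFun hxy' i
      simp only [SSubfld.em, Pi.smul_apply, smul_eq_mul] at h2
      rw [Subfield.coe_div, h2, mul_div_cancel_right₀ _ (fun e => hi (Subtype.ext e))]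
    have hst : em s ∉ Submodule.span F {em t} := by
      intro h
      obtain ⟨k, hk⟩ := Submodule.mem_span_singleton.1 h
      have hk0 : k ≠ 0 := fun e => hc0.2 (by rw [← hk, e, zero_smul])
      exact hts (Submodule.mem_span_singleton.2 ⟨k⁻¹, by
        rw [← hk, smul_smul, inv_mul_cancel₀ hk0, one_smul]⟩)
    obtain ⟨χ, hχ, h1, h2⟩ := LSubfld.exists_ratF_sep (ratV_em s) hc0.2 hts
    obtain ⟨ξ, hξ, h3, h4⟩ := LSubfld.exists_ratF_sep (ratV_em t) hν0.2 hst
    have e1 := congrArg χ hw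
    have e2 := congrArg ξ hw
    simp only [map_add, map_smul, h1, h3, smul_eq_mul, mul_zero, zero_add, add_zero] at e1 e2
    rw [ht, smul_smul]
    have hρ : ρ ≠ 0 := fun h => by
      rw [h, zero_mul] at e1; exact mul_ne_zero hν0.1 h2 e1
    have hwχ : ξ (em w) ≠ 0 := fun h => mul_ne_zero hc0.1 h4 (by rw [e2, h, mul_zero])
    refine (ratV_em t).smul ?_
    rw [show c⁻¹ * ν = (χ (em w) / χ (em t)) * (ξ (em s) / ξ (em w)) by
      rw [div_mul_div_comm, eq_div_iff (mul_ne_zero h2 hwχ)]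
      linear_combination c⁻¹ * (e1 * ξ (em w) - e2 * χ (em w)) +
        (χ (em w) * ξ (em s)) * inv_mul_cancel₀ hc0.1]
    exact mul_mem (div_mem (LSubfld.ratF_apply hχ (ratV_em w)) (LSubfld.ratF_apply hχ (ratV_em t)))
      (div_mem (LSubfld.ratF_apply hξ (ratV_em s)) (LSubfld.ratF_apply hξ (ratV_em w)))
  obtain ⟨e, he0, hee, -⟩ := exists_singular_perp hrat hn (j := 0) (by omega) Fin.elim0
  obtain ⟨c₀, s₀, hs₀⟩ := hline e hee
  have hc₀ : c₀ ≠ 0 := fun h => ap_ne_zero g (em_ne_zero he0) (by rw [hs₀, h, zero_smul])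
  have hall : ∀ x : ι → F₀, RatV F₀ (c₀⁻¹ • ap g (em x)) := by
    refine singular_induction_top hrat hQ hn (fun y hyy => ?_) (fun x y hx hy => by
      rw [em_add, ap_add, smul_add]; exact hx.add hy)
    by_cases hey : polar (form₀ hrat) e y = 0
    · exact hpair e y hee hyy hey c₀ s₀ hs₀ he0
    obtain ⟨z, hz0, hzz, hzp⟩ := exists_singular_perp hrat hn (j := 2) (by omega) ![e, y]
    have h1 := hpair e z hee hzz (hzp 0) c₀ s₀ hs₀ he0
    exact hpair z y hzz hyy (by rw [polar_comm]; exact hzp 1) c₀ (fun i => ⟨_, h1 i⟩)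
      (funext fun i => by
        simp only [SSubfld.em, Pi.smul_apply, smul_eq_mul]
        rw [mul_inv_cancel_left₀ hc₀]) hz0
  refine Subfld.scalar_mul_mem (c := Units.mk0 c₀ hc₀) fun x hx k => ?_
  have hx' : RatV F₀ x := fun j => by simpa using hx j
  simpa [show em (fun j => (⟨x j, hx' j⟩ : F₀)) = x from rfl] using
    hall (fun j => ⟨x j, hx' j⟩) k

end OSubfld

end CfsgLib.Geometric.Orth
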