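import Cfsg.Agent.Lib.Geometric.TensorMaps
import Cfsg.Agent.Lib.Geometric.SympAlgebra
import Cfsg.Agent.Lib.Geometric.Orth.PairStab
import Cfsg.Agent.Lib.Forms.Symplectic

/-!
A quadratic form that is the tensor product of two symplectic forms and vanishes on pure tensors:
the factorwise isometries lie in `omegaGL`, and factorwise similitudes are isometries.
-/

namespace CfsgLib.Geometric.Orth

open Matrix QuadraticMap Tensor
open scoped commutatorElement

variable {ι : Type} [Fintype ι] [DecidableEq ι] {F : Type*} [Field F]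

lemma exists_symp_basis {m : ℕ} {f : (Fin m → F) → (Fin m → F) → F}
    (hf : Cfsg.Geo.IsSymplecticForm f) :
    ∃ (k : ℕ) (b : Module.Basis (Fin k ⊕ Fin k) F (Fin m → F)),
      (∀ i j : Fin k, f (b (Sum.inl i)) (b (Sum.inr j)) = if i = j then 1 else 0) ∧
      (∀ i j : Fin k, f (b (Sum.inl i)) (b (Sum.inl j)) = 0) ∧
      (∀ i j : Fin k, f (b (Sum.inr i)) (b (Sum.inr j)) = 0) := by
  refine CfsgLib.Forms.exists_symplectic_basis (Symp.fl hf).flip ⟨fun x hx => ?_, fun y hy => ?_⟩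
    fun x => ?_
  · by_contra h
    obtain ⟨z, hz⟩ := (hf.nondegenerate x h).2
    exact hz (hx z)
  · by_contra h
    obtain ⟨z, hz⟩ := (hf.nondegenerate y h).1
    exact hz (hy z)
  · exact hf.alternating x

/-- A symplectic space has even dimension. -/
lemma even_of_symp {m : ℕ} {f : (Fin m → F) → (Fin m → F) → F}
    (hf : Cfsg.Geo.IsSymplecticForm f) : Even m := by
  obtain ⟨k, b, -⟩ := exists_symp_basis hf
  have := Module.finrank_eq_card_basis b
  rw [Module.finrank_fin_fun, Fintype.card_sum, Fintype.card_fin] at this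
  exact ⟨k, this⟩

/-- `Q` is the tensor product of two symplectic forms. -/
structure STensor (Q : QuadraticForm F (ι → F)) {n₁ n₂ : ℕ} (e : ι ≃ Fin n₁ × Fin n₂)
    (P : GL ι F) (f₁ : (Fin n₁ → F) → (Fin n₁ → F) → F)
    (f₂ : (Fin n₂ → F) → (Fin n₂ → F) → F) (c : F) : Prop where
  symp₁ : Cfsg.Geo.IsSymplecticForm f₁
  symp₂ : Cfsg.Geo.IsSymplecticForm f₂
  c_ne : c ≠ 0
  polar_pt : ∀ x x' y y', polar Q (pt e P x y) (pt e P x' y') = c * (f₁ x x' * f₂ y y')
  sing : ∀ x y, Q (pt e P x y) = 0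

variable {Q : QuadraticForm F (ι → F)} {n₁ n₂ : ℕ} {e : ι ≃ Fin n₁ × Fin n₂} {P : GL ι F}
  {f₁ : (Fin n₁ → F) → (Fin n₁ → F) → F} {f₂ : (Fin n₂ → F) → (Fin n₂ → F) → F} {c : F}

namespace STensor

variable (hT : STensor Q e P f₁ f₂ c)
include hT

lemma swap : STensor Q (e.trans (Equiv.prodComm _ _)) P f₂ f₁ c where
  symp₁ := hT.symp₂
  symp₂ := hT.symp₁
  c_ne := hT.c_ne
  polar_pt x x' y y' := by rw [pt_swap, pt_swap, hT.polar_pt]; ring
  sing x y := by rw [pt_swap, hT.sing]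

omit hT in
/-- Contraction with `f₂(·, y)`. -/
def cc (hT : STensor Q e P f₁ f₂ c) (y : Fin n₂ → F) : (ι → F) →ₗ[F] (Fin n₁ → F) :=
  con e P (Symp.fl hT.symp₂ y)

@[simp] lemma cc_pt (y : Fin n₂ → F) (a : Fin n₁ → F) (z : Fin n₂ → F) :
    hT.cc y (pt e P a z) = f₂ z y • a := by simp [cc]

/-- Pairing with a pure tensor through the contraction. -/
lemma polar_right (v : ι → F) (a : Fin n₁ → F) (z : Fin n₂ → F) :
    polar Q v (pt e P a z) = c * f₁ (hT.cc z v) a := by
  have h : (polarBilin Q).flip (pt e P a z) = c • ((Symp.fl hT.symp₁ a).comp (hT.cc z)) :=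
    ext_pt e P fun x y => by
      simp only [LinearMap.flip_apply, polarBilin_apply_apply, hT.polar_pt, LinearMap.smul_apply,
        LinearMap.comp_apply, cc_pt, Symp.fl_apply, hT.symp₁.bilinear.smul_left, smul_eq_mul]
      ring
  simpa using LinearMap.congr_fun h v

omit [Fintype ι] [DecidableEq ι] hT in
lemma Q_map_add (x y : ι → F) : Q (x + y) = Q x + Q y + polar Q x y := by rw [polar]; ring

/-- A linear map keeping the pairing and sending pure tensors to pure tensors is an isometry. -/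
lemma isometry_of_polar {g : GL ι F} (hp : ∀ x y, polar Q (ap g x) (ap g y) = polar Q x y)
    (hpure : ∀ a z, Q (ap g (pt e P a z)) = 0) : g ∈ Cfsg.isometryGroup F (⇑Q) := by
  refine mem_isometryGroup_iff.mpr fun v => ?_
  obtain ⟨w, rfl⟩ := (coords e P).surjective v
  rw [pi_eq_sum_univ' w, map_sum]
  induction (Finset.univ : Finset (Fin n₁ × Fin n₂)) using Finset.induction with
  | empty => simp [ap_zero]
  | insert i s hi ih =>
    rw [Finset.sum_insert hi, ap_add, Q_map_add, Q_map_add, ih, hp]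
    congr 2
    rw [map_smul, ← pt_single, ap_smul, QuadraticMap.map_smul, QuadraticMap.map_smul, hpure,
      hT.sing]

/-- Factorwise similitudes with inverse multipliers are isometries. -/
lemma kron_isometry (a : GL (Fin n₁) F) (b : GL (Fin n₂) F) {μ ν : F} (hμν : μ * ν = 1)
    (ha : ∀ x x', f₁ (ap a x) (ap a x') = μ * f₁ x x')
    (hb : ∀ y y', f₂ (ap b y) (ap b y') = ν * f₂ y y') :
    kron e P a b ∈ Cfsg.isometryGroup F (⇑Q) := by
  refine hT.isometry_of_polar (fun x y => ?_) fun u z => by rw [ap_kron, hT.sing]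
  have h : (polarBilin Q).compl₁₂ (apEquiv (kron e P a b)).toLinearMap
      (apEquiv (kron e P a b)).toLinearMap = polarBilin Q :=
    ext_pt e P fun u z => ext_pt e P fun u' z' => by
      simp only [LinearMap.compl₁₂_apply, LinearEquiv.coe_coe, apEquiv_apply, ap_kron,
        polarBilin_apply_apply, hT.polar_pt, ha, hb]
      linear_combination c * f₁ u u' * f₂ z z' * hμν
  exact LinearMap.congr_fun (LinearMap.congr_fun h x) y

lemma kron_isometry_of_isom {a : GL (Fin n₁) F} {b : GL (Fin n₂) F} (ha : a ∈ isom f₁)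
    (hb : b ∈ isom f₂) : kron e P a b ∈ Cfsg.isometryGroup F (⇑Q) :=
  hT.kron_isometry a b (μ := 1) (ν := 1) (one_mul 1)
    (fun x x' => by rw [one_mul]; exact mem_isom_iff.mp ha x x')
    (fun y y' => by rw [one_mul]; exact mem_isom_iff.mp hb y y')

omit hT in
lemma kron_mul (a a' : GL (Fin n₁) F) (b b' : GL (Fin n₂) F) :
    kron e P (a * a') (b * b') = kron e P a b * kron e P a' b' :=
  gl_ext_pt e P fun x y => by simp [ap_mul]

omit hT in
lemma kron_swap (a : GL (Fin n₁) F) (b : GL (Fin n₂) F) :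
    kron (e.trans (Equiv.prodComm _ _)) P b a = kron e P a b :=
  gl_ext_pt e P fun x y => by rw [← pt_swap e P x y, ap_kron, pt_swap, pt_swap, ap_kron]

variable [Finite F] (hQ : CfsgLib.ClassicalForms.Nondeg Q) (hn : 5 ≤ Fintype.card ι)
include hQ hn

/-- A transvection of the second factor as a product of Siegel elements. -/
lemma one_kron_T_mem (w : Fin n₂ → F) (t : F) :
    kron e P (1 : GL (Fin n₁) F) (Symp.T hT.symp₂ w t) ∈ Cfsg.Geo.omegaGL (⇑Q) := by
  classical
  obtain ⟨k, b, hef, hee, hff⟩ := exists_symp_basis hT.symp₁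
  set s := -t / c with hs
  have key : ∀ S : Finset (Fin k), ∃ g ∈ Cfsg.Geo.omegaGL (⇑Q), ∀ x, ap g x = x + pt e P
      (∑ i ∈ S, (s * c) • (f₁ (hT.cc w x) (b (Sum.inl i)) • b (Sum.inr i) -
        f₁ (hT.cc w x) (b (Sum.inr i)) • b (Sum.inl i))) w := by
    intro S
    induction S using Finset.induction with
    | empty => exact ⟨1, one_mem _, fun x => by simp [pt_zero_left]⟩
    | insert i S hi ih =>
      obtain ⟨g, hg, hgx⟩ := ih
      have hu : Q (pt e P (b (Sum.inl i)) w) = 0 := hT.sing _ _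
      have hw : polar Q (pt e P (b (Sum.inl i)) w) (pt e P (s • b (Sum.inr i)) w) = 0 := by
        rw [hT.polar_pt, hT.symp₂.alternating w, mul_zero, mul_zero]
      refine ⟨g * sg Q _ _ hu hw, mul_mem hg (sg_mem hQ hn hu hw), fun x => ?_⟩
      have hcc : hT.cc w (ap (sg Q _ _ hu hw) x) = hT.cc w x := by
        rw [ap_sg, hT.sing, zero_mul, add_zero, map_sub, map_add, map_smul, map_smul, cc_pt,
          cc_pt, hT.symp₂.alternating w]
        simp
      rw [ap_mul, hgx, hcc, Finset.sum_insert hi, ap_sg, hT.sing, zero_mul, add_zero,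
        hT.polar_right, hT.polar_right, hT.symp₁.bilinear.smul_right]
      simp only [← ptl_apply, map_add, map_smul, map_sub]
      module
  obtain ⟨g, hg, hgx⟩ := key Finset.univ
  suffices hsum : ∀ a : Fin n₁ → F, ∑ i, (f₁ a (b (Sum.inl i)) • b (Sum.inr i) -
      f₁ a (b (Sum.inr i)) • b (Sum.inl i)) = -a by
    convert hg using 1
    refine gl_ext_pt e P fun a z => ?_
    rw [hgx, ← Finset.smul_sum, hsum, ap_kron, ap_one, Symp.ap_T, cc_pt, pt_add_right,
      pt_smul_right, hs, div_mul_cancel₀ _ hT.c_ne, pt_smul_left, ← ptl_apply e P w (-_),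
      map_neg, map_smul, ptl_apply]
    module
  intro a
  set L : (Fin n₁ → F) →ₗ[F] (Fin n₁ → F) := ∑ i, ((Symp.fl hT.symp₁ (b (Sum.inl i))).smulRight
      (b (Sum.inr i)) - (Symp.fl hT.symp₁ (b (Sum.inr i))).smulRight (b (Sum.inl i))) with hL
  have : L = -LinearMap.id := by
    refine b.ext fun j => ?_
    rcases j with j | j
    · simp [hL, hee, hef, ite_smul]
    · have hfe : ∀ i, f₁ (b (Sum.inr j)) (b (Sum.inl i)) = if i = j then -1 else 0 := fun i => by
        rw [hT.symp₁.skew, hef]; split_ifs <;> simp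
      simp [hL, hff, hfe, ite_smul]
  simpa [hL] using LinearMap.congr_fun this a

/-- Isometries of the second factor act in `omegaGL`. -/
lemma one_kron_mem {b : GL (Fin n₂) F} (hb : b ∈ isom f₂) :
    kron e P (1 : GL (Fin n₁) F) b ∈ Cfsg.Geo.omegaGL (⇑Q) := by
  let φ : GL (Fin n₂) F →* GL ι F :=
    MonoidHom.mk' (fun b => kron e P (1 : GL (Fin n₁) F) b) fun b b' => by
      rw [← kron_mul, one_mul]
  exact Symp.isom_le_of_T_mem hT.symp₂ (M := (Cfsg.Geo.omegaGL (⇑Q)).comap φ)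
    (fun v t => hT.one_kron_T_mem hQ hn v t) hb

/-- Factorwise isometries lie in the stabiliser in `omegaGL`. -/
lemma kron_mem_inf {a : GL (Fin n₁) F} {b : GL (Fin n₂) F} (ha : a ∈ isom f₁)
    (hb : b ∈ isom f₂) :
    kron e P a b ∈ Cfsg.Geo.tensorProductSubgroup n₁ n₂ e P ⊓ Cfsg.Geo.omegaGL (⇑Q) := by
  refine ⟨kron_mem e P a b, ?_⟩
  have h1 := hT.swap.one_kron_mem hQ hn ha
  rw [kron_swap] at h1
  have h2 := mul_mem h1 (hT.one_kron_mem hQ hn hb)
  rwa [← kron_mul, mul_one, one_mul] at h2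

end STensor

/-- `omegaGL` is normalised by the isometries. -/
lemma omegaGL_conj_mem {g h : GL ι F} (hg : g ∈ Cfsg.isometryGroup F (⇑Q))
    (hh : h ∈ Cfsg.Geo.omegaGL (⇑Q)) : g * h * g⁻¹ ∈ Cfsg.Geo.omegaGL (⇑Q) := by
  rw [omegaGL_eq] at hh ⊢
  revert h
  suffices h : ⁅Cfsg.isometryGroup F (⇑Q), Cfsg.isometryGroup F (⇑Q)⁆ ≤
      ⁅Cfsg.isometryGroup F (⇑Q), Cfsg.isometryGroup F (⇑Q)⁆.comap
        (MulAut.conj g).toMonoidHom from fun {x} hx => h hx
  rw [Subgroup.commutator_le]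
  intro x hx y hy
  change g * ⁅x, y⁆ * g⁻¹ ∈ ⁅Cfsg.isometryGroup F (⇑Q), Cfsg.isometryGroup F (⇑Q)⁆
  rw [show g * ⁅x, y⁆ * g⁻¹ = ⁅g * x * g⁻¹, g * y * g⁻¹⁆ by
    simp only [commutatorElement_def]; group]
  exact Subgroup.commutator_mem_commutator (mul_mem (mul_mem hg hx) (inv_mem hg))
    (mul_mem (mul_mem hg hy) (inv_mem hg))

end CfsgLib.Geometric.Orth
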