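import Cfsg.Agent.Lib.Geometric.Orth.SympTensorSlice

/-!
The stabiliser of a tensor product of two symplectic spaces of different dimensions is maximal in
`omegaGL`.
-/

namespace CfsgLib.Geometric.Orth

open Matrix QuadraticMap Tensor

variable {ι : Type} [Fintype ι] [DecidableEq ι] {F : Type*} [Field F]
variable {Q : QuadraticForm F (ι → F)} {n₁ n₂ : ℕ} {e : ι ≃ Fin n₁ × Fin n₂} {P : GL ι F}
  {f₁ : (Fin n₁ → F) → (Fin n₁ → F) → F} {f₂ : (Fin n₂ → F) → (Fin n₂ → F) → F} {c : F}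

namespace STensor

variable (hT : STensor Q e P f₁ f₂ c) [Finite F] (hQ : CfsgLib.ClassicalForms.Nondeg Q)
  (hn : 5 ≤ Fintype.card ι) (hn₂ : 5 ≤ n₂)
  (hq : (∃ t : F, t ≠ 0 ∧ t ≠ 1) ∨ ((∀ t : F, t = 0 ∨ t = 1) ∧ 3 ≤ n₁))
include hT hQ hn hn₂ hq

/-- An element outside the stabiliser mapping a slice into a slice forces the whole of
`omegaGL`. -/
lemma omega_le_of_slice_map {M : Subgroup (GL ι F)}
    (hH : ∀ a ∈ isom f₁, ∀ b ∈ isom f₂, kron e P a b ∈ M)
    (hMO : M ≤ Cfsg.isometryGroup F (⇑Q)) {g : GL ι F} (hg : g ∈ M)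
    (hgT : g ∉ Cfsg.Geo.tensorProductSubgroup n₁ n₂ e P) {w w' : Fin n₂ → F} (hw : w ≠ 0)
    (hw' : w' ≠ 0) (hmap : ∀ x ∈ slice e P w, ap g x ∈ slice e P w') :
    Cfsg.Geo.omegaGL (⇑Q) ≤ M := by
  obtain ⟨b, hb, hbw⟩ := Symp.exists_isom_map hT.symp₂ hw' hw
  refine hT.omega_le_of_slice_fix hQ hn hn₂ hq hH hMO (M.mul_mem (hH _ (one_mem _) _ hb) hg)
    (fun h => hgT ?_) hw fun x hx => ?_
  · simpa using mul_mem (inv_mem (Tensor.kron_mem e P (1 : GL (Fin n₁) F) b)) h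
  · obtain ⟨u, hu⟩ := hmap x hx
    simp only [ptl_apply] at hu
    rw [ap_mul, ← hu, ap_kron, ap_one, hbw]
    exact pt_mem_slice e P _ _

/-- `omegaGL` lies in any subgroup containing the factorwise isometries and one element outside the stabiliser. -/
theorem omega_le_of_notMem (h12 : n₁ + 2 ≤ n₂) {M : Subgroup (GL ι F)}
    (hH : ∀ a ∈ isom f₁, ∀ b ∈ isom f₂, kron e P a b ∈ M)
    (hMΩ : M ≤ Cfsg.Geo.omegaGL (⇑Q))
    (hne : ∃ g ∈ M, g ∉ Cfsg.Geo.tensorProductSubgroup n₁ n₂ e P) :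
    Cfsg.Geo.omegaGL (⇑Q) ≤ M := by
  classical
  have hMO : M ≤ Cfsg.isometryGroup F (⇑Q) := hMΩ.trans omegaGL_le
  have hf := hT.symp₂
  have hn₁ : 0 < n₁ := by
    by_contra h
    have := Fintype.card_congr e
    simp [show n₁ = 0 by omega] at this
    omega
  set u₁ : Fin n₁ → F := Pi.single ⟨0, hn₁⟩ 1 with hu₁
  have hu₁0 : u₁ ≠ 0 := fun h0 => by simpa [hu₁] using congrFun h0 ⟨0, hn₁⟩
  by_contra hfalse
  have hstar : ∀ g ∈ M, ∀ w w' : Fin n₂ → F, w ≠ 0 → w' ≠ 0 →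
      (∀ x ∈ slice e P w, ap g x ∈ slice e P w') →
      g ∈ Cfsg.Geo.tensorProductSubgroup n₁ n₂ e P := by
    intro g hg w w' hw hw' hmap
    by_contra hgT
    exact hfalse (hT.omega_le_of_slice_map hQ hn hn₂ hq hH hMO hg hgT hw hw' hmap)
  have hconj : ∀ g ∈ M, ∀ w : Fin n₂ → F, w ≠ 0 →
      g * kron e P (1 : GL (Fin n₁) F) (Symp.T hf w 1) * g⁻¹ ∈
        Cfsg.Geo.tensorProductSubgroup n₁ n₂ e P →
      g ∈ Cfsg.Geo.tensorProductSubgroup n₁ n₂ e P := by
    intro g hg w hw hTm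
    set y := g * kron e P (1 : GL (Fin n₁) F) (Symp.T hf w 1) * g⁻¹ with hy
    have hyx : ∀ x, ap y x = x + ap g (pt e P (hT.cc w (ap g⁻¹ x)) w) := by
      intro x
      rw [hy, ap_mul, ap_mul, hT.ap_one_kron_T, ap_add, ap_ap_inv, one_smul]
    obtain ⟨a, b, hab⟩ := (mem_iff e P y).mp hTm
    have heig : ∀ u, ∃ t : F, (apEquiv a).toLinearMap u = t • u := by
      intro u
      by_cases hu : u = 0
      · exact ⟨0, by simp [hu, ap_zero]⟩
      have hker : LinearMap.ker ((hT.cc w).comp ((apEquiv g⁻¹).toLinearMap.comp (ptr e P u)))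
          ≠ ⊥ := LinearMap.ker_ne_bot_of_finrank_lt (by simp; omega)
      obtain ⟨z, hz, hz0⟩ := Submodule.exists_mem_ne_zero_of_ne_bot hker
      simp only [LinearMap.mem_ker, LinearMap.comp_apply, LinearEquiv.coe_coe, apEquiv_apply,
        ptr_apply] at hz
      have h1 := hyx (pt e P u z)
      rw [hz, pt_zero_left, ap_zero, add_zero, hab] at h1
      obtain ⟨j, hj⟩ := Function.ne_iff.mp (ap_ne_zero b hz0)
      refine ⟨z j / ap b z j, funext fun i => ?_⟩
      have h2 := congrFun ((coords e P).injective h1) (i, j)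
      simp only [Pi.zero_apply] at hj
      simp only [LinearEquiv.coe_coe, apEquiv_apply, Pi.smul_apply, smul_eq_mul] at h2 ⊢
      field_simp
      linear_combination h2
    obtain ⟨μ, hμ⟩ := exists_scalar heig
    simp only [LinearEquiv.coe_coe, apEquiv_apply] at hμ
    have hyb : ∀ u z, ap y (pt e P u z) = pt e P u (μ • ap b z) := fun u z => by
      rw [hab, hμ, pt_smul_left, pt_smul_right]
    obtain ⟨z, hz⟩ : ∃ z, μ • ap b z - z ≠ 0 := by
      by_contra hc'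
      push Not at hc'
      have hy1 : y = 1 := gl_ext_pt e P fun u z => by
        rw [hyb, sub_eq_zero.mp (hc' z), ap_one]
      have hk1 : kron e P (1 : GL (Fin n₁) F) (Symp.T hf w 1) = 1 := by
        rwa [hy, conj_eq_one_iff] at hy1
      obtain ⟨x, hx⟩ := (hf.nondegenerate w hw).1
      have := congrArg (fun k => ap k (pt e P u₁ x)) hk1
      simp only [ap_kron, ap_one, Symp.ap_T] at this
      have := pt_inj_right e P hu₁0 this
      simp [hw, hx] at this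
    have hsl : ∀ x ∈ slice e P (μ • ap b z - z), ap g⁻¹ x ∈ slice e P w := by
      rintro _ ⟨u, rfl⟩
      have h1 := hyx (pt e P u z)
      rw [hyb, add_comm, ← sub_eq_iff_eq_add, ← pt_sub_right] at h1
      rw [ptl_apply, h1, ap_inv_ap]
      exact pt_mem_slice e P _ _
    simpa using inv_mem (hstar g⁻¹ (M.inv_mem hg) _ w hz hw hsl)
  set W : ℕ → Prop := fun d => ∃ g ∈ M, g ∉ Cfsg.Geo.tensorProductSubgroup n₁ n₂ e P ∧
    ∃ w w' : Fin n₂ → F, w ≠ 0 ∧ w' ≠ 0 ∧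
      d ≤ Module.finrank F ↥((slice e P w).map (apEquiv g).toLinearMap ⊓ slice e P w') with hW
  obtain ⟨g₀, hg₀, hg₀T⟩ := hne
  set w₀ : Fin n₂ → F := Pi.single ⟨0, by omega⟩ 1 with hw₀
  have hw₀0 : w₀ ≠ 0 := fun h => by simpa [hw₀] using congrFun h ⟨0, by omega⟩
  have hW1 : W 1 := by
    set y := g₀ * kron e P (1 : GL (Fin n₁) F) (Symp.T hf w₀ 1) * g₀⁻¹ with hy
    have hyM : y ∈ M := M.mul_mem (M.mul_mem hg₀
      (hH _ (one_mem _) _ (Symp.T_mem_isom hf _ _))) (M.inv_mem hg₀)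
    have hyT : y ∉ Cfsg.Geo.tensorProductSubgroup n₁ n₂ e P := fun h =>
      hg₀T (hconj g₀ hg₀ w₀ hw₀0 h)
    have hker : LinearMap.ker ((hT.cc w₀).comp ((apEquiv g₀⁻¹).toLinearMap.comp (ptr e P u₁)))
        ≠ ⊥ := LinearMap.ker_ne_bot_of_finrank_lt (by simp; omega)
    obtain ⟨z, hz, hz0⟩ := Submodule.exists_mem_ne_zero_of_ne_bot hker
    simp only [LinearMap.mem_ker, LinearMap.comp_apply, LinearEquiv.coe_coe, apEquiv_apply,
      ptr_apply] at hz
    have hfix : ap y (pt e P u₁ z) = pt e P u₁ z := by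
      rw [hy, ap_mul, ap_mul, hT.ap_one_kron_T, hz, pt_zero_left, smul_zero, add_zero, ap_ap_inv]
    refine ⟨y, hyM, hyT, z, z, hz0, hz0, Submodule.one_le_finrank_iff.mpr ?_⟩
    intro hbot
    have : pt e P u₁ z ∈ (slice e P z).map (apEquiv y).toLinearMap ⊓ slice e P z :=
      ⟨⟨_, pt_mem_slice e P u₁ z, hfix⟩, pt_mem_slice e P u₁ z⟩
    rw [hbot, Submodule.mem_bot] at this
    exact pt_ne_zero e P hu₁0 hz0 this
  have hbound : ∀ d, W d → d ≤ n₁ := by
    rintro d ⟨g, -, -, w, w', -, -, hd⟩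
    refine hd.trans ((Submodule.finrank_mono inf_le_right).trans ?_)
    exact ((ptl e P w').finrank_range_le).trans (by simp)
  set d := Nat.findGreatest W n₁ with hd
  have hWd : W d := Nat.findGreatest_spec (hbound 1 hW1) hW1
  obtain ⟨g, hg, hgT, w, w', hw, hw', hdim⟩ := hWd
  set L := (slice e P w).map (apEquiv g).toLinearMap with hL
  set D := L ⊓ slice e P w' with hD
  obtain ⟨zz, ⟨z₀, hz₀w, rfl⟩, hzw'⟩ : ∃ z ∈ L, z ∉ slice e P w' := by
    by_contra hc'
    push Not at hc'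
    exact hgT (hstar g hg w w' hw hw' fun x hx => hc' _ ⟨x, hx, rfl⟩)
  simp only [LinearEquiv.coe_coe, apEquiv_apply] at hzw'
  -- a factorwise transvection fixing more
  let Φ : (Fin n₂ → F) →ₗ[F] F × (Fin n₁ → F) :=
    { toFun := fun v => (f₂ w' v, hT.cc v (ap g z₀))
      map_add' := fun v v' => by simp [hT.cc_add, hf.bilinear.add_right]
      map_smul' := fun t v => by simp [cc, con_smul, hf.bilinear.smul_right] }
  have hkerΦ : LinearMap.ker Φ ≠ ⊥ := LinearMap.ker_ne_bot_of_finrank_lt (by simp; omega)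
  obtain ⟨v, hv, hv0⟩ := Submodule.exists_mem_ne_zero_of_ne_bot hkerΦ
  have hvw' : f₂ w' v = 0 := congrArg Prod.fst hv
  have hvz : hT.cc v (ap g z₀) = 0 := congrArg Prod.snd hv
  set x := kron e P (1 : GL (Fin n₁) F) (Symp.T hf v 1) with hx
  have hxM : x ∈ M := hH _ (one_mem _) _ (Symp.T_mem_isom hf _ _)
  set k := g⁻¹ * x * g⁻¹⁻¹ with hk
  have hkM : k ∈ M := M.mul_mem (M.mul_mem (M.inv_mem hg) hxM) (by simpa using hg)
  have hkT : k ∉ Cfsg.Geo.tensorProductSubgroup n₁ n₂ e P := fun h =>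
    hgT (by simpa using inv_mem (hconj g⁻¹ (M.inv_mem hg) v hv0 h))
  have hxfix : ∀ u ∈ slice e P w', ap x u = u := by
    rintro _ ⟨u, rfl⟩
    rw [hx, hT.ap_one_kron_T, ptl_apply, cc_pt, hvw', zero_smul, pt_zero_left, smul_zero, add_zero]
  have hxz : ap x (ap g z₀) = ap g z₀ := by
    rw [hx, hT.ap_one_kron_T, hvz, pt_zero_left, smul_zero, add_zero]
  set z := ap g z₀ with hz
  set E := D ⊔ Submodule.span F {z} with hE
  have hlt : D < E := lt_of_le_of_ne le_sup_left fun h => hzw' <| by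
    have : z ∈ D := by
      rw [h]
      exact Submodule.mem_sup_right (Submodule.mem_span_singleton_self _)
    exact this.2
  have hinto : E.map (apEquiv g⁻¹).toLinearMap ≤
      (slice e P w).map (apEquiv k).toLinearMap ⊓ slice e P w := by
    rw [hE, Submodule.map_sup, Submodule.map_span, Set.image_singleton, sup_le_iff,
      Submodule.span_singleton_le_iff_mem]
    have hback : ∀ v ∈ L, ap g⁻¹ v ∈ slice e P w := by
      rintro _ ⟨v, hv, rfl⟩
      simpa [ap_inv_ap] using hv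
    refine ⟨?_, ⟨z₀, hz₀w, ?_⟩, hback _ ⟨z₀, hz₀w, rfl⟩⟩
    · rintro _ ⟨u, hu, rfl⟩
      refine ⟨⟨ap g⁻¹ u, hback u hu.1, ?_⟩, hback u hu.1⟩
      simp [hk, ap_mul, ap_ap_inv, hxfix u hu.2]
    · simp [hk, ap_mul, ← hz, hxz]
  have hdim' : d + 1 ≤ Module.finrank F
      ↥((slice e P w).map (apEquiv k).toLinearMap ⊓ slice e P w) := by
    refine le_trans ?_ (Submodule.finrank_mono hinto)
    rw [LinearEquiv.finrank_map_eq]
    have := Submodule.finrank_lt_finrank_of_lt hlt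
    omega
  have hWd' : W (d + 1) := ⟨k, hkM, hkT, w, w, hw, hw, hdim'⟩
  exact Nat.findGreatest_is_greatest (Nat.lt_succ_self _) (hbound _ hWd') hWd'

/-- `omegaGL` lies in any strictly larger group inside it. -/
theorem omega_le_of_ne (h12 : n₁ + 2 ≤ n₂) {M : Subgroup (GL ι F)}
    (hH : Cfsg.Geo.tensorProductSubgroup n₁ n₂ e P ⊓ Cfsg.Geo.omegaGL (⇑Q) ≤ M)
    (hMΩ : M ≤ Cfsg.Geo.omegaGL (⇑Q))
    (hne : M ≠ Cfsg.Geo.tensorProductSubgroup n₁ n₂ e P ⊓ Cfsg.Geo.omegaGL (⇑Q)) :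
    Cfsg.Geo.omegaGL (⇑Q) ≤ M := by
  refine hT.omega_le_of_notMem hQ hn hn₂ hq h12 (fun a ha b hb => hH (hT.kron_mem_inf hQ hn ha hb)) hMΩ ?_
  by_contra hc'
  push Not at hc'
  exact hne (le_antisymm (le_inf hc' hMΩ) hH)

/-- The stabiliser of a tensor product of symplectic forms is maximal in `omegaGL`. -/
theorem isMaximalIn (h12 : n₁ + 2 ≤ n₂) :
    Cfsg.Geo.IsMaximalIn (Cfsg.Geo.omegaGL (⇑Q))
      (Cfsg.Geo.tensorProductSubgroup n₁ n₂ e P ⊓ Cfsg.Geo.omegaGL (⇑Q)) := by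
  refine ⟨lt_of_le_of_ne inf_le_right fun he => ?_, fun M hHM hMS => ?_⟩
  · have hf := hT.symp₂
    have hn₁ : 0 < n₁ := by
      by_contra h
      have := Fintype.card_congr e
      simp [show n₁ = 0 by omega] at this
      omega
    obtain ⟨u', hu'0⟩ : ∃ u' : Fin n₁ → F, u' ≠ 0 :=
      ⟨Pi.single ⟨0, hn₁⟩ 1, fun h => by simpa using congrFun h ⟨0, hn₁⟩⟩
    obtain ⟨u, -, huu'⟩ := Symp.exists_perp_one hT.symp₁ (U := ⊥) (x := u') (by simpa using hu'0)
    obtain ⟨w', hw'0⟩ : ∃ w' : Fin n₂ → F, w' ≠ 0 :=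
      ⟨Pi.single ⟨0, by omega⟩ 1, fun h => by simpa using congrFun h ⟨0, by omega⟩⟩
    obtain ⟨w, -, hww'⟩ := Symp.exists_perp_one hf (U := ⊥) (x := w') (by simpa using hw'0)
    obtain ⟨y, hyw, hyw', hy⟩ := exists_perp_notMem hn₂ hf w w'
    have hu : Q (pt e P u w) = 0 := hT.sing _ _
    have hw : polar Q (pt e P u w) (pt e P u y) = 0 := by
      rw [hT.polar_pt, hT.symp₁.alternating u, zero_mul, mul_zero]
    have hm : sg Q _ _ hu hw ∈
        Cfsg.Geo.tensorProductSubgroup n₁ n₂ e P ⊓ Cfsg.Geo.omegaGL (⇑Q) := by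
      rw [he]
      exact sg_mem hQ hn hu hw
    obtain ⟨a, b, hab⟩ := (mem_iff e P _).mp hm.1
    have h := hab u' w'
    rw [ap_sg, hT.polar_pt, hT.polar_pt, hT.sing, huu', hww', (Symp.eq_zero_comm hf).mp hyw',
      mul_zero, mul_zero, zero_mul, add_zero, zero_smul, sub_zero, one_mul, mul_one] at h
    obtain ⟨φ, hφ, hφy⟩ := exists_functional_eq_one
      (U := Submodule.span F ({w, w'} : Set (Fin n₂ → F))) hy
    have hwy : w' ∉ Submodule.span F {y} := fun h0 => by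
      obtain ⟨s, hs⟩ := Submodule.mem_span_singleton.mp h0
      have h1 := hφ w' (Submodule.subset_span (by simp))
      rw [← hs, map_smul, hφy, smul_eq_mul, mul_one] at h1
      exact hw'0 (by rw [← hs, h1, zero_smul])
    obtain ⟨ψ, hψ, hψw⟩ := exists_functional_eq_one hwy
    have h1 := congrArg (con e P φ) h
    have h2 := congrArg (con e P ψ) h
    simp only [map_add, map_smul, con_pt, hφy, hφ w' (Submodule.subset_span (by simp)),
      hψw, hψ y (Submodule.mem_span_singleton_self y), zero_smul, one_smul, zero_add,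
      smul_zero, add_zero] at h1 h2
    have hneu : u ∉ Submodule.span F {u'} := fun h0 => by
      obtain ⟨s, rfl⟩ := Submodule.mem_span_singleton.mp h0
      rw [hT.symp₁.bilinear.smul_right, hT.symp₁.alternating u', mul_zero] at huu'
      exact zero_ne_one huu'
    refine hneu (Submodule.mem_span_singleton.mpr ⟨c⁻¹ * (φ (ap b w') / ψ (ap b w')), ?_⟩)
    have hψb : ψ (ap b w') ≠ 0 := fun h0 => hu'0 (by rw [h2, h0, zero_smul])
    rw [h2, smul_smul]
    have h3 : u = c⁻¹ • (φ (ap b w') • ap a u') := by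
      rw [← h1, smul_smul, inv_mul_cancel₀ hT.c_ne, one_smul]
    rw [h3, smul_smul]
    congr 1
    field_simp
  · by_cases hM : M = Cfsg.Geo.tensorProductSubgroup n₁ n₂ e P ⊓ Cfsg.Geo.omegaGL (⇑Q)
    · exact Or.inl hM
    · exact Or.inr (le_antisymm hMS (hT.omega_le_of_ne hQ hn hn₂ hq h12 hHM hMS hM))

end STensor

end CfsgLib.Geometric.Orth
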