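import Cfsg.Agent.Lib.Geometric.Orth.SympTensorUnip
import Cfsg.Agent.Lib.Geometric.LinearTensorUnip

/-!
An element outside the stabiliser of a tensor product of symplectic forms mapping a slice into a
slice generates `omegaGL` with it.
-/

namespace CfsgLib.Geometric.Orth

open Matrix QuadraticMap Tensor

variable {ι : Type} [Fintype ι] [DecidableEq ι] {F : Type*} [Field F]
variable {Q : QuadraticForm F (ι → F)} {n₁ n₂ : ℕ} {e : ι ≃ Fin n₁ × Fin n₂} {P : GL ι F}
  {f₁ : (Fin n₁ → F) → (Fin n₁ → F) → F} {f₂ : (Fin n₂ → F) → (Fin n₂ → F) → F} {c : F}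

namespace STensor

variable (hT : STensor Q e P f₁ f₂ c)
include hT

lemma cc_add (y y' : Fin n₂ → F) (v : ι → F) : hT.cc (y + y') v = hT.cc y v + hT.cc y' v := by
  simp [cc, con_add]

lemma cc_pt_add (w : Fin n₂ → F) (v : ι → F) (a : Fin n₁ → F) {z : Fin n₂ → F}
    (h : f₂ z w = 0) : hT.cc w (v + pt e P a z) = hT.cc w v := by
  rw [map_add, cc_pt, h, zero_smul, add_zero]

lemma cc_kron_inv {b : GL (Fin n₂) F} (hb : b ∈ isom f₂) (w : Fin n₂ → F) (v : ι → F) :
    hT.cc w (ap (kron e P (1 : GL (Fin n₁) F) b)⁻¹ v) = hT.cc (ap b w) v := by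
  have h : (hT.cc w).comp (apEquiv (kron e P (1 : GL (Fin n₁) F) b)⁻¹).toLinearMap =
      hT.cc (ap b w) := ext_pt e P fun a y => by
    have h := mem_isom_iff.mp hb (ap b⁻¹ y) w
    rw [ap_ap_inv] at h
    simp [kron_inv, h]
  exact LinearMap.congr_fun h v

variable [Finite F] (hQ : CfsgLib.ClassicalForms.Nondeg Q) (hn : 5 ≤ Fintype.card ι)
  (hn₂ : 5 ≤ n₂) (hq : (∃ t : F, t ≠ 0 ∧ t ≠ 1) ∨ ((∀ t : F, t = 0 ∨ t = 1) ∧ 3 ≤ n₁))
  {M : Subgroup (GL ι F)}
  (hH : ∀ a ∈ isom f₁, ∀ b ∈ isom f₂, kron e P a b ∈ M)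
  (hMO : M ≤ Cfsg.isometryGroup F (⇑Q))
include hQ hn hn₂ hq hH hMO

/-- A conjugation family of a non-scalar element fixing the slices orthogonal to `w`. -/
lemma omega_le_of_quadratic {w : Fin n₂ → F} (hw : w ≠ 0) {ζ : GL ι F}
    {K : (Fin n₁ → F) →ₗ[F] (Fin n₁ → F)}
    (hζ : ∀ x, ap ζ x = x + pt e P (K (hT.cc w x)) w) {u₀ : Fin n₁ → F}
    (hu₀ : ∀ t : F, K u₀ ≠ t • u₀)
    (hcomm : ∀ b ∈ isom f₂, kron e P (1 : GL (Fin n₁) F) b * ζ *
      (kron e P (1 : GL (Fin n₁) F) b)⁻¹ * ζ⁻¹ ∈ M) :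
    Cfsg.Geo.omegaGL (⇑Q) ≤ M := by
  have hf := hT.symp₂
  obtain ⟨y, hyw, -, hy⟩ := exists_perp_notMem hn₂ hf w w
  rw [Set.pair_eq_singleton] at hy
  obtain ⟨z, hzw, hzy, hz⟩ := exists_perp_notMem hn₂ hf w y
  have hww := hf.alternating w
  have hyy := hf.alternating y
  have hzz := hf.alternating z
  have hwy := (Symp.eq_zero_comm hf).mp hyw
  have hwz := (Symp.eq_zero_comm hf).mp hzw
  have hyz := (Symp.eq_zero_comm hf).mp hzy
  have hζi : ∀ x, ap ζ⁻¹ x = x - pt e P (K (hT.cc w x)) w := fun x => by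
    apply ap_injective ζ
    rw [ap_ap_inv, hζ, map_sub, cc_pt, hww, zero_smul, sub_zero]
    abel
  -- the quotients of two conjugates
  have key : ∀ v : Fin n₂ → F, v ≠ 0 → f₂ w v = 0 → ∃ g ∈ M, ∀ x,
      ap g x = x - pt e P (K (hT.cc w x)) w + pt e P (K (hT.cc v x)) v := by
    intro v hv hwv
    obtain ⟨b, hb, hbw⟩ := Symp.exists_isom_map hf hw hv
    refine ⟨_, hcomm b hb, fun x => ?_⟩
    rw [ap_mul, ap_mul, ap_mul, hζ, ap_add, ap_ap_inv, ap_kron, ap_one,
      hT.cc_kron_inv hb, hbw, hζi, map_sub, cc_pt, hwv, zero_smul, sub_zero]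
  have hne : ∀ s t : F, s • w + t • y + z ≠ 0 := fun s t h => hz <| by
    have : z = (-s) • w + (-t) • y := by linear_combination (norm := module) h
    rw [this]
    exact Submodule.mem_span_pair.mpr ⟨-s, -t, rfl⟩
  have hv : ∀ v : Fin n₂ → F, v ∈ Submodule.span F ({w, y, z} : Set (Fin n₂ → F)) →
      f₂ w v = 0 ∧ f₂ y v = 0 ∧ f₂ z v = 0 := by
    intro v hv
    induction hv using Submodule.span_induction with
    | mem x hx =>
      rcases hx with rfl | rfl | rfl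
      · exact ⟨hww, hyw, hzw⟩
      · exact ⟨hwy, hyy, hzy⟩
      · exact ⟨hwz, hyz, hzz⟩
    | zero => exact ⟨Symp.zero_right hf w, Symp.zero_right hf y, Symp.zero_right hf z⟩
    | add a b _ _ ha hb =>
      simp only [hf.bilinear.add_right, ha, hb, add_zero, and_self]
    | smul t a _ ha => simp only [hf.bilinear.smul_right, ha, mul_zero, and_self]
  obtain ⟨g₁, hg₁, h₁⟩ := key (w + y + z) (by simpa using hne 1 1)
    (by rw [hf.bilinear.add_right, hf.bilinear.add_right, hww, hwy, hwz, add_zero, add_zero])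
  obtain ⟨g₂, hg₂, h₂⟩ := key (w + z) (by simpa using hne 1 0)
    (by rw [hf.bilinear.add_right, hww, hwz, add_zero])
  obtain ⟨g₃, hg₃, h₃⟩ := key (y + z) (by simpa using hne 0 1)
    (by rw [hf.bilinear.add_right, hwy, hwz, add_zero])
  obtain ⟨g₄, hg₄, h₄⟩ := key z (by simpa using hne 0 0) hwz
  have hcomp : Comp Q e P f₂ M w y K := by
    refine ⟨hyw, g₁ * g₂⁻¹ * g₃⁻¹ * g₄, ?_, fun a z₂ hz₂ => ?_⟩
    · have hmem : g₁ * g₂⁻¹ * g₃⁻¹ * g₄ ∈ M :=
        mul_mem (mul_mem (mul_mem hg₁ (inv_mem hg₂)) (inv_mem hg₃)) hg₄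
      exact ⟨hmem, hMO hmem⟩
    have hw₂ : ∀ p : Fin n₁ → F, hT.cc w (pt e P p z₂) = 0 := fun p => by
      rw [cc_pt, hz₂, zero_smul]
    set X := pt e P a z₂ with hX
    -- moved vectors differ by tensors in the isotropic span
    set A := K a with hA
    set β := f₂ z₂ z with hβ
    set γ := f₂ z₂ y with hγ
    set p₁ := pt e P A (w + y + z) with hp₁
    set p₂ := pt e P A (w + z) with hp₂
    set p₃ := pt e P A (y + z) with hp₃
    set p₄ := pt e P A z with hp₄
    have hinv : ∀ (g : GL ι F) (v : Fin n₂ → F), (∀ x,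
        ap g x = x - pt e P (K (hT.cc w x)) w + pt e P (K (hT.cc v x)) v) →
        v ∈ Submodule.span F ({w, y, z} : Set (Fin n₂ → F)) →
        ∀ d : ι → F, hT.cc w d = 0 → ap g⁻¹ d = d - pt e P (K (hT.cc v d)) v := by
      intro g v hg hvs d hd
      apply ap_injective g
      have hvv : hT.cc v (pt e P (K (hT.cc v d)) v) = 0 := by
        rw [cc_pt, hf.alternating v, zero_smul]
      have hvw : hT.cc w (pt e P (K (hT.cc v d)) v) = 0 := by
        rw [cc_pt, (Symp.eq_zero_comm hf).mp (hv v hvs).1, zero_smul]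
      rw [ap_ap_inv, hg]
      simp only [map_sub, hd, hvv, hvw, sub_zero, map_zero, pt_zero_left]
      abel
    have hwm : w ∈ Submodule.span F ({w, y, z} : Set (Fin n₂ → F)) :=
      Submodule.subset_span (by simp)
    have hym : y ∈ Submodule.span F ({w, y, z} : Set (Fin n₂ → F)) :=
      Submodule.subset_span (by simp)
    have hzm : z ∈ Submodule.span F ({w, y, z} : Set (Fin n₂ → F)) :=
      Submodule.subset_span (by simp)
    have hc0 : ∀ v v' : Fin n₂ → F, v ∈ Submodule.span F ({w, y, z} : Set (Fin n₂ → F)) →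
        v' ∈ Submodule.span F ({w, y, z} : Set (Fin n₂ → F)) →
        ∀ p, hT.cc v (pt e P p v') = 0 := by
      intro v v' hv1 hv2 p
      have : f₂ v' v = 0 := by
        induction hv2 using Submodule.span_induction with
        | mem x hx =>
          rcases hx with rfl | rfl | rfl
          exacts [(hv v hv1).1, (hv v hv1).2.1, (hv v hv1).2.2]
        | zero => exact Symp.zero_left hf v
        | add a b _ _ ha hb => rw [hf.bilinear.add_left, ha, hb, add_zero]
        | smul t a _ ha => rw [hf.bilinear.smul_left, ha, mul_zero]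
      rw [cc_pt, this, zero_smul]
    have m1 : w + y + z ∈ Submodule.span F ({w, y, z} : Set (Fin n₂ → F)) :=
      Submodule.add_mem _ (Submodule.add_mem _ hwm hym) hzm
    have m2 : w + z ∈ Submodule.span F ({w, y, z} : Set (Fin n₂ → F)) :=
      Submodule.add_mem _ hwm hzm
    have m3 : y + z ∈ Submodule.span F ({w, y, z} : Set (Fin n₂ → F)) :=
      Submodule.add_mem _ hym hzm
    have e4 : ap g₄ X = X + β • p₄ := by
      rw [h₄, hw₂, map_zero, pt_zero_left, sub_zero, cc_pt, map_smul, pt_smul_left]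
    have e3 : ap g₃⁻¹ (X + β • p₄) = X + β • p₄ - (γ + β) • p₃ := by
      rw [hinv g₃ _ h₃ m3 _ (by rw [map_add, map_smul, hw₂, hc0 w z hwm hzm, smul_zero, add_zero]),
        map_add (hT.cc _), map_smul (hT.cc _), hc0 _ _ m3 hzm, smul_zero, add_zero, cc_pt,
        map_smul, pt_smul_left, hf.bilinear.add_right]
    have e2 : ap g₂⁻¹ (X + β • p₄ - (γ + β) • p₃) = X + β • p₄ - (γ + β) • p₃ - β • p₂ := by
      rw [hinv g₂ _ h₂ m2 _ (by
          rw [map_sub, map_add, map_smul, map_smul, hw₂, hc0 w z hwm hzm,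
            hc0 w _ hwm m3, smul_zero, smul_zero, add_zero, sub_zero]),
        map_sub (hT.cc _), map_add (hT.cc _), map_smul (hT.cc _), map_smul (hT.cc _),
        hc0 _ _ m2 hzm, hc0 _ _ m2 m3, smul_zero, smul_zero, add_zero, sub_zero, cc_pt, map_smul,
        pt_smul_left, hf.bilinear.add_right, hz₂, zero_add]
    rw [ap_mul, ap_mul, ap_mul, e4, e3, e2, h₁, hp₂, hp₃, hp₄, hX]
    simp only [map_sub, map_add, map_smul, hw₂, hc0 w z hwm hzm, hc0 w _ hwm m3, hc0 w _ hwm m2,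
      hc0 _ _ m1 hzm, hc0 _ _ m1 m3, hc0 _ _ m1 m2, smul_zero, add_zero, sub_zero, map_zero,
      pt_zero_left]
    rw [cc_pt, map_smul, pt_smul_left, hf.bilinear.add_right, hf.bilinear.add_right, hz₂,
      zero_add, pt_add_right, pt_add_right, pt_add_right, pt_add_right]
    module
  exact hT.omega_le_of_comp hQ hn hH hn₂ hMO hq hw hy hcomp hu₀

/-- An element outside the stabiliser fixing a slice forces the whole of `omegaGL`. -/
lemma omega_le_of_slice_fix {g : GL ι F} (hg : g ∈ M)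
    (hgT : g ∉ Cfsg.Geo.tensorProductSubgroup n₁ n₂ e P) {w : Fin n₂ → F} (hw : w ≠ 0)
    (hmap : ∀ x ∈ slice e P w, ap g x ∈ slice e P w) : Cfsg.Geo.omegaGL (⇑Q) ≤ M := by
  classical
  have hf := hT.symp₂
  have hn₁ : 0 < n₁ := by
    by_contra h
    have := Fintype.card_congr e
    simp [show n₁ = 0 by omega] at this
    omega
  obtain ⟨ω, -, hω⟩ := exists_functional_eq_one
    (U := (⊥ : Submodule F (Fin n₂ → F))) (x := w) (by simpa using hw)
  set G₀ := (con e P ω).comp ((apEquiv g).toLinearMap.comp (ptl e P w)) with hG₀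
  have hG : ∀ u, ap g (pt e P u w) = pt e P (G₀ u) w := by
    intro u
    obtain ⟨u', hu'⟩ := hmap _ (pt_mem_slice e P u w)
    simp only [ptl_apply] at hu'
    simp [hG₀, ← hu', hω]
  have hGinj : Function.Injective G₀ := by
    intro u u' h
    refine pt_inj_left e P hw (ap_injective g ?_)
    rw [hG, hG, h]
  let G : GL (Fin n₁) F :=
    ofEquiv (LinearEquiv.ofBijective G₀ ⟨hGinj, LinearMap.injective_iff_surjective.mp hGinj⟩)
  have hGap : ∀ u, ap G u = G₀ u := fun u => by rw [ap_ofEquiv]; rfl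
  have hginv : ∀ u, ap g⁻¹ (pt e P u w) = pt e P (ap G⁻¹ u) w := by
    intro u
    apply ap_injective g
    rw [ap_ap_inv, hG, ← hGap, ap_ap_inv]
  have hgI : g⁻¹ ∈ Cfsg.isometryGroup F (⇑Q) := inv_mem (hMO hg)
  have hperp : ∀ v, hT.cc w v = 0 → hT.cc w (ap g⁻¹ v) = 0 := fun v hv =>
    eq_of_forall_f hT.symp₁ fun b => mul_left_cancel₀ hT.c_ne (by
      have h := hT.polar_right (ap g⁻¹ v) b w
      rw [← polar_ap (hMO hg) (ap g⁻¹ v), ap_ap_inv, hG, hT.polar_right, hv,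
        Symp.zero_left hT.symp₁, mul_zero] at h
      rw [← h, Symp.zero_left hT.symp₁, mul_zero])
  -- the factorwise elements at the slice
  have hk : ∀ y, ∃ k ∈ Cfsg.Geo.tensorProductSubgroup n₁ n₂ e P ⊓ Cfsg.Geo.omegaGL (⇑Q),
      (∃ b₁ ∈ isom f₂, k = kron e P (1 : GL (Fin n₁) F) b₁) ∧ (f₂ y w = 0 → ∀ v, hT.cc w v = 0 → ap k v = v + pt e P (hT.cc y v) w) := by
    intro y
    refine ⟨kron e P (1 : GL (Fin n₁) F) (Symp.T hf (y + w) 1 * Symp.T hf y (-1)),
      hT.kron_mem_inf hQ hn (one_mem _)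
        (mul_mem (Symp.T_mem_isom hf _ _) (Symp.T_mem_isom hf _ _)),
      ⟨_, mul_mem (Symp.T_mem_isom hf _ _) (Symp.T_mem_isom hf _ _), rfl⟩, fun hyw v hv => ?_⟩
    have hk' : kron e P (1 : GL (Fin n₁) F) (Symp.T hf (y + w) 1 * Symp.T hf y (-1)) =
        kron e P (1 : GL (Fin n₁) F) (Symp.T hf (y + w) 1) *
          kron e P (1 : GL (Fin n₁) F) (Symp.T hf y (-1)) := by
      rw [← kron_mul, one_mul]
    rw [hk', ap_mul, hT.ap_one_kron_T, hT.ap_one_kron_T, map_add, map_smul, cc_pt,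
      hf.bilinear.add_right, hf.alternating y, hyw, hT.cc_add, hv, pt_add_right]
    simp only [add_zero, zero_add, zero_smul, smul_zero, one_smul]
    module
  by_cases hall : ∀ y, f₂ y w = 0 → ∀ z, f₂ z w = 0 → ∀ u, ∃ t : F,
      ap G (hT.cc y (ap g⁻¹ (pt e P u z))) = t • u
  swap
  · push Not at hall
    obtain ⟨y, hy, z, hz, u, hu⟩ := hall
    obtain ⟨k, hk, ⟨b₁, hb₁, hkb⟩, hkv⟩ := hk y
    have hkM : k ∈ M := hkb ▸ hH _ (one_mem _) _ hb₁
    set B := (apEquiv G).toLinearMap ∘ₗ hT.cc y ∘ₗ (apEquiv g⁻¹).toLinearMap ∘ₗ ptl e P z with hB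
    have hrM : g * k * g⁻¹ ∈ M := mul_mem (mul_mem hg hkM) (inv_mem hg)
    have hrz : ∀ a, ap (g * k * g⁻¹) (pt e P a z) = pt e P a z + pt e P (B a) w := fun a => by
      rw [ap_mul, ap_mul, hkv hy _ (hperp _ (by rw [cc_pt, hz, zero_smul])), ap_add, ap_ap_inv,
        hG, ← hGap]
      rfl
    have hkr := hT.kron_mem hQ hn hH (one_mem _) (Symp.T_mem_isom hf z 1)
    have hcomp := hT.comp_of_conj hQ hn hH (hMO hrM) hz hrz
      (mul_mem (mul_mem hrM hkr.1) (inv_mem hrM))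
    refine hT.omega_le_of_comp hQ hn hH hn₂ hMO hq hw ?_ hcomp (u₀ := u) fun t => by
      simpa [hB] using hu t
    intro hmem
    obtain ⟨t, rfl⟩ := Submodule.mem_span_singleton.mp hmem
    refine hu 0 ?_
    rw [pt_smul_right, ap_smul, hginv, map_smul, cc_pt, (Symp.eq_zero_comm hf).mp hy, zero_smul,
      smul_zero, ap_zero, zero_smul]
  -- the scalar case
  obtain ⟨u₀, hu₀⟩ : ∃ u₀ : Fin n₁ → F, u₀ ≠ 0 :=
    ⟨Pi.single ⟨0, hn₁⟩ 1, fun h => by simpa using congrFun h ⟨0, hn₁⟩⟩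
  obtain ⟨α, -, hα⟩ := exists_functional_eq_one
    (U := (⊥ : Submodule F (Fin n₁ → F))) (x := u₀) (by simpa using hu₀)
  set q := kron e P G 1 * g⁻¹ with hq'
  have hconq : ∀ φ x, con e P φ (ap q x) = ap G (con e P φ (ap g⁻¹ x)) := by
    intro φ x
    rw [hq', ap_mul]
    exact LinearMap.congr_fun (ext_pt e P
      (f := (con e P φ).comp (apEquiv (kron e P G 1)).toLinearMap)
      (g := (apEquiv G).toLinearMap.comp (con e P φ)) fun a b => by simp [ap_smul]) _
  set T₀ := (conr e P α).comp ((apEquiv q).toLinearMap.comp (ptr e P u₀)) with hT₀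
  have hTw : T₀ w = w := by simp [hT₀, hq', ap_mul, hginv, ap_ap_inv, hα]
  have hTmod : ∀ u z, f₂ z w = 0 → ∃ d, ap g⁻¹ (pt e P u z) =
      pt e P (ap G⁻¹ u) (T₀ z) + pt e P d w := by
    intro u z hz
    have hsc : ∀ φ : (Fin n₂ → F) →ₗ[F] F, φ w = 0 →
        con e P φ (ap q (pt e P u z) - pt e P u (T₀ z)) = 0 := by
      intro φ hφ
      obtain ⟨y, rfl⟩ := Symp.exists_eq_fl hf φ
      have hy : f₂ y w = 0 := (Symp.eq_zero_comm hf).mp hφ
      obtain ⟨t, ht⟩ := exists_scalar (B := (apEquiv G).toLinearMap.comp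
        ((hT.cc y).comp ((apEquiv g⁻¹).toLinearMap.comp (ptl e P z)))) fun v => by
          simpa using hall y hy z hz v
      simp only [LinearMap.comp_apply, LinearEquiv.coe_coe, apEquiv_apply, ptl_apply] at ht
      have h1 : f₂ (T₀ z) y = t := by
        rw [← Symp.fl_apply hf y, hT₀, LinearMap.comp_apply, LinearMap.comp_apply,
          LinearEquiv.coe_coe, apEquiv_apply, ptr_apply, apply_conr, hconq, show con e P (Symp.fl hf y) = hT.cc y from rfl, ht, map_smul,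
          hα, smul_eq_mul, mul_one]
      rw [map_sub, hconq, con_pt, Symp.fl_apply, show con e P (Symp.fl hf y) = hT.cc y from rfl, ht, h1, sub_self]
    have hd := mem_slice_of_con e P hω hsc
    set d := con e P ω (ap q (pt e P u z) - pt e P u (T₀ z)) with hd'
    refine ⟨ap G⁻¹ d, ap_injective (kron e P G 1) ?_⟩
    rw [← ap_mul, ← hq', ap_add, ap_kron, ap_kron, ap_one, ap_one, ap_ap_inv, ap_ap_inv, ← hd]
    abel
  have hTperp : ∀ z, f₂ z w = 0 → f₂ (T₀ z) w = 0 := by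
    intro z hz
    obtain ⟨d, hd⟩ := hTmod u₀ z hz
    have h := hperp (pt e P u₀ z) (by rw [cc_pt, hz, zero_smul])
    rw [hd, map_add, cc_pt, cc_pt, hf.alternating w, zero_smul, add_zero, smul_eq_zero] at h
    exact h.resolve_right (ap_ne_zero _ hu₀)
  have hform : ∀ u u' z z', f₂ z w = 0 → f₂ z' w = 0 →
      f₁ (ap G⁻¹ u) (ap G⁻¹ u') * f₂ (T₀ z) (T₀ z') = f₁ u u' * f₂ z z' := by
    intro u u' z z' hz hz'
    obtain ⟨d, hd⟩ := hTmod u z hz
    obtain ⟨d', hd'⟩ := hTmod u' z' hz'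
    have h := polar_ap hgI (pt e P u z) (pt e P u' z')
    rw [hd, hd', polar_add_left, polar_add_right, polar_add_right, hT.polar_pt, hT.polar_pt,
      hT.polar_pt, hT.polar_pt, hT.polar_pt, hf.alternating w, hTperp z hz,
      (Symp.eq_zero_comm hf).mp (hTperp z' hz')] at h
    exact mul_left_cancel₀ hT.c_ne (by linear_combination h)
  obtain ⟨z₀, hz₀, -, hz₀s⟩ := exists_perp_notMem hn₂ hf w w
  rw [Set.pair_eq_singleton] at hz₀s
  obtain ⟨z₁, hz₁', hz₀₁⟩ := Symp.exists_perp_one hf hz₀s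
  have hz₁ : f₂ z₁ w = 0 := (Symp.mem_perp_span hf).mp hz₁'
  set κ := f₂ (T₀ z₀) (T₀ z₁) with hκ
  obtain ⟨u₁, -, hu₀₁⟩ := Symp.exists_perp_one hT.symp₁ (U := ⊥) (x := u₀) (by simpa using hu₀)
  have hκ0 : κ ≠ 0 := fun h => by
    have := hform u₀ u₁ z₀ z₁ hz₀ hz₁
    rw [← hκ, h, mul_zero, hu₀₁, hz₀₁, mul_one] at this
    exact zero_ne_one this
  have hGsim : ∀ u u', f₁ (ap G⁻¹ u) (ap G⁻¹ u') = κ⁻¹ * f₁ u u' := fun u u' => by
    have := hform u u' z₀ z₁ hz₀ hz₁
    rw [← hκ, hz₀₁, mul_one] at this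
    rw [← this]
    field_simp
  have hTsim : ∀ z z', f₂ z w = 0 → f₂ z' w = 0 → f₂ (T₀ z) (T₀ z') = κ * f₂ z z' := by
    intro z z' hz hz'
    have := hform u₀ u₁ z z' hz hz'
    rw [hGsim, hu₀₁, mul_one, one_mul] at this
    rw [← this]
    field_simp
  obtain ⟨w', -, hww'⟩ := Symp.exists_perp_one hf (U := ⊥) (x := w) (by simpa using hw)
  set R := LinearMap.ker (Symp.fl hf w) with hR
  have hR' : ∀ z, z ∈ R ↔ f₂ z w = 0 := fun z => Iff.rfl
  have hTinj : LinearMap.ker (T₀.domRestrict R) = ⊥ := by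
    rw [eq_bot_iff]
    rintro ⟨z, hz⟩ hz0
    rw [LinearMap.mem_ker, LinearMap.domRestrict_apply] at hz0
    have hmem : z ∈ Submodule.span F {w} := by
      refine Symp.mem_of_forall_perp hf fun p hp => ?_
      have := hTsim z p ((hR' z).mp hz) ((Symp.mem_perp_span hf).mp hp)
      rw [hz0, Symp.zero_left hf, eq_comm, mul_eq_zero] at this
      exact this.resolve_left hκ0
    obtain ⟨t, rfl⟩ := Submodule.mem_span_singleton.mp hmem
    rw [map_smul, hTw] at hz0
    exact (Submodule.mem_bot F).mpr (Subtype.ext hz0)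
  obtain ⟨L, hL⟩ := (T₀.domRestrict R).exists_leftInverse_of_injective hTinj
  obtain ⟨v, hv⟩ := Symp.exists_eq_fl hf (κ • ((Symp.fl hf w').comp (R.subtype.comp L)))
  have hvT : ∀ z, f₂ z w = 0 → f₂ (T₀ z) v = κ * f₂ z w' := fun z hz => by
    have h := LinearMap.congr_fun hv (T₀ z)
    have h2 := LinearMap.congr_fun hL ⟨z, (hR' z).mpr hz⟩
    simp only [LinearMap.comp_apply, LinearMap.domRestrict_apply, LinearMap.id_apply] at h2
    simp only [Symp.fl_apply, LinearMap.smul_apply, LinearMap.comp_apply, h2,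
      Submodule.subtype_apply, smul_eq_mul] at h
    exact h
  set p : (Fin n₂ → F) →ₗ[F] (Fin n₂ → F) :=
    LinearMap.id + (Symp.fl hf w).smulRight w' with hp
  have hpw : ∀ x, f₂ (p x) w = 0 := fun x => by
    simp [hp, hf.bilinear.add_left, hf.bilinear.smul_left, hf.skew w' w, hww']
  have hpid : ∀ z, f₂ z w = 0 → p z = z := fun z hz => by simp [hp, hz]
  set b₀ := T₀.comp p - (Symp.fl hf w).smulRight v with hb₀
  have hbsim : ∀ x x', f₂ (b₀ x) (b₀ x') = κ * f₂ x x' := by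
    intro x x'
    have hx : ∀ x, x = p x - f₂ x w • w' := fun x => by simp [hp]
    conv_rhs => rw [hx x, hx x']
    simp only [hb₀, LinearMap.sub_apply, LinearMap.comp_apply, LinearMap.smulRight_apply,
      Symp.fl_apply, Symp.sub_left hf, Symp.sub_right hf, hf.bilinear.smul_left,
      hf.bilinear.smul_right, hTsim _ _ (hpw x) (hpw x'), hvT _ (hpw x),
      hf.skew v (T₀ (p x')), hvT _ (hpw x'), hf.alternating v, hf.skew w' (p x'),
      hf.alternating w']
    ring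
  have hbinj : Function.Injective b₀ := by
    rw [← LinearMap.ker_eq_bot, eq_bot_iff]
    intro x hx
    rw [Submodule.mem_bot]
    by_contra hx0
    obtain ⟨x', hx'⟩ := (hf.nondegenerate x hx0).2
    have := hbsim x x'
    rw [LinearMap.mem_ker.mp hx, Symp.zero_left hf, eq_comm, mul_eq_zero] at this
    exact hx' (this.resolve_left hκ0)
  let b : GL (Fin n₂) F :=
    ofEquiv (LinearEquiv.ofBijective b₀ ⟨hbinj, LinearMap.injective_iff_surjective.mp hbinj⟩)
  have hbap : ∀ x, ap b x = b₀ x := fun x => by rw [ap_ofEquiv]; rfl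
  have hbz : ∀ z, f₂ z w = 0 → ap b z = T₀ z := fun z hz => by
    rw [hbap, hb₀]; simp [hpid z hz, hz]
  have hbw : ap b w = w := by rw [hbz w (hf.alternating w), hTw]
  set k := kron e P G⁻¹ b with hkdef
  have hkI : k ∈ Cfsg.isometryGroup F (⇑Q) :=
    hT.kron_isometry G⁻¹ b (μ := κ⁻¹) (ν := κ) (inv_mul_cancel₀ hκ0) hGsim
      fun y y' => by rw [hbap, hbap, hbsim]
  -- conjugate the overgroup
  set M' := M.comap (MulAut.conj k).toMonoidHom with hM'
  have hmem' : ∀ {x}, x ∈ M' ↔ k * x * k⁻¹ ∈ M := Iff.rfl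
  have hH' : ∀ a ∈ isom f₁, ∀ c' ∈ isom f₂, kron e P a c' ∈ M' := by
    intro a ha c' hc'
    rw [hmem', hkdef, kron_inv, ← kron_mul, ← kron_mul]
    refine hH _ (mem_isom_iff.mpr fun x y => ?_) _ (mem_isom_iff.mpr fun x y => ?_)
    · rw [ap_mul, ap_mul, ap_mul, ap_mul, hGsim, mem_isom_iff.mp ha, ← hGsim, ap_ap_inv, ap_ap_inv]
    · rw [ap_mul, ap_mul, ap_mul, ap_mul, hbap, hbap, hbsim, mem_isom_iff.mp hc', ← hbsim, ← hbap,
        ← hbap, ap_ap_inv, ap_ap_inv]
  have hMO' : M' ≤ Cfsg.isometryGroup F (⇑Q) := fun x hx => by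
    have := mul_mem (mul_mem (inv_mem hkI) (hMO (hmem'.mp hx))) hkI
    simpa [mul_assoc] using this
  suffices hfin : Cfsg.Geo.omegaGL (⇑Q) ≤ M' by
    intro x hx
    have := hmem'.mp (hfin (omegaGL_conj_mem (inv_mem hkI) hx))
    simpa [mul_assoc] using this
  set r := k⁻¹ * g⁻¹ with hr
  have hrI : r ∈ Cfsg.isometryGroup F (⇑Q) := mul_mem (inv_mem hkI) hgI
  have hrh : ∀ c' ∈ isom f₂, r * kron e P (1 : GL (Fin n₁) F) c' * r⁻¹ ∈ M' := fun c' hc' => by
    rw [hmem', hr]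
    simpa [mul_assoc] using mul_mem (mul_mem (inv_mem hg) (hH _ (one_mem _) _ hc')) hg
  have hkinv : ∀ u y, ap k⁻¹ (pt e P u y) = pt e P (ap G u) (ap b⁻¹ y) := fun u y => by
    rw [hkdef, kron_inv, ap_kron, inv_inv]
  have hbi : ap b⁻¹ w = w := by conv_lhs => rw [← hbw, ap_inv_ap]
  have hrz : ∀ u z, f₂ z w = 0 → ∃ d, ap r (pt e P u z) = pt e P u z + pt e P d w := by
    intro u z hz
    obtain ⟨d, hd⟩ := hTmod u z hz
    refine ⟨ap G d, ?_⟩
    rw [hr, ap_mul, hd, ap_add, hkinv, hkinv, hbi, ap_ap_inv, ← hbz z hz, ap_inv_ap]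
  have hrw : ∀ u, ap r (pt e P u w) = pt e P u w := fun u => by
    rw [hr, ap_mul, hginv, hkinv, hbi, ap_ap_inv]
  set S := (con e P ω).comp ((apEquiv r).toLinearMap - LinearMap.id) with hS
  have hrS : ∀ u z, f₂ z w = 0 →
      ap r (pt e P u z) = pt e P u z + pt e P (S (pt e P u z)) w := by
    intro u z hz
    obtain ⟨d, hd⟩ := hrz u z hz
    simp [hS, hd, hω]
  by_cases hall' : ∀ z, f₂ z w = 0 → ∀ u, ∃ t : F, S (pt e P u z) = t • u
  swap
  · push Not at hall'
    obtain ⟨z, hz, u, hu⟩ := hall'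
    have hcomp := hT.comp_of_conj hQ hn hH' hrI hz (B := S.comp (ptl e P z))
      (fun a => hrS a z hz) (hrh _ (Symp.T_mem_isom hf z 1))
    refine hT.omega_le_of_comp hQ hn hH' hn₂ hMO' hq hw ?_ hcomp (u₀ := u) hu
    intro hmem
    obtain ⟨t, rfl⟩ := Submodule.mem_span_singleton.mp hmem
    refine hu 0 ?_
    simp [hS, pt_smul_right, ap_smul, hrw]
  set σ := α.comp (S.comp (ptr e P u₀)) with hσ
  have hσS : ∀ u z, f₂ z w = 0 → S (pt e P u z) = σ z • u := by
    intro u z hz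
    obtain ⟨t, ht⟩ := exists_scalar (B := S.comp (ptl e P z)) fun v => by simpa using hall' z hz v
    simp only [LinearMap.comp_apply, ptl_apply] at ht
    simp [hσ, ht, hα]
  obtain ⟨y, hy⟩ := Symp.exists_eq_fl hf σ
  have hyw : f₂ y w = 0 := by
    refine (Symp.eq_zero_comm hf).mp ?_
    rw [← Symp.fl_apply hf y, hy, hσ]
    simp [hS, hrw]
  obtain ⟨k', hk', ⟨b₁, hb₁, hkb⟩, hk'v⟩ := hk y
  have hk'M : k' ∈ M' := hkb ▸ hH' _ (one_mem _) _ hb₁
  set ζ := k'⁻¹ * r with hζ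
  have hζfix : ∀ u z, f₂ z w = 0 → ap ζ (pt e P u z) = pt e P u z := by
    intro u z hz
    apply ap_injective k'
    rw [hζ, ap_mul, ap_ap_inv, hrS u z hz, hσS u z hz,
      hk'v hyw _ (by rw [cc_pt, hz, zero_smul]), cc_pt, ← Symp.fl_apply hf y, hy]
  have hζI : ζ ∈ Cfsg.isometryGroup F (⇑Q) := mul_mem (inv_mem (omegaGL_le hk'.2)) hrI
  have hζh : ∀ c' ∈ isom f₂, ζ * kron e P (1 : GL (Fin n₁) F) c' * ζ⁻¹ ∈ M' := fun c' hc' => by
    have := mul_mem (mul_mem (inv_mem hk'M) (hrh c' hc')) hk'M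
    simpa [hζ, mul_assoc] using this
  set K := -((con e P ω).comp (((apEquiv ζ).toLinearMap - LinearMap.id).comp (ptl e P w')))
    with hK
  have hζslice : ∀ v, ∃ d, ap ζ v - v = pt e P d w := fun v => ⟨_, mem_slice_of_con e P hω
    fun φ hφ => by
      obtain ⟨z, rfl⟩ := Symp.exists_eq_fl hf φ
      have hz : f₂ z w = 0 := (Symp.eq_zero_comm hf).mp hφ
      refine eq_of_forall_f hT.symp₁ fun a => mul_left_cancel₀ hT.c_ne ?_
      have h := hT.polar_right (ap ζ v - v) a z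
      rw [polar_sub_left] at h
      have h2 := polar_ap hζI v (pt e P a z)
      rw [hζfix a z hz] at h2
      rw [h2, sub_self] at h
      rw [Symp.zero_left hT.symp₁, mul_zero]
      exact h.symm⟩
  have hζK : ∀ x, ap ζ x = x + pt e P (K (hT.cc w x)) w := by
    refine LinearMap.congr_fun (ext_pt e P (f := (apEquiv ζ).toLinearMap)
      (g := LinearMap.id + (ptl e P w).comp (K.comp (hT.cc w))) fun u x => ?_)
    obtain ⟨d, hd⟩ := hζslice (pt e P u w')
    have hKu : K u = -d := by simp [hK, hd, hω]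
    have hx : x = p x - f₂ x w • w' := by simp [hp]
    have hd' : ap ζ (pt e P u w') = pt e P u w' + pt e P d w := by rw [← hd]; abel
    simp only [LinearEquiv.coe_coe, apEquiv_apply, LinearMap.add_apply, LinearMap.id_apply,
      LinearMap.comp_apply, ptl_apply, cc_pt, map_smul, hKu]
    conv_lhs => rw [hx, pt_sub_right, pt_smul_right, ap_sub, ap_smul, hd', hζfix u _ (hpw x)]
    conv_rhs => arg 1; rw [hx, pt_sub_right, pt_smul_right]
    rw [← ptl_apply e P w (-d), map_neg, ptl_apply]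
    module
  by_cases hKs : ∀ u, ∃ t : F, K u = t • u
  · exfalso
    obtain ⟨t, ht⟩ := exists_scalar hKs
    have hζT : ζ = kron e P (1 : GL (Fin n₁) F) (Symp.T hf w t) := gl_ext fun x => by
      rw [hζK, hT.ap_one_kron_T, ht, pt_smul_left]
    refine hgT ?_
    have hgeq : g⁻¹ = k * (k' * ζ) := by rw [hζ, hr]; group
    have : g⁻¹ ∈ Cfsg.Geo.tensorProductSubgroup n₁ n₂ e P := by
      rw [hgeq, hζT]
      exact mul_mem (Tensor.kron_mem e P _ _) (mul_mem hk'.1 (Tensor.kron_mem e P _ _))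
    simpa using inv_mem this
  push Not at hKs
  obtain ⟨u, hu⟩ := hKs
  refine hT.omega_le_of_quadratic hQ hn hn₂ hq hH' hMO' hw hζK hu fun c' hc' => ?_
  have := mul_mem (hH' _ (one_mem _) _ hc') (hζh _ (inv_mem hc'))
  simpa [mul_assoc, kron_inv] using this

end STensor

end CfsgLib.Geometric.Orth
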