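import Cfsg.Agent.Lib.Geometric.Orth.SympTensor

/-!
An overgroup of the stabiliser of a tensor product of symplectic forms with a unipotent element
whose components at a slice are not all scalar is the whole of `omegaGL`.
-/

namespace CfsgLib.Geometric.Orth

open Matrix QuadraticMap Tensor

variable {ι : Type} [Fintype ι] [DecidableEq ι] {F : Type*} [Field F]
variable {Q : QuadraticForm F (ι → F)} {n₁ n₂ : ℕ} {e : ι ≃ Fin n₁ × Fin n₂} {P : GL ι F}
  {f₁ : (Fin n₁ → F) → (Fin n₁ → F) → F} {f₂ : (Fin n₂ → F) → (Fin n₂ → F) → F} {c : F}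

lemma exists_perp_notMem {m : ℕ} (hm : 5 ≤ m) {f : (Fin m → F) → (Fin m → F) → F}
    (hf : Cfsg.Geo.IsSymplecticForm f) (x y : Fin m → F) :
    ∃ z, f z x = 0 ∧ f z y = 0 ∧ z ∉ Submodule.span F ({x, y} : Set (Fin m → F)) := by
  let Φ := (Symp.fl hf x).prod (Symp.fl hf y)
  by_contra h
  push Not at h
  have h1 : LinearMap.ker Φ ≤ Submodule.span F (Set.range ![x, y]) := fun z hz => by
    rw [show Set.range ![x, y] = {x, y} by simp [Set.pair_comm]]
    exact h z (congrArg Prod.fst hz) (congrArg Prod.snd hz)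
  have h2 := Submodule.finrank_mono h1
  have h3 := finrank_range_le_card (R := F) ![x, y]
  have h4 := Φ.finrank_range_add_finrank_ker
  have h5 := Submodule.finrank_le (LinearMap.range Φ)
  rw [Set.finrank, Fintype.card_fin] at h3
  rw [Module.finrank_fin_fun] at h4
  rw [Module.finrank_prod, Module.finrank_self] at h5
  omega

namespace STensor

/-- An element of `M` adding `f₂(·, y) B` towards the slice of `w` on the slices orthogonal to it. -/
def Comp (Q : QuadraticForm F (ι → F)) (e : ι ≃ Fin n₁ × Fin n₂) (P : GL ι F)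
    (f₂ : (Fin n₂ → F) → (Fin n₂ → F) → F) (M : Subgroup (GL ι F)) (w y : Fin n₂ → F)
    (B : (Fin n₁ → F) →ₗ[F] (Fin n₁ → F)) : Prop :=
  f₂ y w = 0 ∧ ∃ g ∈ M ⊓ Cfsg.isometryGroup F (⇑Q), ∀ a z, f₂ z w = 0 →
    ap g (pt e P a z) = pt e P a z + f₂ z y • pt e P (B a) w

variable (hT : STensor Q e P f₁ f₂ c) {M : Subgroup (GL ι F)}
include hT

lemma ap_one_kron_T (z : Fin n₂ → F) (t : F) (v : ι → F) :
    ap (kron e P (1 : GL (Fin n₁) F) (Symp.T hT.symp₂ z t)) v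
      = v + t • pt e P (hT.cc z v) z := by
  have h : (apEquiv (kron e P (1 : GL (Fin n₁) F) (Symp.T hT.symp₂ z t))).toLinearMap =
      LinearMap.id + t • (ptl e P z).comp (hT.cc z) :=
    ext_pt e P fun a y => by
      simp [Symp.ap_T, pt_add_right, pt_smul_right, pt_smul_left, smul_smul]
  exact LinearMap.congr_fun h v

lemma one_kron_T_inv (z : Fin n₂ → F) (t : F) :
    (kron e P (1 : GL (Fin n₁) F) (Symp.T hT.symp₂ z t))⁻¹ =
      kron e P (1 : GL (Fin n₁) F) (Symp.T hT.symp₂ z (-t)) := by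
  refine inv_eq_of_mul_eq_one_right ?_
  rw [← kron_mul, one_mul, Symp.T_mul, add_neg_cancel, Symp.T_zero_right]
  exact gl_ext_pt e P fun a y => by simp

/-- The contraction after an isometry. -/
lemma cc_inv_ap {r : GL ι F} (hr : r ∈ Cfsg.isometryGroup F (⇑Q)) {w z : Fin n₂ → F}
    {B : (Fin n₁ → F) →ₗ[F] (Fin n₁ → F)}
    (hrz : ∀ a, ap r (pt e P a z) = pt e P a z + pt e P (B a) w) (v : ι → F) (b : Fin n₁ → F) :
    f₁ (hT.cc z (ap r⁻¹ v)) b = f₁ (hT.cc z v) b + f₁ (hT.cc w v) (B b) := by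
  have h := polar_ap hr (ap r⁻¹ v) (pt e P b z)
  rw [ap_ap_inv, hrz, polar_add_right, hT.polar_right, hT.polar_right, hT.polar_right,
    ← mul_add] at h
  exact (mul_left_cancel₀ hT.c_ne h).symm

omit hT in
lemma eq_of_forall_f {m : ℕ} {f : (Fin m → F) → (Fin m → F) → F}
    (hf : Cfsg.Geo.IsSymplecticForm f) {p r : Fin m → F} (h : ∀ b, f p b = f r b) : p = r := by
  by_contra hne
  obtain ⟨b, hb⟩ := (hf.nondegenerate (p - r) (sub_ne_zero.mpr hne)).2
  exact hb (by rw [Symp.sub_left hf, h, sub_self])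

variable [Finite F] (hQ : CfsgLib.ClassicalForms.Nondeg Q) (hn : 5 ≤ Fintype.card ι)
  (hH : ∀ a ∈ isom f₁, ∀ b ∈ isom f₂, kron e P a b ∈ M)
include hQ hn hH

lemma kron_mem {a : GL (Fin n₁) F} {b : GL (Fin n₂) F} (ha : a ∈ isom f₁) (hb : b ∈ isom f₂) :
    kron e P a b ∈ M ⊓ Cfsg.isometryGroup F (⇑Q) :=
  ⟨hH _ ha _ hb, hT.kron_isometry_of_isom ha hb⟩

/-- The components of a conjugate of a factorwise transvection. -/
lemma comp_of_conj {r : GL ι F} (hr : r ∈ Cfsg.isometryGroup F (⇑Q)) {w z : Fin n₂ → F}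
    (hz : f₂ z w = 0) {B : (Fin n₁ → F) →ₗ[F] (Fin n₁ → F)}
    (hrz : ∀ a, ap r (pt e P a z) = pt e P a z + pt e P (B a) w)
    (hrh : r * kron e P 1 (Symp.T hT.symp₂ z 1) * r⁻¹ ∈ M) : Comp Q e P f₂ M w z B := by
  set h := kron e P (1 : GL (Fin n₁) F) (Symp.T hT.symp₂ z 1) with hh
  have hk := hT.kron_mem hQ hn hH (one_mem _) (Symp.T_mem_isom hT.symp₂ z 1)
  have hI : r * h * r⁻¹ * h⁻¹ ∈ Cfsg.isometryGroup F (⇑Q) :=
    mul_mem (mul_mem (mul_mem hr hk.2) (inv_mem hr)) (inv_mem hk.2)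
  refine ⟨hz, r * h * r⁻¹ * h⁻¹, ⟨M.mul_mem hrh (M.inv_mem hk.1), hI⟩, fun a y hy => ?_⟩
  have hx : ap h⁻¹ (pt e P a y) = pt e P a y - f₂ y z • pt e P a z := by
    rw [hh, hT.one_kron_T_inv, hT.ap_one_kron_T, cc_pt, neg_smul, one_smul, pt_smul_left,
      sub_eq_add_neg]
  set x := ap h⁻¹ (pt e P a y) with hxdef
  have hcz : hT.cc z x = f₂ y z • a := by
    rw [hx, map_sub, map_smul, cc_pt, cc_pt, hT.symp₂.alternating z, zero_smul, smul_zero,
      sub_zero]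
  have hcw : hT.cc w x = 0 := by
    rw [hx, map_sub, map_smul, cc_pt, cc_pt, hy, hz, zero_smul, smul_zero, sub_zero]
  have hcr : hT.cc z (ap r⁻¹ x) = f₂ y z • a := eq_of_forall_f hT.symp₁ fun b => by
    rw [hT.cc_inv_ap hr hrz, hcz, hcw, Symp.zero_left hT.symp₁, add_zero]
  rw [ap_mul, ap_mul, ap_mul, ← hxdef, hh, hT.ap_one_kron_T, hcr, one_smul, ap_add, ap_ap_inv,
    pt_smul_left, ap_smul, hrz, hx]
  module

lemma Comp.congr {w y : Fin n₂ → F} {B B' : (Fin n₁ → F) →ₗ[F] (Fin n₁ → F)}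
    (h : Comp Q e P f₂ M w y B) (hB : ∀ a, B a = B' a) : Comp Q e P f₂ M w y B' :=
  (LinearMap.ext hB : B = B') ▸ h

omit hQ hn hH in
lemma Comp.fix {w y : Fin n₂ → F} {B : (Fin n₁ → F) →ₗ[F] (Fin n₁ → F)} {g : GL ι F}
    (hy : f₂ y w = 0) (hg : ∀ a z, f₂ z w = 0 →
      ap g (pt e P a z) = pt e P a z + f₂ z y • pt e P (B a) w) (a : Fin n₁ → F) :
    ap g (pt e P a w) = pt e P a w := by
  rw [hg a w (hT.symp₂.alternating w), (Symp.eq_zero_comm hT.symp₂).mp hy, zero_smul, add_zero]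

lemma Comp.transport {w y : Fin n₂ → F} {B : (Fin n₁ → F) →ₗ[F] (Fin n₁ → F)}
    (h : Comp Q e P f₂ M w y B) {a : GL (Fin n₁) F} {b : GL (Fin n₂) F} (ha : a ∈ isom f₁)
    (hb : b ∈ isom f₂) :
    Comp Q e P f₂ M (ap b w) (ap b y)
      ((apEquiv a).toLinearMap ∘ₗ B ∘ₗ (apEquiv a⁻¹).toLinearMap) := by
  obtain ⟨hy, g, hg, hgx⟩ := h
  have hk := hT.kron_mem hQ hn hH ha hb
  have hb' := mem_isom_iff.mp hb
  refine ⟨by rw [hb', hy], kron e P a b * g * (kron e P a b)⁻¹,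
    mul_mem (mul_mem hk hg) (inv_mem hk), fun u z hz => ?_⟩
  obtain ⟨z, rfl⟩ : ∃ z', z = ap b z' := ⟨ap b⁻¹ z, (ap_ap_inv b z).symm⟩
  rw [hb'] at hz
  rw [ap_mul, ap_mul, kron_inv, ap_kron, ap_inv_ap, hgx _ _ hz, ap_add, ap_smul, ap_kron,
    ap_kron, ap_ap_inv, hb']
  rfl

lemma Comp.add {w y : Fin n₂ → F} {B B' : (Fin n₁ → F) →ₗ[F] (Fin n₁ → F)}
    (h : Comp Q e P f₂ M w y B) (h' : Comp Q e P f₂ M w y B') :
    Comp Q e P f₂ M w y (B + B') := by
  obtain ⟨hy, g, hg, hgx⟩ := h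
  obtain ⟨-, g', hg', hgx'⟩ := h'
  refine ⟨hy, g * g', mul_mem hg hg', fun u z hz => ?_⟩
  rw [ap_mul, hgx' u z hz, ap_add, ap_smul, hgx u z hz, Comp.fix hT hy hgx, LinearMap.add_apply,
    pt_add_left]
  module

omit hT hQ hn hH in
lemma Comp.of_smul {w y : Fin n₂ → F} {B : (Fin n₁ → F) →ₗ[F] (Fin n₁ → F)}
    (hT : STensor Q e P f₁ f₂ c) {t : F} (h : Comp Q e P f₂ M w (t • y) B) (hy : f₂ y w = 0) :
    Comp Q e P f₂ M w y (t • B) := by
  obtain ⟨-, g, hg, hgx⟩ := h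
  refine ⟨hy, g, hg, fun u z hz => ?_⟩
  rw [hgx u z hz, hT.symp₂.bilinear.smul_right, LinearMap.smul_apply, pt_smul_left, smul_smul,
    mul_comm]

/-- The maps occurring at every slice. -/
lemma all_of_comp {w₀ y₀ : Fin n₂ → F} (hw₀ : w₀ ≠ 0) (hy₀ : y₀ ∉ Submodule.span F {w₀})
    {B : (Fin n₁ → F) →ₗ[F] (Fin n₁ → F)} (h : Comp Q e P f₂ M w₀ y₀ B) {w y : Fin n₂ → F}
    (hy : f₂ y w = 0) : Comp Q e P f₂ M w y B := by
  by_cases hdep : y ∈ Submodule.span F {w}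
  · obtain ⟨t, rfl⟩ := Submodule.mem_span_singleton.mp hdep
    refine ⟨hy, 1, one_mem _, fun a z hz => ?_⟩
    rw [ap_one, hT.symp₂.bilinear.smul_right, hz, mul_zero, zero_smul, add_zero]
  by_cases hw : w = 0
  · subst hw
    refine ⟨hy, 1, one_mem _, fun a z hz => ?_⟩
    rw [ap_one, pt_zero_right, smul_zero, add_zero]
  obtain ⟨b₁, hb₁, hb₁w⟩ := Symp.exists_isom_map hT.symp₂ hw₀ hw
  have hy₁ : ap b₁ y₀ ∉ Submodule.span F {w} := by
    intro h0
    obtain ⟨t, ht⟩ := Submodule.mem_span_singleton.mp h0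
    rw [← hb₁w, ← ap_smul] at ht
    exact hy₀ (Submodule.mem_span_singleton.mpr ⟨t, ap_injective b₁ ht⟩)
  obtain ⟨b₂, hb₂, hb₂w, hb₂y⟩ := Symp.exists_isom_map_fix hT.symp₂ hy₁ hdep
    (by rw [← hb₁w, mem_isom_iff.mp hb₁, h.1, hb₁w, hy])
  have h' := h.transport hT hQ hn hH (one_mem (isom f₁)) (mul_mem hb₂ hb₁)
  rw [ap_mul, hb₁w, hb₂w, ap_mul, hb₂y] at h'
  exact h'.congr hT hQ hn hH fun a => by simp

/-- Composition. -/
lemma comp_mul (hn₂ : 5 ≤ n₂) {B C : (Fin n₁ → F) →ₗ[F] (Fin n₁ → F)}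
    (hB : ∀ w y, f₂ y w = 0 → Comp Q e P f₂ M w y B)
    (hC : ∀ w y, f₂ y w = 0 → Comp Q e P f₂ M w y C) (w y : Fin n₂ → F) (hy : f₂ y w = 0) :
    Comp Q e P f₂ M w y (B ∘ₗ C) := by
  have hf := hT.symp₂
  obtain ⟨w₀, hw₀⟩ : ∃ w₀ : Fin n₂ → F, w₀ ≠ 0 :=
    ⟨Pi.single ⟨0, by omega⟩ 1, fun h => by simpa using congrFun h ⟨0, by omega⟩⟩
  obtain ⟨x, hxw, -, hx⟩ := exists_perp_notMem hn₂ hf w₀ w₀
  rw [Set.pair_eq_singleton] at hx
  obtain ⟨y', hy'w, hy'x, hy'⟩ := exists_perp_notMem hn₂ hf w₀ x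
  obtain ⟨z', hz', hy'z'⟩ := Symp.exists_perp_one hf hy'
  set z₀ := -z' with hz₀
  have hzw : f₂ z₀ w₀ = 0 := by
    rw [hz₀, Symp.neg_left hf, hz' w₀ (Submodule.subset_span (by simp)), neg_zero]
  have hzx : f₂ z₀ x = 0 := by
    rw [hz₀, Symp.neg_left hf, hz' x (Submodule.subset_span (by simp)), neg_zero]
  have hzy' : f₂ z₀ y' = 1 := by rw [hz₀, Symp.neg_left hf, ← hf.skew, hy'z']
  have hxsp : x ∉ Submodule.span F ({w₀, z₀} : Set (Fin n₂ → F)) := by
    intro h0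
    obtain ⟨s, t, hst⟩ := Submodule.mem_span_pair.mp h0
    have h1 := congrArg (fun v => f₂ v y') hst
    simp only [hf.bilinear.add_left, hf.bilinear.smul_left] at h1
    rw [hzy', (Symp.eq_zero_comm hf).mp hy'x, (Symp.eq_zero_comm hf).mp hy'w, mul_zero, zero_add,
      mul_one] at h1
    rw [h1, zero_smul, add_zero] at hst
    exact hx (Submodule.mem_span_singleton.mpr ⟨s, hst⟩)
  obtain ⟨y₁, hy₁, hxy₁⟩ := Symp.exists_perp_one hf hxsp
  have hy₁w : f₂ y₁ w₀ = 0 := hy₁ w₀ (Submodule.subset_span (by simp))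
  have hy₁z : f₂ z₀ y₁ = 0 :=
    (Symp.eq_zero_comm hf).mp (hy₁ z₀ (Submodule.subset_span (by simp)))
  obtain ⟨-, g, hg, hgx⟩ := hB w₀ y₁ hy₁w
  obtain ⟨-, g₂, hg₂, hg₂x⟩ := hC x y' hy'x
  have hg₂w : ∀ a, ap g₂ (pt e P a w₀) = pt e P a w₀ := fun a => by
    rw [hg₂x a w₀ ((Symp.eq_zero_comm hf).mp hxw), (Symp.eq_zero_comm hf).mp hy'w, zero_smul,
      add_zero]
  have hg₂i : ∀ a, ap g₂⁻¹ (pt e P a z₀) = pt e P a z₀ - pt e P (C a) x := fun a => by
    apply ap_injective g₂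
    rw [ap_ap_inv, ap_sub, hg₂x a z₀ hzx, Comp.fix hT hy'x hg₂x, hzy', one_smul]
    abel
  set r := g₂ * g * g₂⁻¹ with hr
  have hrz : ∀ a, ap r (pt e P a z₀) = pt e P a z₀ + pt e P ((-(B ∘ₗ C)) a) w₀ := fun a => by
    rw [hr, ap_mul, ap_mul, hg₂i, ap_sub, hgx a z₀ hzw, hgx (C a) x hxw, hy₁z, hxy₁, zero_smul,
      add_zero, one_smul, ap_sub, ap_add, hg₂x a z₀ hzx, hzy', one_smul, hg₂w,
      Comp.fix hT hy'x hg₂x, LinearMap.neg_apply, LinearMap.comp_apply,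
      ← ptl_apply e P w₀ (-_), map_neg, ptl_apply]
    abel
  have hrI : r ∈ M ⊓ Cfsg.isometryGroup F (⇑Q) := mul_mem (mul_mem hg₂ hg) (inv_mem hg₂)
  have hk := hT.kron_mem hQ hn hH (one_mem _) (Symp.T_mem_isom hT.symp₂ z₀ 1)
  have h0 := hT.comp_of_conj hQ hn hH hrI.2 hzw hrz
    (mul_mem (mul_mem hrI.1 hk.1) (inv_mem hrI.1))
  have hz0 : z₀ ∉ Submodule.span F {w₀} := Symp.zero_not_mem_span hf (y := y')
    (by rw [hzy']; exact one_ne_zero) ((Symp.eq_zero_comm hf).mp hy'w)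
  have h1 := hT.all_of_comp hQ hn hH hw₀ hz0 h0 (w := w) (y := (-1 : F) • y)
    (by rw [hf.bilinear.smul_left, hy, mul_zero])
  exact (Comp.of_smul hT h1 hy).congr hT hQ hn hH fun a => by simp

/-- The identity occurs. -/
lemma comp_id (w y : Fin n₂ → F) (hy : f₂ y w = 0) : Comp Q e P f₂ M w y LinearMap.id := by
  have hf := hT.symp₂
  refine ⟨hy, _, hT.kron_mem hQ hn hH (one_mem _)
    (mul_mem (Symp.T_mem_isom hf (y + w) 1) (Symp.T_mem_isom hf y (-1))), fun a z hz => ?_⟩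
  rw [ap_kron, ap_one, ap_mul, Symp.ap_T, Symp.ap_T, hf.bilinear.add_left,
    hf.bilinear.smul_left, hf.bilinear.add_right, hf.bilinear.add_right, hf.alternating y, hz, hy,
    LinearMap.id_apply, pt_add_right, pt_add_right, pt_smul_right, pt_smul_right, pt_add_right]
  module

variable (hn₂ : 5 ≤ n₂)
include hn₂

/-- Long root elements with range in a totally isotropic pair of slices. -/
lemma pairSg_mem (hall : ∀ u v w y, f₂ y w = 0 → Comp Q e P f₂ M w y (Symp.rk hT.symp₁ u v))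
    (u v : Fin n₁ → F) (w y : Fin n₂ → F) (hy : f₂ y w = 0) (hu : Q (pt e P u w) = 0)
    (hw : polar Q (pt e P u w) (pt e P v y) = 0) :
    sg Q (pt e P u w) (pt e P v y) hu hw ∈ M := by
  have hf := hT.symp₂
  have main : ∀ (v : Fin n₁ → F) (y : Fin n₂ → F), f₂ y w = 0 → y ∉ Submodule.span F {w} →
      ∀ hw : polar Q (pt e P u w) (pt e P v y) = 0,
        sg Q (pt e P u w) (pt e P v y) hu hw ∈ M := by
    intro v y hy hdep hw
    obtain ⟨y', hy', hyy'⟩ := Symp.exists_perp_one hf hdep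
    have hy'w : f₂ y' w = 0 := (Symp.mem_perp_span hf).mp hy'
    obtain ⟨-, g, hg, hgx⟩ := hall u ((-c) • v) w y' hy'w
    set B := Symp.rk hT.symp₁ u ((-c) • v) with hB
    have hgy : ∀ a, ap g (pt e P a y) = pt e P a y + pt e P (B a) w := fun a => by
      rw [hgx a y hy, hyy', one_smul]
    set h := kron e P (1 : GL (Fin n₁) F) (Symp.T hf y 1) with hh
    have hk := hT.kron_mem hQ hn hH (one_mem _) (Symp.T_mem_isom hf y 1)
    have hD : g * h * g⁻¹ * h⁻¹ ∈ M :=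
      mul_mem (mul_mem (mul_mem hg.1 hk.1) (inv_mem hg.1)) (inv_mem hk.1)
    convert hD using 1
    refine gl_ext fun X => ?_
    have hx : ap h⁻¹ X = X - pt e P (hT.cc y X) y := by
      rw [hh, hT.one_kron_T_inv, hT.ap_one_kron_T, neg_smul, one_smul, sub_eq_add_neg]
    set x := ap h⁻¹ X with hxdef
    have hcy : hT.cc y x = hT.cc y X := by
      rw [hx, map_sub, cc_pt, hf.alternating y, zero_smul, sub_zero]
    have hcw : hT.cc w x = hT.cc w X := by
      rw [hx, map_sub, cc_pt, hy, zero_smul, sub_zero]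
    have hcr : hT.cc y (ap g⁻¹ x) = hT.cc y X + (c * f₁ (hT.cc w X) u) • v :=
      eq_of_forall_f hT.symp₁ fun b => by
        rw [hT.cc_inv_ap hg.2 hgy, hcy, hcw, hB, Symp.rk_apply, hT.symp₁.bilinear.smul_right,
          hT.symp₁.bilinear.smul_right, hT.symp₁.bilinear.add_left, hT.symp₁.bilinear.smul_left,
          hT.symp₁.skew b v]
        ring
    have hBp : B (hT.cc y X + (c * f₁ (hT.cc w X) u) • v) = (-c * f₁ (hT.cc y X) v) • u := by
      rw [hB, Symp.rk_apply, hT.symp₁.bilinear.smul_right, hT.symp₁.bilinear.add_left,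
        hT.symp₁.bilinear.smul_left, hT.symp₁.alternating v, mul_zero, add_zero]
    rw [ap_mul, ap_mul, ap_mul, ← hxdef, hh, hT.ap_one_kron_T, hcr, one_smul, ap_add, ap_ap_inv,
      hgy, hBp, hx, ap_sg, hT.sing, zero_mul, add_zero, hT.polar_right, hT.polar_right,
      pt_add_left, pt_smul_left, pt_smul_left]
    module
  by_cases hdep : y ∈ Submodule.span F {w}
  swap
  · exact main v y hy hdep hw
  obtain ⟨t, rfl⟩ := Submodule.mem_span_singleton.mp hdep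
  obtain ⟨z, hz, -, hzsp⟩ := exists_perp_notMem hn₂ hf w w
  rw [Set.pair_eq_singleton] at hzsp
  have h1 : f₂ (t • w + z) w = 0 := by
    rw [hf.bilinear.add_left, hf.bilinear.smul_left, hf.alternating w, hz, mul_zero, add_zero]
  have h2 : f₂ (-z) w = 0 := by rw [Symp.neg_left hf, hz, neg_zero]
  have h1s : t • w + z ∉ Submodule.span F {w} := fun h => hzsp
    ((Submodule.add_mem_iff_right _ (Submodule.smul_mem _ t
      (Submodule.mem_span_singleton_self w))).mp h)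
  have h2s : -z ∉ Submodule.span F {w} := fun h => hzsp (by simpa using h)
  have p1 : polar Q (pt e P u w) (pt e P v (t • w + z)) = 0 := by
    rw [hT.polar_pt, (Symp.eq_zero_comm hf).mp h1, mul_zero, mul_zero]
  have p2 : polar Q (pt e P u w) (pt e P v (-z)) = 0 := by
    rw [hT.polar_pt, (Symp.eq_zero_comm hf).mp h2, mul_zero, mul_zero]
  have h := mul_mem (main v _ h1 h1s p1) (main v _ h2 h2s p2)
  rw [sg_mul' hu p1 p2] at h
  convert h using 2
  rw [← pt_add_right, add_neg_cancel_right]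

/-- Every pure tensor is full. -/
lemma full_pt (hMO : M ≤ Cfsg.isometryGroup F (⇑Q))
    (hall : ∀ u v w y, f₂ y w = 0 → Comp Q e P f₂ M w y (Symp.rk hT.symp₁ u v))
    {u : Fin n₁ → F} (hu0 : u ≠ 0) (w : Fin n₂ → F) : Full Q M (pt e P u w) := by
  classical
  have hf := hT.symp₂
  have hf₁ := hT.symp₁
  intro hu x hx
  have hadd : ∀ p r, (∀ h, sg Q (pt e P u w) p hu h ∈ M) → polar Q (pt e P u w) p = 0 →
      (∀ h, sg Q (pt e P u w) r hu h ∈ M) → polar Q (pt e P u w) r = 0 →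
      ∀ h, sg Q (pt e P u w) (p + r) hu h ∈ M := fun p r hp hp0 hr hr0 h => by
    have := mul_mem (hp hp0) (hr hr0)
    rwa [sg_mul' hu hp0 hr0] at this
  -- pure second vectors
  have hpure : ∀ (v : Fin n₁ → F) (y : Fin n₂ → F), f₁ v u = 0 →
      ∀ h, sg Q (pt e P u w) (pt e P v y) hu h ∈ M := by
    intro v y hvu hw
    by_cases hyw : f₂ y w = 0
    · exact hT.pairSg_mem hQ hn hH hn₂ hall u v w y hyw hu hw
    obtain ⟨z₁, hz₁w, hz₁y, hz₁⟩ := exists_perp_notMem hn₂ hf w y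
    obtain ⟨w₁, hw₁, hzw₁⟩ := Symp.exists_perp_one hf hz₁
    have hw₁w : f₂ w₁ w = 0 := hw₁ w (Submodule.subset_span (by simp))
    have hw₁y : f₂ w₁ y = 0 := hw₁ y (Submodule.subset_span (by simp))
    obtain ⟨u₁, -, hu₁⟩ := Symp.exists_perp_one hf₁ (U := ⊥) (x := u) (by simpa using hu0)
    -- the first element fixes the centre and moves `pt u z₁`
    set v' := c⁻¹ • v with hv'
    have hP1 : Q (pt e P u₁ w₁) = 0 := hT.sing _ _
    have hX0 : polar Q (pt e P u₁ w₁) (pt e P v' y) = 0 := by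
      rw [hT.polar_pt, hw₁y, mul_zero, mul_zero]
    have hY0 : polar Q (pt e P u w) (pt e P u z₁) = 0 := by
      rw [hT.polar_pt, hf₁.alternating u, zero_mul, mul_zero]
    set X := sg Q _ _ hP1 hX0 with hX
    have hXM : X ∈ M := hT.pairSg_mem hQ hn hH hn₂ hall u₁ v' w₁ y
      ((Symp.eq_zero_comm hf).mp hw₁y) hP1 hX0
    have hYM := hT.pairSg_mem hQ hn hH hn₂ hall u u w z₁ hz₁w hu hY0
    have hXp : ap X (pt e P u w) = pt e P u w :=
      ap_sg_fix _ _ (by rw [hT.polar_pt, (Symp.eq_zero_comm hf).mp hw₁w, mul_zero, mul_zero])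
        (by rw [hT.polar_pt, hv', hf₁.bilinear.smul_right, (Symp.eq_zero_comm hf₁).mp hvu]; simp)
    have hXa : ap X (pt e P u z₁) = pt e P u z₁ + pt e P v y := by
      rw [hX, ap_sg, hT.sing, zero_mul, add_zero, hT.polar_pt, hT.polar_pt, hu₁, hzw₁, hz₁y,
        hv', pt_smul_left, mul_zero, mul_zero, zero_smul, sub_zero, one_mul, mul_one, smul_smul,
        mul_inv_cancel₀ hT.c_ne, one_smul]
    have hconj := mul_mem (mul_mem hXM hYM) (inv_mem hXM)
    rw [conj_sg (hMO hXM), sg_congr hXp hXa] at hconj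
    rw [← sg_mul' hu hY0 hw] at hconj
    simpa using mul_mem (inv_mem hYM) hconj
  obtain ⟨u', -, hu'⟩ := Symp.exists_perp_one hf₁ (U := ⊥) (x := u) (by simpa using hu0)
  set α := -(Symp.fl hf₁ u) with hα
  have hαu' : α u' = 1 := by simp [hα, ← hf₁.skew u u', hu']
  set r := conr e P α x with hr
  have hrw : f₂ r w = 0 := by
    rw [← Symp.fl_apply hf w r, hr, apply_conr]
    have h0 : polar Q x (pt e P u w) = 0 := by rw [polar_comm]; exact hx
    rw [hT.polar_right, mul_eq_zero] at h0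
    simp [hα]
    exact h0.resolve_left hT.c_ne
  set d := x - pt e P u' r with hd
  have hdα : conr e P α d = 0 := by
    rw [hd, map_sub, conr_pt, hαu', one_smul, ← hr, sub_self]
  have hsum : ∀ z : ι → F,
      z = ∑ j, pt e P (con e P (LinearMap.proj j) z) (Pi.single j 1) := by
    intro z
    have h : LinearMap.id = ∑ j, (ptl e P (Pi.single j 1)).comp (con e P (LinearMap.proj j)) :=
      ext_pt e P fun a y => by
        simp only [LinearMap.id_apply, LinearMap.sum_apply, LinearMap.comp_apply, con_pt,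
          LinearMap.proj_apply, ptl_apply, pt_smul_left, ← pt_smul_right]
        exact (congrArg (ptr e P a) (pi_eq_sum_univ' y)).trans (map_sum _ _ _)
    simpa using LinearMap.congr_fun h z
  have hpar : ∀ j, f₁ (con e P (LinearMap.proj j) d) u = 0 := fun j => by
    have h := apply_conr e P α (LinearMap.proj j) d
    rw [hdα, map_zero] at h
    simpa [hα] using h.symm
  have hdM : ∀ s : Finset (Fin n₂),
      (∀ h, sg Q (pt e P u w) (∑ j ∈ s, pt e P (con e P (LinearMap.proj j) d) (Pi.single j 1))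
        hu h ∈ M) ∧
      polar Q (pt e P u w) (∑ j ∈ s, pt e P (con e P (LinearMap.proj j) d) (Pi.single j 1)) = 0 := by
    intro s
    induction s using Finset.induction with
    | empty =>
      refine ⟨fun h => ?_, by simp⟩
      have : sg Q (pt e P u w) (∑ j ∈ (∅ : Finset (Fin n₂)),
          pt e P (con e P (LinearMap.proj j) d) (Pi.single j 1)) hu h = 1 :=
        gl_ext fun z => by rw [ap_sg]; simp
      rw [this]; exact one_mem M
    | insert i s hi ih =>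
      have h0 : polar Q (pt e P u w)
          (pt e P (con e P (LinearMap.proj i) d) (Pi.single i 1)) = 0 := by
        rw [hT.polar_pt, (Symp.eq_zero_comm hf₁).mp (hpar i), zero_mul, mul_zero]
      simp only [Finset.sum_insert hi]
      exact ⟨hadd _ _ (hpure _ _ (hpar i)) h0 ih.1 ih.2,
        by rw [polar_add_right, h0, ih.2, add_zero]⟩
  have hr0 : polar Q (pt e P u w) (pt e P u' r) = 0 := by
    rw [hT.polar_pt, (Symp.eq_zero_comm hf).mp hrw, mul_zero, mul_zero]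
  have hd' := hdM Finset.univ
  rw [← hsum d] at hd'
  have hall' := hadd _ _ (fun h => hT.pairSg_mem hQ hn hH hn₂ hall u u' w r hrw hu h) hr0 hd'.1 hd'.2
  have hxd : pt e P u' r + d = x := by rw [hd, add_sub_cancel]
  rw [sg_congr rfl hxd.symm]
  exact hall' _

/-- A non-scalar component forces the whole of `omegaGL`. -/
theorem omega_le_of_comp (hMO : M ≤ Cfsg.isometryGroup F (⇑Q))
    (hq : (∃ t : F, t ≠ 0 ∧ t ≠ 1) ∨ ((∀ t : F, t = 0 ∨ t = 1) ∧ 3 ≤ n₁))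
    {w₀ y₀ : Fin n₂ → F} (hw₀ : w₀ ≠ 0) (hy₀ : y₀ ∉ Submodule.span F {w₀})
    {B : (Fin n₁ → F) →ₗ[F] (Fin n₁ → F)} (h : Comp Q e P f₂ M w₀ y₀ B) {u₀ : Fin n₁ → F}
    (hu₀ : ∀ t : F, B u₀ ≠ t • u₀) : Cfsg.Geo.omegaGL (⇑Q) ≤ M := by
  have hf := hT.symp₂
  let S : ((Fin n₁ → F) →ₗ[F] (Fin n₁ → F)) → Prop :=
    fun B => ∀ w y, f₂ y w = 0 → Comp Q e P f₂ M w y B
  have hS : S B := fun w y hy => hT.all_of_comp hQ hn hH hw₀ hy₀ h hy
  have hadd : ∀ A A', S A → S A' → S (A + A') := fun A A' hA hA' w y hy =>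
    (hA w y hy).add hT hQ hn hH (hA' w y hy)
  have hsmul : ∀ (t : F) A, S A → S (t • A) := fun t A hA w y hy =>
    Comp.of_smul hT (hA w (t • y) (by rw [hf.bilinear.smul_left, hy, mul_zero])) hy
  have hconj : ∀ g ∈ isom f₁, ∀ A, S A →
      S ((apEquiv g).toLinearMap ∘ₗ A ∘ₗ (apEquiv g⁻¹).toLinearMap) := fun g hg A hA w y hy => by
    have := (hA w y hy).transport hT hQ hn hH hg (one_mem (isom f₂))
    rwa [ap_one, ap_one] at this
  have hmul : ∀ A A', S A → S A' → S (A ∘ₗ A') := fun A A' hA hA' w y hy =>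
    hT.comp_mul hQ hn hH hn₂ hA hA' w y hy
  have hall : ∀ u v, S (Symp.rk hT.symp₁ u v) := fun u v => by
    refine Symp.rk_mem_of_nonscalar hT.symp₁ hadd hsmul hconj hmul ?_ hS (x₀ := u₀)
      (fun hmem => ?_) u v
    · rcases hq with h | ⟨h, h3⟩
      · exact Or.inl h
      · exact Or.inr ⟨h, by rwa [Fintype.card_fin]⟩
    · obtain ⟨t, ht⟩ := Submodule.mem_span_singleton.mp hmem
      exact hu₀ t ht.symm
  have hu0 : u₀ ≠ 0 := fun h => hu₀ 0 (by rw [h, map_zero, smul_zero])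
  obtain ⟨u', -, hu'⟩ := Symp.exists_perp_one hT.symp₁ (U := ⊥) (x := u₀) (by simpa using hu0)
  obtain ⟨w', -, hw'⟩ := Symp.exists_perp_one hf (U := ⊥) (x := w₀) (by simpa using hw₀)
  have hu'0 : u' ≠ 0 := fun h => by simp [h, Symp.zero_right hT.symp₁] at hu'
  refine Full.le_of_pair hQ hn hMO (hT.full_pt hQ hn hH hn₂ hMO hall hu0 w₀)
    (hT.full_pt hQ hn hH hn₂ hMO hall hu'0 w') (hT.sing _ _) (hT.sing _ _) ?_
  rw [hT.polar_pt, hu', hw', mul_one, mul_one]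
  exact hT.c_ne

end STensor

end CfsgLib.Geometric.Orth
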