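import Cfsg.Agent.Lib.Geometric.Orth.SingularStab
import Cfsg.Agent.Lib.Geometric.Orth.NondegStabLow
import Cfsg.Agent.Lib.Geometric.Orth.Eight.Max
import Cfsg.Agent.Lib.Geometric.Orth.Eight.PointStab
import Cfsg.Agent.Lib.Geometric.Orth.DecompStabMax
import Cfsg.Agent.Lib.Geometric.Orth.SubfieldMax
import Cfsg.Agent.Lib.Geometric.ExtField.OrthExt

/-!
Geometric subgroups of the ten-dimensional orthogonal groups, of either type, in the raw form of the
statements: the members that follow from the general maximality theorems.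
-/

set_option autoImplicit false

namespace CfsgLib.Geometric.Orth.Ten

open Matrix QuadraticMap CfsgLib.ClassicalForms CfsgLib.Geometric CfsgLib.Geometric.Orth

variable {F : Type*} [Field F] [Fintype F] {f : (Fin 10 → F) → F}
  (hQ : Cfsg.Geo.IsNondegenerateQuadraticForm f)
include hQ

/-- The stabiliser of a totally singular subspace of dimension other than four is maximal. -/
theorem singular_isMaximalIn {W : Submodule F (Fin 10 → F)} (hW0 : W ≠ ⊥)
    (hW : Cfsg.Geo.IsTotallySingularQuad f W) (h4 : Module.finrank F W ≠ 4) :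
    Cfsg.Geo.IsMaximalIn (Cfsg.Geo.omegaGL f)
      (Cfsg.Geo.subspaceStabilizer W ⊓ Cfsg.Geo.omegaGL f) :=
  singular_stab_isMaximalIn (Q := toQF hQ) (nondeg_toQF hQ) (by simp) hW0 hW
    (fun h => absurd (by rw [Fintype.card_fin] at h; omega : Module.finrank F W = 4) h4)

/-- The stabiliser of a non-degenerate subspace of odd dimension other than five is maximal. -/
theorem nondeg_odd_isMaximalIn {W : Submodule F (Fin 10 → F)} (hW1 : W ≠ ⊤)
    (hodd : Odd (Module.finrank F W)) (h5 : 2 * Module.finrank F W ≠ 10)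
    (hW : Cfsg.Geo.IsNondegenerateOn (polar f) W) :
    Cfsg.Geo.IsMaximalIn (Cfsg.Geo.omegaGL f)
      (Cfsg.Geo.subspaceStabilizer W ⊓ Cfsg.Geo.omegaGL f) := by
  have hW' : Cfsg.Geo.IsNondegenerateOn (polar ⇑(toQF hQ)) W := hW
  have hsum := finrank_add_perpW hW'
  rw [Fintype.card_fin] at hsum
  obtain ⟨j, hj⟩ := hodd
  refine Low.nondeg_stab_isMaximalIn' (Q := toQF hQ) (nondeg_toQF hQ) hW' (by simp)
    (by rw [Fintype.card_fin]; omega) (fun h => by rw [h, finrank_bot] at hj; omega) hW1 ?_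
    (fun h => absurd (by rwa [Fintype.card_fin] at h) h5)
  rintro U (rfl | rfl) - h2 <;> omega

/-- The stabiliser of a non-degenerate plane is maximal, in the plus case for more than three
field elements. -/
theorem plane_isMaximalIn {W : Submodule F (Fin 10 → F)} (h2 : Module.finrank F W = 2)
    (hex : Cfsg.Geo.IsPlusTypeOn f W → 4 ≤ Fintype.card F)
    (hW : Cfsg.Geo.IsNondegenerateOn (polar f) W) :
    Cfsg.Geo.IsMaximalIn (Cfsg.Geo.omegaGL f)
      (Cfsg.Geo.subspaceStabilizer W ⊓ Cfsg.Geo.omegaGL f) := by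
  have hW' : Cfsg.Geo.IsNondegenerateOn (polar ⇑(toQF hQ)) W := hW
  have hsum := finrank_add_perpW hW'
  rw [Fintype.card_fin] at hsum
  refine Low.nondeg_stab_isMaximalIn' (Q := toQF hQ) (nondeg_toQF hQ) hW' (by simp)
    (by rw [Fintype.card_fin]; omega) (fun h => by rw [h, finrank_bot] at h2; omega)
    (fun h => by rw [h, finrank_top, Module.finrank_fintype_fun_eq_card, Fintype.card_fin] at h2; omega)
    ?_ (fun h => by rw [Fintype.card_fin] at h; omega)
  rintro U (rfl | rfl) h3 hU2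
  · intro hp
    have := hex hp
    rw [Nat.card_eq_fintype_card] at h3
    omega
  · omega

/-- The stabiliser of a non-degenerate four-space is maximal. -/
theorem four_isMaximalIn {W : Submodule F (Fin 10 → F)} (h4 : Module.finrank F W = 4)
    (hW : Cfsg.Geo.IsNondegenerateOn (polar f) W) :
    Cfsg.Geo.IsMaximalIn (Cfsg.Geo.omegaGL f)
      (Cfsg.Geo.subspaceStabilizer W ⊓ Cfsg.Geo.omegaGL f) := by
  have hW' : Cfsg.Geo.IsNondegenerateOn (polar ⇑(toQF hQ)) W := hW
  have hsum := finrank_add_perpW hW'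
  rw [Fintype.card_fin] at hsum
  refine Low.nondeg_stab_isMaximalIn' (Q := toQF hQ) (nondeg_toQF hQ) hW' (by simp)
    (by rw [Fintype.card_fin]; omega) (fun h => by rw [h, finrank_bot] at h4; omega)
    (fun h => by rw [h, finrank_top, Module.finrank_fintype_fun_eq_card, Fintype.card_fin] at h4; omega)
    ?_ (fun h => by rw [Fintype.card_fin] at h; omega)
  rintro U (rfl | rfl) - hU2 <;> omega

/-- For a field of even order the stabiliser of a non-singular point is maximal. -/
theorem point_isMaximalIn (heven : ¬ Odd (Fintype.card F)) {v : Fin 10 → F} (hv : f v ≠ 0) :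
    Cfsg.Geo.IsMaximalIn (Cfsg.Geo.omegaGL f)
      (Cfsg.Geo.subspaceStabilizer (Submodule.span F {v}) ⊓ Cfsg.Geo.omegaGL f) := by
  have hc : ringChar F = 2 := FiniteField.even_card_iff_char_two.mpr (by
    rw [Nat.odd_iff] at heven; omega)
  have h2 : (2 : F) = 0 := by
    have h := ringChar.Nat.cast_ringChar (R := F)
    rw [hc] at h
    exact_mod_cast h
  exact Eight.point_stab_isMaximalIn (Q := toQF hQ) (nondeg_toQF hQ) h2 (by simp) hv

/-- In odd characteristic the stabiliser of a decomposition into two isometric five-spaces is maximal. -/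
theorem five_five_isMaximalIn (hodd : Odd (Fintype.card F)) (h5 : 4 ≤ Fintype.card F)
    {D : Fin 2 → Submodule F (Fin 10 → F)} (hD : Cfsg.Geo.IsOrthogonalMDecomposition f 5 D) :
    Cfsg.Geo.IsMaximalIn (Cfsg.Geo.omegaGL f)
      (Cfsg.Geo.decompositionStabilizer D ⊓ Cfsg.Geo.omegaGL f) := by
  have hD' : Cfsg.Geo.IsOrthogonalMDecomposition (⇑(toQF hQ)) 5 D := hD
  exact orthDecomp_isMaximalIn (Q := toQF hQ) (nondeg_toQF hQ) (two_ne_zero_of_odd hodd) (by simp) hD'
    (by omega) (fun _ => by omega)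

/-- The stabiliser of a decomposition into two non-isometric five-spaces is maximal. -/
theorem five_five_swapless_isMaximalIn {D : Fin 2 → Submodule F (Fin 10 → F)}
    (hD : Cfsg.Geo.IsNondegenerateMDecomposition (polar f) 5 D)
    (hni : ¬ Cfsg.Geo.AreIsometricFor f (D 0) (D 1)) :
    Cfsg.Geo.IsMaximalIn (Cfsg.Geo.omegaGL f)
      (Cfsg.Geo.decompositionStabilizer D ⊓ Cfsg.Geo.omegaGL f) := by
  have hW' : Cfsg.Geo.IsNondegenerateOn (polar ⇑(toQF hQ)) (D 0) := hD.nondegenerate 0
  have hperp : perpW (toQF hQ) (D 0) = D 1 := by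
    refine (Submodule.eq_of_le_of_finrank_eq
      (fun x hx => mem_perpW.mpr fun y hy => hD.orthogonal 0 1 (by decide) y hy x hx) ?_).symm
    have h := finrank_add_perpW hW'
    rw [hD.decomp.finrank_eq, Fintype.card_fin] at h
    rw [hD.decomp.finrank_eq]
    omega
  have hno : ∀ g ∈ Cfsg.isometryGroup F f, ¬ MapsIn g (D 1) (D 0) := by
    intro g hg hm
    have hmap : (D 1).map (apEquiv g).toLinearMap = D 0 :=
      hm.map_eq (by rw [hD.decomp.finrank_eq, hD.decomp.finrank_eq])
    let e : D 1 ≃ₗ[F] D 0 := ((apEquiv g).submoduleMap (D 1)).trans (LinearEquiv.ofEq _ _ hmap)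
    refine hni ⟨e.symm, fun w => ?_⟩
    obtain ⟨y, rfl⟩ := e.surjective w
    rw [LinearEquiv.symm_apply_apply]
    exact ((mem_isometryGroup_iff (Q := toQF hQ)).mp hg (y : Fin 10 → F)).symm
  have hI : Cfsg.Geo.omegaGL f ≤ Cfsg.isometryGroup F f := omegaGL_le (Q := toQF hQ)
  have hstab : Cfsg.Geo.decompositionStabilizer D ⊓ Cfsg.Geo.omegaGL f =
      Cfsg.Geo.subspaceStabilizer (D 0) ⊓ Cfsg.Geo.omegaGL f := by
    refine le_antisymm ?_ ?_ <;> intro g hg <;> refine ⟨?_, hg.2⟩
    · rcases (mem_pairStab hD.decomp).1 hg.1 with ⟨h, -⟩ | ⟨-, h⟩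
      · exact mem_subspaceStabilizer_of_mapsTo g _ h
      · exact absurd h (hno g (hI hg.2))
    · refine (mem_pairStab hD.decomp).2 (Or.inl ⟨fun x hx => ?_, fun x hx => ?_⟩)
      · exact ((mem_subspaceStabilizer_iff _ _).mp hg.1 x).mp hx
      · rw [← hperp] at hx ⊢
        exact ap_mem_perpW (hI hg.2) hg.1 hx
  rw [hstab]
  have hd := hD.decomp.finrank_eq 0
  exact Eight.nondeg_stab_isMaximalIn_of_pairs (Q := toQF hQ) (nondeg_toQF hQ) hW' (by simp)
    (by rw [hd, Fintype.card_fin]; omega) (fun h => by rw [h, finrank_bot] at hd; omega)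
    (Eight.twoPairs_of_big (nondeg_toQF hQ) hW' (by rw [hd, Fintype.card_fin]))
    (fun _ h => absurd h (by omega))
    (fun g hg hPW => hno g hg fun x hx => hPW x (hperp.symm ▸ hx))
    (Or.inr (Or.inl (by rw [hd, Fintype.card_fin])))

/-- The normaliser of a self-adjoint quadratic extension field is maximal. -/
theorem ext_two_isMaximalIn (hodd : Odd (Fintype.card F))
    {K : Subalgebra F (Matrix (Fin 10) (Fin 10) F)} (hK : Cfsg.Geo.IsFieldSubalgebra 2 K)
    (hsa : Cfsg.Geo.IsSelfAdjointFor (polar f) K) :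
    Cfsg.Geo.IsMaximalIn (Cfsg.Geo.omegaGL f)
      (Cfsg.Geo.subalgebraNormalizer K ⊓ Cfsg.Geo.omegaGL f) :=
  ExtF.orth_ext_maximal_low hQ hodd Nat.prime_two (by simp) K hK hsa
    (fun m hm => Or.inl (by rw [Fintype.card_fin] at hm; omega))

/-- The subfield groups of prime index are maximal. -/
theorem subfield_isMaximalIn {F₀ : Subfield F} {r : ℕ} {P : Matrix.GeneralLinearGroup (Fin 10) F}
    {ζ : F} (hr : r.Prime) (hcard : Fintype.card F = Nat.card F₀ ^ r) (hζ : ζ ≠ 0)
    (hP : Cfsg.Geo.IsQuadFormRationalStructure (fun v : Fin 10 → F => ζ * f v) F₀ P) :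
    Cfsg.Geo.IsMaximalIn (Cfsg.Geo.omegaGL f)
      (Cfsg.Geo.subfieldSubgroup F₀ P ⊓ Cfsg.Geo.omegaGL f) :=
  orthSubfield_isMaximalIn' (by simp) hQ hζ hP hr (by rwa [Nat.card_eq_fintype_card])

end CfsgLib.Geometric.Orth.Ten
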