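import Cfsg.Agent.Lib.Geometric.Orth.Omega
import Cfsg.Agent.Lib.Geometric.Tensor
import Cfsg.Agent.Lib.Geometric.UnitaryTensor
import Cfsg.Agent.Lib.Geometric.Symp
import Cfsg.Agent.Lib.Forms.OrthAbel

/-!
Over two elements the stabiliser in `omegaGL` of a tensor product of a symplectic plane and a
symplectic space normalises an element of order three and so is not maximal.
-/

set_option autoImplicit false

namespace CfsgLib.Geometric.Orth

open Matrix QuadraticMap CfsgLib.ClassicalForms

variable {ι : Type} [Fintype ι] [DecidableEq ι] {F : Type*} [Field F] [Fintype F]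

/-- Over two elements an isometry that is a square lies in `omegaGL`. -/
lemma mul_self_mem_omega_two (hq : Fintype.card F = 2) {Q : QuadraticForm F (ι → F)}
    (hQ : Nondeg Q) (hn : 5 ≤ Fintype.card ι) {g : GL ι F}
    (hg : g ∈ Cfsg.isometryGroup F (⇑Q)) : g * g ∈ Cfsg.Geo.omegaGL (⇑Q) := by
  have : CharP F 2 := charP_of_card_eq_prime hq
  have h := CfsgLib.Forms.index_commutator_even (Q := Q) (by omega) (nondeg_iff_polarBilin.mpr hQ)
    (Or.inr (by omega))
  exact ⟨_, Subgroup.mul_self_mem_of_index_two h ⟨g, hg⟩, rfl⟩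

/-- The elements commuting with `c` or carrying it to its inverse. -/
def pmCentralizer {G : Type*} [Group G] (c : G) : Subgroup G where
  carrier := {g | g * c = c * g ∨ g * c = c⁻¹ * g}
  one_mem' := Or.inl (by group)
  mul_mem' := by
    intro a b ha hb
    have key : ∀ {u v w : G}, a * u = v * a → b * w = u * b → a * b * w = v * (a * b) := by
      intro u v w h1 h2
      rw [mul_assoc, h2, ← mul_assoc, h1, mul_assoc]
    have inv : ∀ {u v : G}, a * u = v * a → a * u⁻¹ = v⁻¹ * a := by
      intro u v h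
      rw [eq_inv_mul_iff_mul_eq, ← mul_assoc, ← h]
      group
    rcases ha with ha | ha <;> rcases hb with hb | hb
    · exact Or.inl (key ha hb)
    · exact Or.inr (key (inv ha) hb)
    · exact Or.inr (key ha hb)
    · exact Or.inl (key ((inv ha).trans (by rw [inv_inv])) hb)
  inv_mem' := by
    intro a ha
    rcases ha with ha | ha
    · left
      calc a⁻¹ * c = a⁻¹ * (c * a) * a⁻¹ := by group
        _ = a⁻¹ * (a * c) * a⁻¹ := by rw [ha]
        _ = c * a⁻¹ := by group
    · right
      have h : a * c⁻¹ = c * a := by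
        calc a * c⁻¹ = c * (c⁻¹ * a) * c⁻¹ := by group
          _ = c * (a * c) * c⁻¹ := by rw [ha]
          _ = c * a := by group
      calc a⁻¹ * c = a⁻¹ * (c * a) * a⁻¹ := by group
        _ = a⁻¹ * (a * c⁻¹) * a⁻¹ := by rw [h]
        _ = c⁻¹ * a⁻¹ := by group

theorem exists_between_tensor_two (hq : Fintype.card F = 2) {n₂ : ℕ} (hn₂ : 3 ≤ n₂)
    (e : ι ≃ Fin 2 × Fin n₂) (P : GL ι F) {Q : QuadraticForm F (ι → F)} (hQ : Nondeg Q)
    {f₁ : (Fin 2 → F) → (Fin 2 → F) → F} {f₂ : (Fin n₂ → F) → (Fin n₂ → F) → F}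
    (hf₁ : Cfsg.Geo.IsSymplecticForm f₁) (hf₂ : Cfsg.Geo.IsSymplecticForm f₂)
    (hT : Cfsg.Geo.IsTensorFormStructure id (QuadraticMap.polar Q) f₁ f₂ e P)
    (hpure : ∀ x y, Q (Tensor.pt e P x y) = 0) :
    ∃ K : Subgroup (GL ι F), Cfsg.Geo.tensorProductSubgroup 2 n₂ e P ⊓ Cfsg.Geo.omegaGL (⇑Q) < K ∧
      K < Cfsg.Geo.omegaGL (⇑Q) := by
  classical
  have h01 : ∀ a : F, a = 0 ∨ a = 1 := by
    intro a
    by_contra h
    push Not at h
    have : ({0, 1, a} : Finset F).card ≤ 2 := hq ▸ Finset.card_le_univ _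
    rw [Finset.card_insert_of_notMem (by simp [eq_comm (a := (0 : F)), h.1]),
      Finset.card_pair (Ne.symm h.2)] at this
    omega
  have h2 : (2 : F) = 0 := by
    rcases h01 2 with h | h
    · exact h
    · exact absurd (show (1 : F) = 0 by linear_combination h) one_ne_zero
  have h3' : (3 : F) = 1 := by linear_combination h2
  have h4' : (4 : F) = 0 := by linear_combination 2 * h2
  haveI : CharP F 2 := charP_of_card_eq_prime hq
  have hnum : ∀ (k : ℕ) [k.AtLeastTwo], (OfNat.ofNat k : F) = ((k % 2 : ℕ) : F) := fun k _ => by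
    exact (Nat.cast_ofNat (R := F)).symm.trans (CharP.cast_eq_mod F 2 k)
  have haa : ∀ v : Fin n₂ → F, v + v = 0 := fun v => by
    rw [← two_smul F, h2, zero_smul]
  have hcard : Fintype.card ι = 2 * n₂ := by
    rw [Fintype.card_congr e]; simp
  -- coordinates along the first factor
  set e₀ : Fin 2 → F := Pi.single 0 1 with he₀
  set e₁ : Fin 2 → F := Pi.single 1 1 with he₁
  let Φ₀ : (Fin n₂ → F) × (Fin n₂ → F) →ₗ[F] (ι → F) :=
    (Tensor.ptr e P e₀).coprod (Tensor.ptr e P e₁)
  have hinj : Function.Injective Φ₀ := by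
    rw [← LinearMap.ker_eq_bot, LinearMap.ker_eq_bot']
    rintro ⟨y, y'⟩ h
    simp only [Φ₀, LinearMap.coprod_apply, Tensor.ptr_apply, Tensor.pt, ← map_add,
      LinearEquiv.map_eq_zero_iff] at h
    refine Prod.ext (funext fun j => ?_) (funext fun j => ?_)
    · simpa [e₀, e₁] using congrFun h (0, j)
    · simpa [e₀, e₁] using congrFun h (1, j)
  let Φ := LinearEquiv.ofBijective Φ₀ ⟨hinj, (LinearMap.injective_iff_surjective_of_finrank_eq_finrank
    (by rw [Module.finrank_prod, Module.finrank_fintype_fun_eq_card,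
      Module.finrank_fintype_fun_eq_card, hcard, Fintype.card_fin]; ring)).1 hinj⟩
  have hΦ : ∀ y y', Φ (y, y') = Tensor.pt e P e₀ y + Tensor.pt e P e₁ y' := fun y y' => rfl
  have hpt : ∀ x y, Tensor.pt e P x y = Φ (x 0 • y, x 1 • y) := by
    intro x y
    rw [hΦ, Tensor.pt_smul_right, Tensor.pt_smul_right, ← Tensor.pt_smul_left,
      ← Tensor.pt_smul_left, ← Tensor.pt_add_left]
    congr 1
    funext i
    fin_cases i <;> simp [e₀, e₁]
  obtain ⟨k, hk, hform⟩ := Tensor.form_pt e P (σ := RingHom.id F)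
    (fun x x' => eq_formOfGram (σ := RingHom.id F) hf₁.bilinear.add_left hf₁.bilinear.smul_left
      (fun a b v => hf₁.bilinear.add_right v a b) (fun c v a => hf₁.bilinear.smul_right c v a) x x')
    (fun x x' => eq_formOfGram (σ := RingHom.id F) hf₂.bilinear.add_left hf₂.bilinear.smul_left
      (fun a b v => hf₂.bilinear.add_right v a b) (fun c v a => hf₂.bilinear.smul_right c v a) x x')
    hT
  have he01 : f₁ e₀ e₁ ≠ 0 := by
    intro h
    obtain ⟨⟨x, hx⟩, -⟩ := hf₁.nondegenerate e₁ (by simp [e₁])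
    apply hx
    rw [show x = x 0 • e₀ + x 1 • e₁ by funext i; fin_cases i <;> simp [e₀, e₁],
      hf₁.bilinear.add_left, hf₁.bilinear.smul_left, hf₁.bilinear.smul_left, h, hf₁.alternating,
      mul_zero, mul_zero, add_zero]
  have hB : ∀ z, Q (Φ z) = f₂ z.1 z.2 := by
    rintro ⟨y, y'⟩
    rw [hΦ, QuadraticMap.map_add Q, hpure, hpure, hform, (h01 k).resolve_left hk,
      (h01 _).resolve_left he01]
    ring
  have hskew : ∀ y y', f₂ y' y = f₂ y y' := fun y y' => by
    rw [hf₂.skew]; linear_combination (-f₂ y y') * h2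
  -- the element of order three
  let C : ((Fin n₂ → F) × (Fin n₂ → F)) ≃ₗ[F] ((Fin n₂ → F) × (Fin n₂ → F)) :=
    { toFun := fun z => (z.2, z.1 + z.2)
      map_add' := fun a b => Prod.ext rfl (by simp only [Prod.fst_add, Prod.snd_add]; abel)
      map_smul' := fun r a => Prod.ext rfl (by simp [smul_add])
      invFun := fun z => (z.2 - z.1, z.1)
      left_inv := fun z => Prod.ext (by simp) rfl
      right_inv := fun z => Prod.ext rfl (by simp) }
  let up : (((Fin n₂ → F) × (Fin n₂ → F)) ≃ₗ[F] ((Fin n₂ → F) × (Fin n₂ → F))) → GL ι F :=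
    fun T => ofEquiv ((Φ.symm.trans T).trans Φ)
  have hup : ∀ T z, ap (up T) (Φ z) = Φ (T z) := fun T z => by simp [up, ap_ofEquiv]
  set c := up C with hc
  have hcz : ∀ y y', ap c (Φ (y, y')) = Φ (y', y + y') := fun y y' => hup C _
  have hcinv : ∀ y y', ap c⁻¹ (Φ (y, y')) = Φ (y' - y, y) := fun y y' => by
    apply ap_injective c
    rw [ap_ap_inv, hcz, sub_add_cancel]
  set K := pmCentralizer c ⊓ Cfsg.Geo.omegaGL (⇑Q) with hK
  have hle : Cfsg.Geo.tensorProductSubgroup 2 n₂ e P ⊓ Cfsg.Geo.omegaGL (⇑Q) ≤ K := by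
    refine le_inf (fun g hg => ?_) inf_le_right
    obtain ⟨a, b, hab⟩ := (Tensor.mem_iff e P g).1 hg.1
    have hcpt : ∀ x y, ap c (Tensor.pt e P x y) = Tensor.pt e P ![x 1, x 0 + x 1] y := by
      intro x y
      rw [hpt, hpt, hcz]; simp [add_smul]
    have hcpt' : ∀ x y, ap c⁻¹ (Tensor.pt e P x y) = Tensor.pt e P ![x 1 - x 0, x 0] y := by
      intro x y
      rw [hpt, hpt, hcinv]; simp [sub_smul]
    have key : ∀ u v : GL ι F, (∀ x y, ap u (Tensor.pt e P x y) = ap v (Tensor.pt e P x y)) →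
        u = v := by
      intro u v h
      apply gl_ext
      intro w
      obtain ⟨⟨y, y'⟩, rfl⟩ := Φ.surjective w
      have h1 := h e₀ y
      have h2 := h e₁ y'
      rw [hΦ, ap_add, ap_add, h1, h2]
    set A := (a : Matrix (Fin 2) (Fin 2) F) with hA
    have hdet : A 0 0 * A 1 1 - A 0 1 * A 1 0 ≠ 0 := by
      rw [← Matrix.det_fin_two]; exact Matrix.GeneralLinearGroup.det_ne_zero a
    have hax : ∀ x, ap a x = ![A 0 0 * x 0 + A 0 1 * x 1, A 1 0 * x 0 + A 1 1 * x 1] := by
      intro x
      funext i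
      fin_cases i <;> simp [ap_def, Matrix.mulVec, dotProduct, Fin.sum_univ_two, hA]
    by_cases hd : A 0 1 = A 1 0 ∧ A 1 1 = A 0 0 + A 0 1
    · refine Or.inl (key _ _ fun x y => ?_)
      rw [ap_mul, ap_mul, hcpt, hab, hab, hcpt, hax, hax]
      congr 1
      funext i
      obtain ⟨h3, h4⟩ := hd
      fin_cases i <;> simp [h4, ← h3] <;> ring_nf <;> simp [hnum]
    · have h34 : A 1 0 = A 0 0 + A 0 1 ∧ A 1 1 = A 0 0 := by
        rcases h01 (A 0 0) with a0 | a0 <;> rcases h01 (A 0 1) with a1 | a1 <;>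
          rcases h01 (A 1 0) with a2 | a2 <;> rcases h01 (A 1 1) with a3 | a3 <;>
          simp only [a0, a1, a2, a3] at hd hdet ⊢ <;> simp [h2, one_add_one_eq_two] at hd hdet ⊢
      refine Or.inr (key _ _ fun x y => ?_)
      rw [ap_mul, ap_mul, hcpt, hab, hab, hcpt', hax, hax]
      congr 1
      funext i
      obtain ⟨h3, h4⟩ := h34
      fin_cases i <;> simp [h3, h4] <;> ring_nf <;> simp [hnum, CharTwo.sub_eq_add]
  -- a hyperbolic pair of the second factor
  have hfin : ∀ φ : (Fin n₂ → F) →ₗ[F] F, ∀ t : Fin n₂ → F, ∃ b, φ b = 0 ∧ b ≠ 0 ∧ b ≠ t := by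
    intro φ t
    by_contra h
    push Not at h
    have hk : LinearMap.ker φ ≤ Submodule.span F {t} := fun b hb => by
      by_cases hb0 : b = 0
      · exact hb0 ▸ zero_mem _
      · rw [h b hb hb0]; exact Submodule.mem_span_singleton_self t
    have h3 := Submodule.finrank_mono hk
    have h4 := φ.finrank_range_add_finrank_ker
    have h5 := Submodule.finrank_le (LinearMap.range φ)
    have h6 : Module.finrank F (Submodule.span F {t}) ≤ 1 :=
      (finrank_span_le_card _).trans (by simp)
    rw [Module.finrank_self] at h5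
    rw [Module.finrank_fintype_fun_eq_card, Fintype.card_fin] at h4
    omega
  have hn0 : ∃ a : Fin n₂ → F, a ≠ 0 := ⟨Pi.single ⟨0, by omega⟩ 1, by simp⟩
  obtain ⟨a, ha0⟩ := hn0
  obtain ⟨t, hat⟩ : ∃ t, f₂ a t = 1 := by
    obtain ⟨-, ⟨t, ht⟩⟩ := hf₂.nondegenerate a ha0
    exact ⟨t, (h01 _).resolve_left ht⟩
  have hta : f₂ t a = 1 := by rw [hskew, hat]
  obtain ⟨b, hb, hb0, hbt⟩ := hfin (Symp.fl hf₂ t) t
  rw [Symp.fl_apply] at hb
  refine ⟨K, lt_of_le_of_ne hle fun heq => ?_, lt_of_le_of_ne inf_le_right fun heq => ?_⟩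
  · -- an element of order three on one hyperbolic plane
    let p : (Fin n₂ → F) →ₗ[F] (Fin n₂ → F) :=
      (Symp.fl hf₂ t).smulRight a + (Symp.fl hf₂ a).smulRight t
    have hp : ∀ y, p y = f₂ y t • a + f₂ y a • t := fun y => rfl
    have hpp : ∀ y, p (p y) = p y := by
      intro y
      rw [hp y, map_add, map_smul, map_smul, hp a, hp t, hat, hta, hf₂.alternating,
        hf₂.alternating]
      simp
    let T : ((Fin n₂ → F) × (Fin n₂ → F)) ≃ₗ[F] ((Fin n₂ → F) × (Fin n₂ → F)) :=
      { toFun := fun z => (z.1 + p z.1 + p z.2, z.2 + p z.1)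
        map_add' := fun u v => Prod.ext
          (by simp only [Prod.fst_add, Prod.snd_add, map_add]; abel)
          (by simp only [Prod.fst_add, Prod.snd_add, map_add]; abel)
        map_smul' := fun r u => Prod.ext (by simp [smul_add]) (by simp [smul_add])
        invFun := fun z => (z.1 + p z.2, z.2 + p z.2 + p z.1)
        left_inv := fun z => Prod.ext
          (by simp only [map_add, hpp]; funext i; simp only [Pi.add_apply]; ring_nf <;> simp [hnum])
          (by simp only [map_add, hpp]; funext i; simp only [Pi.add_apply]; ring_nf <;> simp [hnum])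
        right_inv := fun z => Prod.ext
          (by simp only [map_add, hpp]; funext i; simp only [Pi.add_apply]; ring_nf <;> simp [hnum])
          (by simp only [map_add, hpp]; funext i; simp only [Pi.add_apply]; ring_nf <;> simp [hnum]) }
    set g := up T with hg
    have hgz : ∀ y y', ap g (Φ (y, y')) = Φ (y + p y + p y', y' + p y) := fun y y' => hup T _
    have hgI : g ∈ Cfsg.isometryGroup F (⇑Q) := mem_isometryGroup_iff.2 fun v => by
      obtain ⟨⟨y, y'⟩, rfl⟩ := Φ.surjective v
      rw [hgz, hB, hB]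
      simp only [hp, hf₂.bilinear.add_left, hf₂.bilinear.add_right, hf₂.bilinear.smul_left,
        hf₂.bilinear.smul_right, hf₂.alternating, hat, hta, hskew y t, hskew y a, hskew y' t,
        hskew y' a]
      ring_nf
      simp [hnum]
    have hg3 : g = (g * g) * (g * g) := gl_ext fun v => by
      obtain ⟨⟨y, y'⟩, rfl⟩ := Φ.surjective v
      simp only [ap_mul, hgz, map_add, hpp]
      congr 1
      refine Prod.ext ?_ ?_
      · funext i; simp only [Pi.add_apply]; ring_nf <;> simp [hnum]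
      · funext i; simp only [Pi.add_apply]; ring_nf <;> simp [hnum]
    have hgK : g ∈ K := by
      refine ⟨Or.inl (gl_ext fun v => ?_), ?_⟩
      · obtain ⟨⟨y, y'⟩, rfl⟩ := Φ.surjective v
        simp only [ap_mul, hgz, hcz, map_add]
        congr 1
        refine Prod.ext ?_ ?_
        · funext i; simp only [Pi.add_apply]; ring_nf <;> simp [hnum]
        · funext i; simp only [Pi.add_apply]; ring_nf <;> simp [hnum]
      · rw [hg3]
        exact mul_self_mem_omega_two hq hQ (by omega) (mul_mem hgI hgI)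
    obtain ⟨a', b', hab⟩ := (Tensor.mem_iff e P g).1 ((heq.symm ▸ hgK :
      g ∈ Cfsg.Geo.tensorProductSubgroup 2 n₂ e P ⊓ Cfsg.Geo.omegaGL (⇑Q)).1)
    have hpa : p a = a := by rw [hp, hat, hf₂.alternating]; simp
    have h1 := hab e₀ a
    rw [hpt, hpt, hgz] at h1
    simp only [e₀, Pi.single_eq_same, one_smul, ne_eq, Fin.reduceEq, not_false_eq_true,
      Pi.single_eq_of_ne, zero_smul, hpa, map_zero, add_zero, zero_add, EmbeddingLike.apply_eq_iff_eq,
      Prod.mk.injEq] at h1
    have hα : ap a' e₀ 0 = 0 := by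
      rcases smul_eq_zero.1 (h1.1.symm.trans (by
        have : a + a = (2 : F) • a := by rw [two_smul]
        rw [this, h2, zero_smul])) with h | h
      · exact h
      · exact absurd h (ap_ne_zero b' ha0)
    obtain ⟨z, hz, hz0, hzb⟩ := hfin (Symp.fl hf₂ a) a
    obtain ⟨z, hz1, hz2, hz0⟩ : ∃ z, f₂ z a = 0 ∧ f₂ z t = 0 ∧ z ≠ 0 := by
      rw [Symp.fl_apply] at hz
      refine ⟨z + f₂ z t • a, ?_, ?_, ?_⟩
      · rw [hf₂.bilinear.add_left, hf₂.bilinear.smul_left, hz, hf₂.alternating]; ring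
      · rw [hf₂.bilinear.add_left, hf₂.bilinear.smul_left, hat]; linear_combination f₂ z t * h2
      · intro h
        rcases h01 (f₂ z t) with h' | h' <;> rw [h'] at h
        · exact hz0 (by simpa using h)
        · apply hzb
          rw [one_smul, add_eq_zero_iff_eq_neg] at h
          rw [h, ← neg_one_smul F a, show (-1 : F) = 1 by linear_combination -h2, one_smul]
    have h3 := hab e₀ z
    rw [hpt, hpt, hgz] at h3
    have hpz : p z = 0 := by rw [hp, hz1, hz2]; simp
    simp only [e₀, Pi.single_eq_same, one_smul, ne_eq, Fin.reduceEq, not_false_eq_true,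
      Pi.single_eq_of_ne, zero_smul, hpz, map_zero, add_zero, zero_add, EmbeddingLike.apply_eq_iff_eq,
      Prod.mk.injEq] at h3
    rw [hα, zero_smul] at h3
    exact hz0 h3.1
  · -- a Siegel element outside
    have hu : Q (Φ (a, 0)) = 0 := by rw [hB]; exact Symp.zero_right hf₂ a
    have hw' : Q (Φ (b, 0)) = 0 := by rw [hB]; exact Symp.zero_right hf₂ b
    have hw : polar Q (Φ (a, 0)) (Φ (b, 0)) = 0 := by
      rw [polar, ← map_add, hu, hw', hB]
      simp [Symp.zero_right hf₂]
    have hs : sg Q _ _ hu hw ∈ K := heq.symm ▸ sg_mem hQ (by omega) hu hw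
    have hsz : ∀ y, ap (sg Q _ _ hu hw) (Φ (t, y)) =
        Φ (t + f₂ a y • b - f₂ b y • a, y) := by
      intro y
      have e1 : ∀ u : Fin n₂ → F, polar Q (Φ (t, y)) (Φ (u, 0)) = f₂ u y := fun u => by
        rw [polar, ← map_add, hB, hB, hB, Prod.mk_add_mk, add_zero, hf₂.bilinear.add_left,
          Symp.zero_right hf₂]
        ring
      rw [ap_sg, e1, e1, hw', zero_mul, add_zero, ← map_smul, ← map_smul, ← map_add, ← map_sub]
      congr 1
      refine Prod.ext ?_ ?_ <;> simp
    have hsy : ap (sg Q _ _ hu hw) (Φ (t, 0)) = Φ (t, 0) := by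
      rw [hsz]; simp [Symp.zero_right hf₂]
    have e1 : polar Q (Φ (0, t)) (Φ (a, 0)) = 1 := by
      rw [polar, ← map_add, hB, hB, hB]; simp [Symp.zero_right hf₂, Symp.zero_left hf₂, hat]
    have e2 : polar Q (Φ (0, t)) (Φ (b, 0)) = 0 := by
      rw [polar, ← map_add, hB, hB, hB]; simp [Symp.zero_right hf₂, Symp.zero_left hf₂, hb]
    have hst : ap (sg Q _ _ hu hw) (Φ (0, t)) = Φ (b, t) := by
      rw [ap_sg, e1, e2, hw', zero_mul, zero_add, zero_smul, sub_zero, one_smul, ← map_add]
      simp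
    rcases hs.1 with h | h
    · have h' := congrArg (fun g => ap g (Φ (t, 0))) h
      simp only [ap_mul, hcz, hsy, add_zero, hst] at h'
      exact hb0 (congrArg Prod.fst (Φ.injective h'))
    · have h' := congrArg (fun g => ap g (Φ (t, 0))) h
      simp only [ap_mul, hcz, hsy, add_zero, hst, hcinv, zero_sub] at h'
      apply hbt
      have hbt' : b = -t := congrArg Prod.fst (Φ.injective h')
      rw [hbt', ← neg_one_smul F t,
        show (-1 : F) = 1 by linear_combination -h2, one_smul]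

end CfsgLib.Geometric.Orth
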