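import Cfsg.Agent.Lib.SmallDim.OrthWreath
import Cfsg.Agent.Lib.Geometric.Orth.SympTensor
import Cfsg.Agent.Lib.Geometric.Orth.TensorThree

/-!
In characteristic two the sum of the factorwise Clifford operators of a tensor power of symplectic
planes, or of symplectic four-spaces, is preserved by the wreath product and by more.
-/

set_option autoImplicit false
set_option linter.style.haveILetI false
set_option linter.unusedSectionVars false

namespace CfsgLib.Geometric.TensorClifford

open scoped Matrix commutatorElement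
open Matrix CfsgLib.SmallDim Cfsg.Geo

variable {F : Type*} [Field F] {t m : ℕ}

local notation "V" => ((Fin t → Fin m) → F)
local notation "Mk" => Matrix (Fin m) (Fin m) F
local notation "Mt" => Matrix (Fin t → Fin m) (Fin t → Fin m) F

/-- The anti-diagonal Gram matrix. -/
def flipGram (m : ℕ) : Matrix (Fin m) (Fin m) F := Matrix.of fun a b => if b = a.rev then 1 else 0

lemma flipGram_mulVec (x : Fin m → F) (a : Fin m) : (flipGram m *ᵥ x) a = x a.rev := by
  simp [flipGram, Matrix.mulVec, dotProduct]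

lemma flipGram_mul (X : Mk) (a b : Fin m) : (flipGram m * X : Mk) a b = X a.rev b := by
  simp [flipGram, Matrix.mul_apply]

lemma flipGram_sq : (flipGram m : Mk) * flipGram m = 1 := by
  ext a b
  rw [flipGram_mul]
  simp [flipGram, Matrix.one_apply, eq_comm]

lemma flipGram_det : (flipGram m : Mk).det ≠ 0 := fun h => by
  have := congrArg Matrix.det (flipGram_sq (F := F) (m := m))
  rw [Matrix.det_mul, h, zero_mul, Matrix.det_one] at this
  exact zero_ne_one this

lemma flipGram_transpose : (flipGram m : Mk)ᵀ = flipGram m := by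
  ext a b
  simp only [Matrix.transpose_apply, flipGram, Matrix.of_apply]
  congr 1
  exact propext ⟨fun h => by rw [h, Fin.rev_rev], fun h => by rw [h, Fin.rev_rev]⟩

/-- The operator of a single factor. -/
def slot (i : Fin t) (X : Mk) : Mt := pureMat (Function.update 1 i X)

lemma pureMat_update_add (f : Fin t → Mk) (i : Fin t) (a b : Mk) :
    pureMat (Function.update f i (a + b)) =
      pureMat (Function.update f i a) + pureMat (Function.update f i b) := by
  ext x y
  have h : ∀ c, (fun j => Function.update f i c j (x j) (y j)) =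
      Function.update (fun j => f j (x j) (y j)) i (c (x i) (y i)) :=
    fun c => funext fun j => Function.apply_update (fun j (w : Mk) => w (x j) (y j)) f i c j
  simp only [pureMat, Matrix.of_apply, Matrix.add_apply, h, Finset.prod_update_of_mem (Finset.mem_univ i),
    add_mul]

lemma pureMat_update_smul (f : Fin t → Mk) (i : Fin t) (s : F) (a : Mk) :
    pureMat (Function.update f i (s • a)) = s • pureMat (Function.update f i a) := by
  ext x y
  have h : ∀ c, (fun j => Function.update f i c j (x j) (y j)) =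
      Function.update (fun j => f j (x j) (y j)) i (c (x i) (y i)) :=
    fun c => funext fun j => Function.apply_update (fun j (w : Mk) => w (x j) (y j)) f i c j
  simp only [pureMat, Matrix.of_apply, Matrix.smul_apply, smul_eq_mul, h,
    Finset.prod_update_of_mem (Finset.mem_univ i), mul_assoc]

lemma pureMat_eq_zero (f : Fin t → Mk) {j : Fin t} (h : f j = 0) : pureMat f = 0 := by
  ext x y
  exact Finset.prod_eq_zero (Finset.mem_univ j) (by rw [h]; rfl)

lemma ext_pure {M N : Mt} (h : ∀ v : Fin t → Fin m → F, M *ᵥ pureTensorVec v = N *ᵥ pureTensorVec v) :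
    M = N :=
  Matrix.ext_of_mulVec_single fun a => by rw [← pureVec_single]; exact h _

lemma slot_mulVec (i : Fin t) (X : Mk) (v : Fin t → Fin m → F) :
    slot i X *ᵥ pureTensorVec v = pureTensorVec (Function.update v i (X *ᵥ v i)) := by
  rw [slot, pureMat_mulVec]
  congr 1
  funext j
  by_cases h : j = i
  · subst h; simp
  · simp [Function.update_of_ne h]

/-- The Clifford operators of one factor. -/
def cliffSet (m : ℕ) : Set (Matrix (Fin m) (Fin m) F) :=
  {X | (∃ d : F, X * X = d • 1) ∧ (m = 4 → ∀ x, x ⬝ᵥ ((flipGram m * X) *ᵥ x) = 0)}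

/-- The span of the Clifford operators of all factors. -/
def cliffSpan (t m : ℕ) : Submodule F (Matrix (Fin t → Fin m) (Fin t → Fin m) F) :=
  Submodule.span F {Y | ∃ (i : Fin t) (X : Matrix (Fin m) (Fin m) F), X ∈ cliffSet m ∧ slot i X = Y}

lemma cliffSet_conj {A : Mk} {μ : F} (hμ : μ ≠ 0) (hA : Aᵀ * flipGram m * A = μ • flipGram m)
    {X : Mk} (hX : X ∈ cliffSet m) : A * X * A⁻¹ ∈ cliffSet m := by
  have hdet : IsUnit A.det := by
    refine isUnit_iff_ne_zero.2 fun h => ?_
    have := congrArg Matrix.det hA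
    rw [Matrix.det_mul, h, mul_zero, Matrix.det_smul] at this
    exact mul_ne_zero (pow_ne_zero _ hμ) flipGram_det this.symm
  obtain ⟨⟨d, hd⟩, halt⟩ := hX
  refine ⟨⟨d, ?_⟩, fun h4 x => ?_⟩
  · calc A * X * A⁻¹ * (A * X * A⁻¹) = A * X * (A⁻¹ * A) * X * A⁻¹ := by noncomm_ring
      _ = A * (X * X) * A⁻¹ := by rw [Matrix.nonsing_inv_mul A hdet]; noncomm_ring
      _ = d • 1 := by rw [hd, Matrix.mul_smul, Matrix.mul_one, Matrix.smul_mul, Matrix.mul_nonsing_inv A hdet]
  obtain ⟨y, rfl⟩ : ∃ y, A *ᵥ y = x :=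
    ⟨A⁻¹ *ᵥ x, by rw [Matrix.mulVec_mulVec, Matrix.mul_nonsing_inv A hdet, Matrix.one_mulVec]⟩
  rw [Matrix.mulVec_mulVec, ← Matrix.vecMul_transpose, ← Matrix.dotProduct_mulVec, Matrix.mulVec_mulVec,
    show Aᵀ * (flipGram m * (A * X * A⁻¹) * A) = Aᵀ * flipGram m * A * X * (A⁻¹ * A) by noncomm_ring,
    Matrix.nonsing_inv_mul A hdet, Matrix.mul_one, hA, Matrix.smul_mul, Matrix.smul_mulVec,
    dotProduct_smul, halt h4 y, smul_zero]

/-- A quadratic form whose polar form is a tensor power and which vanishes on pure tensors. -/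
structure PowerForm (q : V → F) (c : F) : Prop where
  c_ne : c ≠ 0
  smul : ∀ (s : F) x, q (s • x) = s ^ 2 * q x
  gram : ∀ x y, QuadraticMap.polar q x y = c * (x ⬝ᵥ (pureMat (fun _ => flipGram m) *ᵥ y))
  sing : ∀ v, q (pureTensorVec v) = 0

lemma PowerForm.map_eq {q : V → F} {c : F} (h : PowerForm q c) {Z : Mt}
    (hZ : Zᵀ * pureMat (fun _ => flipGram m) * Z = pureMat (fun _ => flipGram m))
    (hs : ∀ a, q (Z *ᵥ Pi.single a 1) = 0) (x : V) : q (Z *ᵥ x) = q x := by
  classical
  have hadd : ∀ u v, q (u + v) = q u + q v + QuadraticMap.polar q u v := fun u v => by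
    rw [QuadraticMap.polar]; ring
  have hpol : ∀ u v, QuadraticMap.polar q (Z *ᵥ u) (Z *ᵥ v) = QuadraticMap.polar q u v := fun u v => by
    rw [h.gram, h.gram, Matrix.mulVec_mulVec, ← Matrix.vecMul_transpose, ← Matrix.dotProduct_mulVec,
      Matrix.mulVec_mulVec, ← Matrix.mul_assoc, hZ]
  rw [pi_eq_sum_univ' x]
  induction (Finset.univ : Finset (Fin t → Fin m)) using Finset.induction with
  | empty => simp
  | insert i s hi ih =>
    rw [Finset.sum_insert hi, Matrix.mulVec_add, hadd, hadd, ih, hpol, Matrix.mulVec_smul, h.smul, h.smul,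
      hs, ← pureVec_single, h.sing]

variable [CharP F 2]

lemma add_self_mat {n : Type*} (N : Matrix n n F) : N + N = 0 := Matrix.ext fun _ _ => CharTwo.add_self_eq_zero _

/-- Products of commuting nilpotent operators give isometries of order two. -/
lemma one_add_preserves {q : V → F} {c : F} (h : PowerForm q c) (cs : Fin t → Mk)
    (hsym : ∀ i, (flipGram m * cs i)ᵀ = flipGram m * cs i) {i : Fin t}
    (halt : ∀ a, (flipGram m * cs i : Mk) a a = 0) {j : Fin t} (hsq : cs j * cs j = 0) (x : V) :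
    q ((1 + pureMat cs) *ᵥ x) = q x := by
  have hGN : pureMat (fun _ => flipGram m) * pureMat cs = pureMat fun l => flipGram m * cs l := by
    rw [← pureMat_mul]; rfl
  have hNG : (pureMat cs)ᵀ * pureMat (fun _ => flipGram m) = pureMat fun l => flipGram m * cs l := by
    rw [pureMat_transpose, ← pureMat_mul]
    congr 1
    funext l
    have h1 := hsym l
    rw [Matrix.transpose_mul, flipGram_transpose] at h1
    exact h1
  refine h.map_eq ?_ (fun a => ?_) x
  · rw [Matrix.transpose_add, Matrix.transpose_one, Matrix.add_mul, Matrix.one_mul, hNG, Matrix.add_mul,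
      Matrix.mul_add, Matrix.mul_add, Matrix.mul_one, Matrix.mul_one, hGN, ← pureMat_mul,
      pureMat_eq_zero ((fun l => flipGram m * cs l) * cs) (j := j) (by
        show flipGram m * cs j * cs j = 0
        rw [Matrix.mul_assoc, hsq, Matrix.mul_zero]), add_zero, add_assoc, add_self_mat,
      add_zero]
  · have hdiag : pureMat (fun l => flipGram m * cs l) a a = 0 :=
      Finset.prod_eq_zero (Finset.mem_univ i) (halt _)
    have hN : q (pureMat cs *ᵥ Pi.single a 1) = 0 := by rw [← pureVec_single, pureMat_mulVec, h.sing]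
    have hp : QuadraticMap.polar q (Pi.single a 1) (pureMat cs *ᵥ Pi.single a 1) = 0 := by
      rw [h.gram, Matrix.mulVec_mulVec, hGN, single_dotProduct, one_mul, Matrix.mulVec_single_one,
        Matrix.col_apply, hdiag, mul_zero]
    have he : q (Pi.single a 1) = 0 := by rw [← pureVec_single, h.sing]
    rw [QuadraticMap.polar, hN, he, sub_zero, sub_zero] at hp
    rw [Matrix.add_mulVec, Matrix.one_mulVec]
    exact hp

/-- A tensor power of isometries is an isometry. -/
lemma pure_preserves {q : V → F} {c : F} (h : PowerForm q c) (as : Fin t → Mk)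
    (ha : ∀ i, (as i)ᵀ * flipGram m * as i = flipGram m) (x : V) : q (pureMat as *ᵥ x) = q x :=
  h.map_eq (by rw [pureMat_transpose, ← pureMat_mul, ← pureMat_mul]; exact congrArg pureMat (funext ha))
    (fun a => by rw [← pureVec_single, pureMat_mulVec, h.sing]) x

/-- The element `1 + N`. -/
def addOne (N : Mt) (h : N * N = 0) : GL (Fin t → Fin m) F where
  val := 1 + N
  inv := 1 + N
  val_inv := by
    rw [add_mul, mul_add, mul_add, one_mul, one_mul, mul_one, h, add_zero, add_assoc,
      add_self_mat, add_zero]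
  inv_val := by
    rw [add_mul, mul_add, mul_add, one_mul, one_mul, mul_one, h, add_zero, add_assoc,
      add_self_mat, add_zero]

lemma pureMat_sq_zero (cs : Fin t → Mk) {j : Fin t} (h : cs j * cs j = 0) :
    pureMat cs * pureMat cs = 0 := by
  rw [← pureMat_mul]; exact pureMat_eq_zero _ (j := j) h

/-- Conjugating a single-factor operator by `1 + N`. -/
lemma addOne_conj_slot (cs : Fin t → Mk) {i j : Fin t} (hji : j ≠ i) (hsq : cs j * cs j = 0) (X : Mk) :
    (1 + pureMat cs) * slot i X * (1 + pureMat cs) =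
      slot i X + pureMat (Function.update cs i (cs i * X + X * cs i)) := by
  have hl : pureMat cs * slot i X = pureMat (Function.update cs i (cs i * X)) := by
    rw [slot, ← pureMat_mul]; congr 1; funext l
    by_cases h : l = i
    · subst h; simp
    · simp [Function.update_of_ne h]
  have hr : slot i X * pureMat cs = pureMat (Function.update cs i (X * cs i)) := by
    rw [slot, ← pureMat_mul]; congr 1; funext l
    by_cases h : l = i
    · subst h; simp
    · simp [Function.update_of_ne h]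
  have hz : pureMat (Function.update cs i (cs i * X)) * pureMat cs = 0 := by
    rw [← pureMat_mul]; refine pureMat_eq_zero _ (j := j) ?_
    rw [Pi.mul_apply, Function.update_of_ne hji]; exact hsq
  rw [Matrix.add_mul, Matrix.one_mul, hl, Matrix.add_mul, Matrix.mul_add, Matrix.mul_one, hr,
    Matrix.mul_add, Matrix.mul_one, hz, add_zero, pureMat_update_add]
  abel

/-- An operator of the span has no entry between indices differing in two factors. -/
lemma cliffSpan_entry {Y : Mt} (hY : Y ∈ cliffSpan t m) {x y : Fin t → Fin m} {i j : Fin t} (hij : i ≠ j)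
    (hi : x i ≠ y i) (hj : x j ≠ y j) : Y x y = 0 := by
  induction hY using Submodule.span_induction with
  | mem Y hY =>
    obtain ⟨l, X, -, rfl⟩ := hY
    by_cases h : i = l
    · refine Finset.prod_eq_zero (Finset.mem_univ j) ?_
      rw [Function.update_of_ne (fun e => hij (h.trans e.symm)), Pi.one_apply, Matrix.one_apply_ne hj]
    · refine Finset.prod_eq_zero (Finset.mem_univ i) ?_
      rw [Function.update_of_ne h, Pi.one_apply, Matrix.one_apply_ne hi]
  | zero => rfl
  | add _ _ _ _ h1 h2 => rw [Matrix.add_apply, h1, h2, add_zero]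
  | smul s _ _ h1 => rw [Matrix.smul_apply, h1, smul_zero]

/-- The elements keeping the span. -/
def cliffStab (t m : ℕ) : Subgroup (GL (Fin t → Fin m) F) where
  carrier := {z | ∀ Y, (z : Matrix _ _ F) * Y * ((z⁻¹ : GL _ F) : Matrix _ _ F) ∈ cliffSpan t m ↔
    Y ∈ cliffSpan t m}
  mul_mem' {a b} ha hb Y := by
    have h1 := ha ((b : Matrix _ _ F) * Y * ((b⁻¹ : GL _ F) : Matrix _ _ F))
    have h2 := hb Y
    simp only [_root_.mul_inv_rev, Units.val_mul, Matrix.mul_assoc] at h1 h2 ⊢
    exact h1.trans h2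
  one_mem' Y := by simp
  inv_mem' {a} ha Y := by
    have h1 := ha ((↑(a⁻¹) : Matrix _ _ F) * Y * (a : Matrix _ _ F))
    rw [← Matrix.mul_assoc, ← Matrix.mul_assoc, Units.mul_inv, Matrix.one_mul, Matrix.mul_assoc,
      Units.mul_inv, Matrix.mul_one] at h1
    rw [inv_inv]
    exact h1.symm

lemma maps_span {z : GL (Fin t → Fin m) F}
    (h : ∀ (i : Fin t) (X : Mk), X ∈ cliffSet m →
      (z : Mt) * slot i X * ((z⁻¹ : GL _ F) : Mt) ∈ cliffSpan t m)
    {Y : Mt} (hY : Y ∈ cliffSpan t m) : (z : Mt) * Y * ((z⁻¹ : GL _ F) : Mt) ∈ cliffSpan t m := by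
  induction hY using Submodule.span_induction with
  | mem Y hY => obtain ⟨i, X, hX, rfl⟩ := hY; exact h i X hX
  | zero => simp
  | add _ _ _ _ h1 h2 => rw [Matrix.mul_add, Matrix.add_mul]; exact add_mem h1 h2
  | smul s _ _ h1 => rw [Matrix.mul_smul, Matrix.smul_mul]; exact Submodule.smul_mem _ s h1

/-- The isometries in the wreath product keep the span. -/
theorem standard_maps [Finite F] (ht : 0 < t) (hm : 0 < m) {q : V → F} {c : F} (hq : PowerForm q c)
    {z : GL (Fin t → Fin m) F} (hz : z ∈ tensorWreathStandard m t F) (hiso : ∀ x, q ((z : Mt) *ᵥ x) = q x)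
    {Y : Mt} (hY : Y ∈ cliffSpan t m) : (z : Mt) * Y * ((z⁻¹ : GL _ F) : Mt) ∈ cliffSpan t m := by
  classical
  haveI : Fintype F := Fintype.ofFinite F
  obtain ⟨σ, gs, hgs⟩ := CfsgLib.SmallDim.OrthEven.tensorWreathStandard_factors hz
  set J : Mk := flipGram m
  have hdot : ∀ v w : Fin t → Fin m → F,
      ∏ l, ((gs l *ᵥ v (σ l)) ⬝ᵥ (J *ᵥ (gs l *ᵥ w (σ l)))) = ∏ l, (v l ⬝ᵥ (J *ᵥ w l)) := by
    intro v w
    have h1 : QuadraticMap.polar q ((z : Mt) *ᵥ pureTensorVec v) ((z : Mt) *ᵥ pureTensorVec w) =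
        QuadraticMap.polar q (pureTensorVec v) (pureTensorVec w) := by
      simp only [QuadraticMap.polar, ← Matrix.mulVec_add, hiso]
    rw [hgs, hgs, hq.gram, hq.gram, pureMat_mulVec, pureMat_mulVec, pureVec_dot, pureVec_dot] at h1
    exact mul_left_cancel₀ hq.c_ne h1
  let a₀ : Fin m := ⟨0, hm⟩
  let e₀ : Fin m → F := Pi.single a₀ 1
  let f₀ : Fin m → F := Pi.single a₀.rev 1
  have hef : e₀ ⬝ᵥ (J *ᵥ f₀) = 1 := by
    simp only [e₀, f₀, J, single_dotProduct, one_mul, flipGram_mulVec, Pi.single_eq_same]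
  have hsim : ∀ i, ∃ μ : F, μ ≠ 0 ∧ (gs i)ᵀ * J * gs i = μ • J := by
    intro i
    set K := ∏ l ∈ Finset.univ.erase i, ((gs l *ᵥ e₀) ⬝ᵥ (J *ᵥ (gs l *ᵥ f₀)))
    have key : ∀ x y : Fin m → F, ((gs i *ᵥ x) ⬝ᵥ (J *ᵥ (gs i *ᵥ y))) * K = x ⬝ᵥ (J *ᵥ y) := by
      intro x y
      have h1 := hdot (Function.update (fun _ => e₀) (σ i) x) (Function.update (fun _ => f₀) (σ i) y)
      have hR : ∏ l, (Function.update (fun _ => e₀) (σ i) x l ⬝ᵥ
          (J *ᵥ Function.update (fun _ => f₀) (σ i) y l)) = x ⬝ᵥ (J *ᵥ y) := by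
        rw [Finset.prod_eq_single (σ i) (fun l _ hl => by
          rw [Function.update_of_ne hl, Function.update_of_ne hl, hef]) (by simp),
          Function.update_self, Function.update_self]
      rw [hR, ← Finset.mul_prod_erase _ _ (Finset.mem_univ i), Function.update_self, Function.update_self] at h1
      rw [← h1]
      congr 1
      refine Finset.prod_congr rfl fun l hl => ?_
      have hne : σ l ≠ σ i := fun e => (Finset.mem_erase.1 hl).1 (σ.injective e)
      rw [Function.update_of_ne hne, Function.update_of_ne hne]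
    have hK : K ≠ 0 := fun h => by
      have := key e₀ f₀
      rw [h, mul_zero, hef] at this
      exact zero_ne_one this
    refine ⟨K⁻¹, inv_ne_zero hK, Matrix.ext fun a b => ?_⟩
    have h1 := key (Pi.single a 1) (Pi.single b 1)
    rw [Matrix.mulVec_mulVec, ← Matrix.vecMul_transpose, ← Matrix.dotProduct_mulVec, Matrix.mulVec_mulVec,
      single_dotProduct, one_mul, Matrix.mulVec_single_one, Matrix.col_apply, single_dotProduct, one_mul,
      Matrix.mulVec_single_one, Matrix.col_apply, ← Matrix.mul_assoc] at h1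
    rw [Matrix.smul_apply, smul_eq_mul, ← h1]
    field_simp
  refine maps_span (fun j X hX => ?_) hY
  obtain ⟨i, rfl⟩ := σ.surjective j
  obtain ⟨μ, hμ, hA⟩ := hsim i
  have hdet : IsUnit (gs i).det := by
    refine isUnit_iff_ne_zero.2 fun h => ?_
    have := congrArg Matrix.det hA
    rw [Matrix.det_mul, h, mul_zero, Matrix.det_smul] at this
    exact mul_ne_zero (pow_ne_zero _ hμ) flipGram_det this.symm
  have hmul : (z : Mt) * slot (σ i) X = slot i (gs i * X * (gs i)⁻¹) * (z : Mt) := by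
    refine ext_pure fun v => ?_
    rw [← Matrix.mulVec_mulVec, ← Matrix.mulVec_mulVec, slot_mulVec, hgs, hgs, slot_mulVec]
    congr 1
    funext l
    by_cases h : l = i
    · subst h
      rw [Function.update_self, Function.update_self, Matrix.mulVec_mulVec, Matrix.mulVec_mulVec,
        Matrix.mul_assoc (gs l * X), Matrix.nonsing_inv_mul _ hdet, Matrix.mul_one]
    · rw [Function.update_of_ne h, Function.update_of_ne (fun e => h (σ.injective e))]
  rw [hmul, Matrix.mul_assoc, Units.mul_inv, Matrix.mul_one]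
  exact Submodule.subset_span ⟨i, _, cliffSet_conj hμ hA hX, rfl⟩

/-- An element mixing two factors, outside the wreath product. -/
lemma mix_notMem [Finite F] {B : Mk} {a₀ a₁ : Fin m} (hne : a₀ ≠ a₁)
    (hB : B *ᵥ Pi.single a₁ 1 = Pi.single a₀ 1) {i j : Fin t} (hij : i ≠ j) {u : GL (Fin t → Fin m) F}
    (hu : (u : Mt) = 1 + pureMat (Function.update (Function.update 1 i B) j B)) :
    u ∉ tensorWreathStandard m t F := by
  classical
  intro hmem
  let x : Fin t → Fin m := Function.update (Function.update (fun _ => a₀) i a₁) j a₁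
  let y : Fin t → Fin m := fun _ => a₀
  let x' : Fin t → Fin m := Function.update y i a₁
  let y' : Fin t → Fin m := Function.update y j a₁
  obtain ⟨w, hw⟩ := tensorWreathStandard_pureVec hmem (fun l => (Pi.single (x l) 1 : Fin m → F))
  have hN : pureMat (Function.update (Function.update (1 : Fin t → Mk) i B) j B) *ᵥ
      pureTensorVec (fun l => (Pi.single (x l) 1 : Fin m → F)) = Pi.single y 1 := by
    rw [pureMat_mulVec, ← pureVec_single]
    congr 1
    funext l
    by_cases hlj : l = j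
    · subst hlj; simp [x, y, hB]
    by_cases hli : l = i
    · subst hli; simp [x, y, hlj, hB]
    · rw [Function.update_of_ne hlj, Function.update_of_ne hli, Pi.one_apply, Matrix.one_mulVec]
      simp [x, y, hlj, hli]
  rw [hu, Matrix.add_mulVec, Matrix.one_mulVec, hN, pureVec_single] at hw
  have hxy : x ≠ y := fun e => hne (by simpa [x, y] using (congrFun e j).symm)
  have hx'x : x' ≠ x := fun e => hne (by simpa [x, x', y, hij.symm] using congrFun e j)
  have hx'y : x' ≠ y := fun e => hne (by simpa [x', y] using (congrFun e i).symm)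
  have h1 : pureTensorVec w x = 1 := by rw [← hw]; simp [hxy]
  have h2 : pureTensorVec w y = 1 := by rw [← hw]; simp [Ne.symm hxy]
  have h3 : pureTensorVec w x' = 0 := by rw [← hw]; simp [hx'x, hx'y]
  have hprod : pureTensorVec w x * pureTensorVec w y = pureTensorVec w x' * pureTensorVec w y' := by
    simp only [pureTensorVec, ← Finset.prod_mul_distrib]
    refine Finset.prod_congr rfl fun l _ => ?_
    by_cases hli : l = i
    · subst hli; simp [x, y, x', y', hij]
    by_cases hlj : l = j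
    · subst hlj; simp [x, y, x', y', hli, mul_comm]
    · simp [x, y, x', y', hli, hlj]
  rw [h1, h2, h3, zero_mul, one_mul] at hprod
  exact one_ne_zero hprod

/-- The mixing element keeps the span. -/
lemma mix_maps {B : Mk} (hB : B ∈ cliffSet m) (hB2 : B * B = 0)
    (hcomm : ∀ X ∈ cliffSet m, ∃ d : F, B * X + X * B = d • 1) {i j : Fin t} (hij : i ≠ j)
    {u : GL (Fin t → Fin m) F} (hu : (u : Mt) = 1 + pureMat (Function.update (Function.update 1 i B) j B))
    (hu' : ((u⁻¹ : GL _ F) : Mt) = (u : Mt)) : u ∈ cliffStab t m := by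
  classical
  set cs : Fin t → Mk := Function.update (Function.update 1 i B) j B
  have hci : cs i = B := by simp [cs, hij]
  have hcj : cs j = B := by simp [cs]
  have hmaps : ∀ Y, Y ∈ cliffSpan t m → (u : Mt) * Y * ((u⁻¹ : GL _ F) : Mt) ∈ cliffSpan t m := by
    intro Y hY
    refine maps_span (fun l X hX => ?_) hY
    have hgen : slot l X ∈ cliffSpan t m := Submodule.subset_span ⟨l, X, hX, rfl⟩
    rw [hu', hu]
    by_cases hli : l = i
    · subst hli
      rw [addOne_conj_slot cs hij.symm (by rw [hcj]; exact hB2), hci]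
      obtain ⟨d, hd⟩ := hcomm X hX
      rw [hd, pureMat_update_smul]
      refine add_mem hgen (Submodule.smul_mem _ d (Submodule.subset_span ⟨j, B, hB, ?_⟩))
      rw [slot]; congr 1; funext p
      by_cases hp : p = j
      · subst hp; simp [hij.symm, hcj]
      · by_cases hp' : p = l
        · subst hp'; simp [hp]
        · simp [hp, hp', cs]
    by_cases hlj : l = j
    · subst hlj
      rw [addOne_conj_slot cs hij (by rw [hci]; exact hB2), hcj]
      obtain ⟨d, hd⟩ := hcomm X hX
      rw [hd, pureMat_update_smul]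
      refine add_mem hgen (Submodule.smul_mem _ d (Submodule.subset_span ⟨i, B, hB, ?_⟩))
      rw [slot]; congr 1; funext p
      by_cases hp : p = i
      · subst hp; simp [hij, hci]
      · by_cases hp' : p = l
        · subst hp'; simp [hp]
        · simp [hp, hp', cs]
    · rw [addOne_conj_slot cs (Ne.symm hli) (by rw [hci]; exact hB2),
        show cs l * X + X * cs l = 0 by simp [cs, hli, hlj, add_self_mat],
        pureMat_eq_zero _ (j := l) (Function.update_self ..), add_zero]
      exact hgen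
  intro Y
  refine ⟨fun h => ?_, hmaps Y⟩
  have h1 := hmaps _ h
  rw [hu'] at h1
  have huu : (u : Mt) * u = 1 := by conv_lhs => arg 2; rw [← hu']
                                    exact Units.mul_inv u
  rwa [← Matrix.mul_assoc, ← Matrix.mul_assoc, huu, Matrix.one_mul, Matrix.mul_assoc, huu, Matrix.mul_one] at h1

/-- The inputs for the two elements: `1 + N` and a factor isometry conjugating it to the wanted one. -/
structure Mixer (cs : Fin t → Mk) (i₀ j : Fin t) (b : Mk) : Prop where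
  sym : ∀ i, (flipGram m * cs i)ᵀ = flipGram m * cs i
  alt : ∃ i, ∀ a, (flipGram m * cs i : Mk) a a = 0
  ne : j ≠ i₀
  sq : cs j * cs j = 0
  conj : ∃ A : GL (Fin m) F, (A : Mk)ᵀ * flipGram m * (A : Mk) = flipGram m ∧
    (A : Mk) * cs i₀ * ((A⁻¹ : GL (Fin m) F) : Mk) + cs i₀ = b

lemma pureMat_one_of {f : Fin t → Mk} (h : ∀ l, f l = 1) : pureMat f = 1 := by
  rw [show f = 1 from funext h]; exact pureMat_one

end CfsgLib.Geometric.TensorClifford

namespace CfsgLib.Geometric.TensorClifford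

open scoped Matrix commutatorElement
open Matrix CfsgLib.SmallDim Cfsg.Geo QuadraticMap
open CfsgLib.SmallDim.OrthEven (point point_injective)

variable {ι : Type} [Fintype ι] [DecidableEq ι] {F : Type*} [Field F] [Fintype F] [CharP F 2] {t m : ℕ}
variable {Q : QuadraticForm F (ι → F)} {c : F} {e : ι ≃ (Fin t → Fin m)} {P : GL ι F}

/-- Coordinates as a homomorphism of general linear groups. -/
def toGL (e : ι ≃ (Fin t → Fin m)) (P : GL ι F) : GL (Fin t → Fin m) F →* GL ι F :=
  (MulAut.conj P).toMonoidHom.comp (glReindex e.symm).toMonoidHom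

lemma toGL_injective : Function.Injective (toGL e P) := fun a b h =>
  (glReindex e.symm).injective ((MulAut.conj P).injective h)

lemma ap_toGL (z : GL (Fin t → Fin m) F) (x : (Fin t → Fin m) → F) :
    ap (toGL e P z) (point e P x) = point e P ((z : Matrix _ _ F) *ᵥ x) :=
  act_conj_reindex e P z x

lemma toGL_mem {z : GL (Fin t → Fin m) F}
    (hz : ∀ x, Q (point e P ((z : Matrix _ _ F) *ᵥ x)) = Q (point e P x)) :
    toGL e P z ∈ Cfsg.isometryGroup F (⇑Q) := by
  refine Orth.mem_isometryGroup_iff.mpr fun v => ?_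
  rw [← point_coordMap e P v]
  show Q (ap _ (point e P _)) = _
  rw [ap_toGL, hz]
  rfl

/-- A commutator of isometries of the required shape. -/
lemma exists_commutator (hq : PowerForm (fun x => Q (point e P x)) c) {cs : Fin t → Matrix (Fin m) (Fin m) F}
    {i₀ j : Fin t} {b : Matrix (Fin m) (Fin m) F} (hM : Mixer cs i₀ j b) :
    ∃ g : GL (Fin t → Fin m) F, toGL e P g ∈ omegaGL (⇑Q) ∧
      (g : Matrix (Fin t → Fin m) (Fin t → Fin m) F) = 1 + pureMat (Function.update cs i₀ b) ∧
      ((g⁻¹ : GL (Fin t → Fin m) F) : Matrix (Fin t → Fin m) (Fin t → Fin m) F) = g := by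
  classical
  obtain ⟨i, hi⟩ := hM.alt
  obtain ⟨A, hA, hb⟩ := hM.conj
  let v : GL (Fin t → Fin m) F := addOne (pureMat cs) (pureMat_sq_zero cs hM.sq)
  let h : GL (Fin t → Fin m) F := pureGL (Function.update 1 i₀ A)
  have hv : toGL e P v ∈ Cfsg.isometryGroup F (⇑Q) :=
    toGL_mem (one_add_preserves hq cs hM.sym hi hM.sq)
  have hh : toGL e P h ∈ Cfsg.isometryGroup F (⇑Q) := by
    refine toGL_mem (pure_preserves hq _ fun l => ?_)
    by_cases hl : l = i₀
    · subst hl; simpa using hA
    · simp [Function.update_of_ne hl]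
  have hconj : (h : Matrix (Fin t → Fin m) (Fin t → Fin m) F) * pureMat cs * ((h⁻¹ : GL _ F) : Matrix (Fin t → Fin m) (Fin t → Fin m) F) =
      pureMat (Function.update cs i₀ ((A : Matrix (Fin m) (Fin m) F) * cs i₀ * ((A⁻¹ : GL (Fin m) F) : Matrix (Fin m) (Fin m) F))) := by
    show pureMat _ * pureMat cs * pureMat _ = _
    rw [← pureMat_mul, ← pureMat_mul]
    congr 1
    funext l
    by_cases hl : l = i₀
    · subst hl; simp
    · simp [Function.update_of_ne hl]
  have hval : ((⁅h, v⁆ : GL (Fin t → Fin m) F) : Matrix (Fin t → Fin m) (Fin t → Fin m) F) = 1 + pureMat (Function.update cs i₀ b) := by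
    rw [commutatorElement_def, Units.val_mul, Units.val_mul, Units.val_mul]
    show (h : Matrix (Fin t → Fin m) (Fin t → Fin m) F) * (1 + pureMat cs) * _ * (1 + pureMat cs) = _
    rw [show (h : Matrix (Fin t → Fin m) (Fin t → Fin m) F) * (1 + pureMat cs) * _ =
      1 + pureMat (Function.update cs i₀ ((A : Matrix (Fin m) (Fin m) F) * cs i₀ *
        ((A⁻¹ : GL (Fin m) F) : Matrix (Fin m) (Fin m) F))) by
      rw [Matrix.mul_add, Matrix.mul_one, Matrix.add_mul, Units.mul_inv, hconj],
      Matrix.add_mul, Matrix.one_mul, Matrix.mul_add, Matrix.mul_one, ← pureMat_mul, pureMat_eq_zero (_ * cs) (j := j) (by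
        rw [Pi.mul_apply, Function.update_of_ne hM.ne]; exact hM.sq), add_zero, ← hb, pureMat_update_add,
      Function.update_eq_self]
    abel
  refine ⟨⁅h, v⁆, ?_, hval, ?_⟩
  · rw [Orth.omegaGL_eq, map_commutatorElement]
    exact Subgroup.commutator_mem_commutator hh hv
  · have hsq : ((⁅h, v⁆ : GL (Fin t → Fin m) F) : Matrix (Fin t → Fin m) (Fin t → Fin m) F) * (⁅h, v⁆ : GL (Fin t → Fin m) F) = 1 := by
      have h0 : pureMat (Function.update cs i₀ b) * pureMat (Function.update cs i₀ b) = 0 :=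
        pureMat_sq_zero _ (j := j) (by rw [Function.update_of_ne hM.ne]; exact hM.sq)
      rw [hval, add_mul, mul_add, mul_add, one_mul, one_mul, mul_one, h0, add_zero, add_assoc,
        add_self_mat, add_zero]
    exact Units.inv_eq_of_mul_eq_one_right hsq

/-- The span gives a subgroup strictly between. -/
theorem exists_between_of_mixers (ht : 2 ≤ t) (hm : 0 < m) (hq : PowerForm (fun x => Q (point e P x)) c)
    {B : Matrix (Fin m) (Fin m) F} (hB : B ∈ cliffSet m) (hB2 : B * B = 0)
    (hcomm : ∀ X ∈ cliffSet m, ∃ d : F, B * X + X * B = d • 1) {a₀ a₁ : Fin m} (ha : a₀ ≠ a₁)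
    (hB1 : B *ᵥ Pi.single a₁ 1 = Pi.single a₀ 1)
    {cu : Fin t → Matrix (Fin m) (Fin m) F} {iu ju : Fin t} {bu : Matrix (Fin m) (Fin m) F}
    (hu : Mixer cu iu ju bu) {i j : Fin t} (hij : i ≠ j)
    (hcu : Function.update cu iu bu =
      Function.update (Function.update (1 : Fin t → Matrix (Fin m) (Fin m) F) i B) j B)
    {cg : Fin t → Matrix (Fin m) (Fin m) F} {ig jg : Fin t} {bg : Matrix (Fin m) (Fin m) F}
    (hg : Mixer cg ig jg bg) {l l' : Fin t} (hll : l' ≠ l)
    (hsq : Function.update cg ig bg l' * Function.update cg ig bg l' = 0)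
    {X : Matrix (Fin m) (Fin m) F} (hX : X ∈ cliffSet m) {x y : Fin t → Fin m}
    {p p' : Fin t} (hpp : p ≠ p') (hp : x p ≠ y p) (hp' : x p' ≠ y p')
    (hne : pureMat (Function.update (Function.update cg ig bg) l
      (Function.update cg ig bg l * X + X * Function.update cg ig bg l)) x y ≠ 0) :
    ∃ K : Subgroup (GL ι F), tensorWreathSubgroup m t e P ⊓ omegaGL (⇑Q) < K ∧ K < omegaGL (⇑Q) := by
  classical
  obtain ⟨u, huΩ, huv, huinv⟩ := exists_commutator hq hu
  obtain ⟨g, hgΩ, hgv, hginv⟩ := exists_commutator hq hg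
  rw [hcu] at huv
  refine ⟨(cliffStab t m).map (toGL e P) ⊓ omegaGL (⇑Q), lt_of_le_of_ne ?_ ?_, lt_of_le_of_ne inf_le_right ?_⟩
  · rintro h ⟨⟨_, ⟨z, hz, rfl⟩, rfl⟩, hzΩ⟩
    refine ⟨⟨z, fun Y => ?_, rfl⟩, hzΩ⟩
    have hiso : ∀ x, Q (point e P ((z : Matrix (Fin t → Fin m) (Fin t → Fin m) F) *ᵥ x)) = Q (point e P x) := fun x => by
      rw [← ap_toGL]; exact Orth.isometry_of_mem hzΩ _
    have hiso' : ∀ x, Q (point e P (((z⁻¹ : GL _ F) : Matrix (Fin t → Fin m) (Fin t → Fin m) F) *ᵥ x)) = Q (point e P x) := fun x => by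
      conv_rhs => rw [show x = (z : Matrix (Fin t → Fin m) (Fin t → Fin m) F) *ᵥ (((z⁻¹ : GL _ F) : Matrix (Fin t → Fin m) (Fin t → Fin m) F) *ᵥ x) by
        rw [Matrix.mulVec_mulVec, Units.mul_inv, Matrix.one_mulVec]]
      rw [hiso]
    refine ⟨fun h => ?_, standard_maps (q := fun x => Q (point e P x)) (by omega) hm hq hz hiso⟩
    have h' := standard_maps (q := fun x => Q (point e P x)) (by omega) hm hq (inv_mem hz) hiso' h
    rwa [inv_inv, ← Matrix.mul_assoc, ← Matrix.mul_assoc, Units.inv_mul, Matrix.one_mul, Matrix.mul_assoc,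
      Units.inv_mul, Matrix.mul_one] at h'
  · intro heq
    have h1 : toGL e P u ∈ tensorWreathSubgroup m t e P ⊓ omegaGL (⇑Q) := by
      rw [heq]
      exact ⟨⟨u, mix_maps hB hB2 hcomm hij huv huinv, rfl⟩, huΩ⟩
    obtain ⟨⟨_, ⟨z, hz, rfl⟩, hzu⟩, -⟩ := h1
    have : z = u := toGL_injective hzu
    exact mix_notMem ha hB1 hij huv (this ▸ hz)
  · intro heq
    have h1 : toGL e P g ∈ (cliffStab t m).map (toGL e P) ⊓ omegaGL (⇑Q) := by rw [heq]; exact hgΩ
    obtain ⟨⟨z, hz, hzg⟩, -⟩ := h1
    rw [toGL_injective hzg] at hz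
    have h2 := (hz (slot l X)).2 (Submodule.subset_span ⟨l, X, hX, rfl⟩)
    rw [hginv, hgv, addOne_conj_slot _ hll hsq] at h2
    have h3 := cliffSpan_entry h2 hpp hp hp'
    rw [Matrix.add_apply, cliffSpan_entry (Submodule.subset_span ⟨l, X, hX, rfl⟩) hpp hp hp', zero_add] at h3
    exact hne h3

lemma eq_of_sq_eq {a b : F} (h : a * a = b * b) : a = b := by
  have h2 : (2 : F) = 0 := CharTwo.two_eq_zero
  have : (a + b) * (a + b) = 0 := by linear_combination h + (b * b + a * b) * h2
  exact CharTwo.add_eq_zero.mp (mul_self_eq_zero.mp this)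

lemma flip_two : (flipGram 2 : Matrix (Fin 2) (Fin 2) F) = !![0, 1; 1, 0] := by
  ext a b; fin_cases a <;> fin_cases b <;> simp [flipGram, Fin.rev]

lemma flip_four : (flipGram 4 : Matrix (Fin 4) (Fin 4) F) = !![0, 0, 0, 1; 0, 0, 1, 0; 0, 1, 0, 0; 1, 0, 0, 0] := by
  ext a b; fin_cases a <;> fin_cases b <;> simp [flipGram, Fin.rev]

/-- Planes. -/
theorem exists_between_two_dim {e : ι ≃ (Fin t → Fin 2)} (ht : 4 ≤ t) (hF : 2 < Fintype.card F)
    (hq : PowerForm (fun x => Q (point e P x)) c) :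
    ∃ K : Subgroup (GL ι F), tensorWreathSubgroup 2 t e P ⊓ omegaGL (⇑Q) < K ∧ K < omegaGL (⇑Q) := by
  classical
  obtain ⟨ω, hω0, hω1⟩ : ∃ ω : F, ω ≠ 0 ∧ ω ≠ 1 := by
    obtain ⟨a, b, d, hab, had, hbd⟩ := Fintype.two_lt_card_iff.mp hF
    by_cases ha : a ≠ 0 ∧ a ≠ 1
    · exact ⟨a, ha⟩
    by_cases hb : b ≠ 0 ∧ b ≠ 1
    · exact ⟨b, hb⟩
    refine ⟨d, ?_, ?_⟩ <;> intro hd <;> subst hd <;> push Not at ha hb <;> grind
  set l : F := (ω * ω + 1)⁻¹
  have hl : ω * ω + 1 ≠ 0 := fun h => hω1 (eq_of_sq_eq (by rw [one_mul]; exact CharTwo.add_eq_zero.mp h))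
  let B : Matrix (Fin 2) (Fin 2) F := !![0, 1; 0, 0]
  let c' : Matrix (Fin 2) (Fin 2) F := !![0, l; 0, 0]
  let A : GL (Fin 2) F :=
    { val := !![ω, 0; 0, ω⁻¹]
      inv := !![ω⁻¹, 0; 0, ω]
      val_inv := by simp [Matrix.one_fin_two, hω0]
      inv_val := by simp [Matrix.one_fin_two, hω0] }
  let i0 : Fin t := ⟨0, by omega⟩
  let i1 : Fin t := ⟨1, by omega⟩
  let i2 : Fin t := ⟨2, by omega⟩
  let i3 : Fin t := ⟨3, by omega⟩
  have h01 : i0 ≠ i1 := by simp [i0, i1]
  have hB2 : B * B = 0 := by ext a b; fin_cases a <;> fin_cases b <;> simp [B, Matrix.mul_apply]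
  have hdiag : ∀ a, (flipGram 2 * (1 : Matrix (Fin 2) (Fin 2) F) : Matrix (Fin 2) (Fin 2) F) a a = 0 := fun a => by
    fin_cases a <;> simp [flip_two]
  have hsymB : ∀ X : Matrix (Fin 2) (Fin 2) F, X = B ∨ X = c' ∨ X = 1 →
      (flipGram 2 * X)ᵀ = flipGram 2 * X := by
    rintro X (rfl | rfl | rfl) <;> ext a b <;> fin_cases a <;> fin_cases b <;>
      simp [B, c', flip_two, Matrix.mul_apply]
  have hA : (A : Matrix (Fin 2) (Fin 2) F)ᵀ * flipGram 2 * (A : Matrix (Fin 2) (Fin 2) F) = flipGram 2 := by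
    ext a b; fin_cases a <;> fin_cases b <;> simp [A, flip_two, Matrix.mul_apply, hω0]
  have hAc : (A : Matrix (Fin 2) (Fin 2) F) * c' * ((A⁻¹ : GL (Fin 2) F) : Matrix _ _ F) + c' = B := by
    show !![ω, 0; 0, ω⁻¹] * c' * !![ω⁻¹, 0; 0, ω] + c' = B
    ext a b; fin_cases a <;> fin_cases b <;> simp [B, c', l, Matrix.mul_apply]
    field_simp
    exact div_self (by rw [_root_.sq]; exact hl)
  let cu : Fin t → Matrix (Fin 2) (Fin 2) F := Function.update (Function.update 1 i0 c') i1 B
  let cg : Fin t → Matrix (Fin 2) (Fin 2) F :=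
    Function.update (Function.update (Function.update 1 i0 c') i1 B) i2 B
  refine exists_between_of_mixers (B := B) (a₀ := 0) (a₁ := 1) (cu := cu) (iu := i0) (ju := i1) (bu := B)
    (i := i0) (j := i1) (cg := cg) (ig := i0) (jg := i1) (bg := B) (l := i0) (l' := i1)
    (X := !![0, 0; 1, 0]) (x := fun _ => 0) (y := fun r => if r = i1 ∨ r = i2 then 1 else 0)
    (p := i1) (p' := i2) (by omega) two_pos hq ⟨⟨0, by rw [hB2, zero_smul]⟩, fun h => absurd h (by norm_num)⟩
    hB2 ?_ zero_ne_one ?_ ⟨?_, ⟨i2, ?_⟩, h01.symm, ?_, A, hA, ?_⟩ h01 ?_ ⟨?_, ⟨i3, ?_⟩, h01.symm, ?_, A, hA, ?_⟩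
    h01.symm ?_ ⟨⟨0, ?_⟩, fun h => absurd h (by norm_num)⟩ (by simp [i1, i2]) (by simp) (by simp) ?_
  · rintro X ⟨⟨d, hd⟩, -⟩
    have h00 := congrFun (congrFun hd 0) 0
    have h11 := congrFun (congrFun hd 1) 1
    simp [Matrix.mul_apply, Fin.sum_univ_two] at h00 h11
    have heq : X 0 0 = X 1 1 := eq_of_sq_eq (by linear_combination h00 - h11)
    refine ⟨X 1 0, ?_⟩
    ext a b; fin_cases a <;> fin_cases b <;> simp [B, Matrix.mul_apply, Matrix.vecMul, Matrix.mulVec, dotProduct, Fin.sum_univ_two, heq,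
      CharTwo.add_self_eq_zero]
  · ext a; fin_cases a <;> simp [B]
  · intro i
    by_cases h1 : i = i1
    · subst h1; simpa [cu] using hsymB B (Or.inl rfl)
    by_cases h0 : i = i0
    · subst h0; simpa [cu, h1] using hsymB c' (Or.inr (Or.inl rfl))
    · simpa [cu, h0, h1] using hsymB 1 (Or.inr (Or.inr rfl))
  · intro a; simpa [cu, i0, i1, i2] using hdiag a
  · simpa [cu] using hB2
  · simpa [cu, h01] using hAc
  · funext r
    by_cases h1 : r = i1
    · subst h1; simp [cu, h01.symm]
    by_cases h0 : r = i0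
    · subst h0; simp [cu, h1]
    · simp [cu, h0, h1]
  · intro i
    by_cases h2 : i = i2
    · subst h2; simpa [cg] using hsymB B (Or.inl rfl)
    by_cases h1 : i = i1
    · subst h1; simpa [cg, h2] using hsymB B (Or.inl rfl)
    by_cases h0 : i = i0
    · subst h0; simpa [cg, h1, h2] using hsymB c' (Or.inr (Or.inl rfl))
    · simpa [cg, h0, h1, h2] using hsymB 1 (Or.inr (Or.inr rfl))
  · intro a; simpa [cg, i0, i1, i2, i3] using hdiag a
  · simpa [cg, i1, i2] using hB2
  · simpa [cg, h01, i0, i2] using hAc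
  · simpa [cg, h01.symm, i1, i2] using hB2
  · ext a b; fin_cases a <;> fin_cases b <;> simp [Matrix.mul_apply]
  · simp only [pureMat, Matrix.of_apply]
    refine Finset.prod_ne_zero_iff.2 fun r _ => ?_
    by_cases h0 : r = i0
    · subst h0; simp [B, i0, i1, i2, Matrix.mul_apply, Fin.sum_univ_two]
    by_cases h2 : r = i2
    · subst h2; simp [cg, h0, B]
    by_cases h1 : r = i1
    · subst h1; simp [cg, h0, h2, B]
    · simp [cg, h0, h1, h2]

/-- The mixing operator in dimension four. -/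
def fourB : Matrix (Fin 4) (Fin 4) F := !![0, 1, 0, 0; 0, 0, 0, 0; 0, 0, 0, 1; 0, 0, 0, 0]
/-- A second operator, carried to `fourW + fourB` by `fourA`. -/
def fourW : Matrix (Fin 4) (Fin 4) F := !![0, 0, 1, 0; 0, 0, 0, 1; 0, 0, 0, 0; 0, 0, 0, 0]
/-- A lowering operator. -/
def fourP : Matrix (Fin 4) (Fin 4) F := !![0, 0, 0, 0; 0, 0, 0, 0; 1, 0, 0, 0; 0, 1, 0, 0]
/-- A long root operator. -/
def fourC : Matrix (Fin 4) (Fin 4) F := !![0, 0, 0, 1; 0, 0, 0, 0; 0, 0, 0, 0; 0, 0, 0, 0]

/-- A symplectic transformation of order two. -/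
def fourA : GL (Fin 4) F where
  val := !![1, 0, 0, 0; 0, 1, 0, 0; 0, 1, 1, 0; 0, 0, 0, 1]
  inv := !![1, 0, 0, 0; 0, 1, 0, 0; 0, 1, 1, 0; 0, 0, 0, 1]
  val_inv := by
    ext a b; fin_cases a <;> fin_cases b <;> simp [Matrix.mul_apply, Fin.sum_univ_four, CharTwo.add_self_eq_zero]
  inv_val := by
    ext a b; fin_cases a <;> fin_cases b <;> simp [Matrix.mul_apply, Fin.sum_univ_four, CharTwo.add_self_eq_zero]

lemma four_sq : (fourB : Matrix (Fin 4) (Fin 4) F) * fourB = 0 ∧ (fourW : Matrix (Fin 4) (Fin 4) F) * fourW = 0 ∧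
    (fourC : Matrix (Fin 4) (Fin 4) F) * fourC = 0 ∧ (fourP : Matrix (Fin 4) (Fin 4) F) * fourP = 0 := by
  refine ⟨?_, ?_, ?_, ?_⟩ <;> ext a b <;> fin_cases a <;> fin_cases b <;>
    simp [fourB, fourW, fourC, fourP, Matrix.mul_apply, Fin.sum_univ_four]

lemma flip_fourB : (flipGram 4 * fourB : Matrix (Fin 4) (Fin 4) F) =
    !![0, 0, 0, 0; 0, 0, 0, 1; 0, 0, 0, 0; 0, 1, 0, 0] := by
  ext a b; fin_cases a <;> fin_cases b <;> simp [flipGram_mul, fourB, Fin.rev]

lemma flip_fourW : (flipGram 4 * fourW : Matrix (Fin 4) (Fin 4) F) =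
    !![0, 0, 0, 0; 0, 0, 0, 0; 0, 0, 0, 1; 0, 0, 1, 0] := by
  ext a b; fin_cases a <;> fin_cases b <;> simp [flipGram_mul, fourW, Fin.rev]

lemma flip_fourP : (flipGram 4 * fourP : Matrix (Fin 4) (Fin 4) F) =
    !![0, 1, 0, 0; 1, 0, 0, 0; 0, 0, 0, 0; 0, 0, 0, 0] := by
  ext a b; fin_cases a <;> fin_cases b <;> simp [flipGram_mul, fourP, Fin.rev]

lemma flip_fourC : (flipGram 4 * fourC : Matrix (Fin 4) (Fin 4) F) =
    !![0, 0, 0, 0; 0, 0, 0, 0; 0, 0, 0, 0; 0, 0, 0, 1] := by
  ext a b; fin_cases a <;> fin_cases b <;> simp [flipGram_mul, fourC, Fin.rev]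

lemma four_alt {X : Matrix (Fin 4) (Fin 4) F} (hX : X = fourB ∨ X = fourW ∨ X = fourP) (x : Fin 4 → F) :
    x ⬝ᵥ ((flipGram 4 * X) *ᵥ x) = 0 := by
  rcases hX with rfl | rfl | rfl
  all_goals simp [flip_fourB, flip_fourW, flip_fourP, Matrix.mulVec, dotProduct, Fin.sum_univ_four]
  all_goals rw [mul_comm]; exact CharTwo.add_self_eq_zero _

lemma four_sym {X : Matrix (Fin 4) (Fin 4) F} (hX : X = fourB ∨ X = fourW ∨ X = fourC ∨ X = 1) :
    (flipGram 4 * X)ᵀ = flipGram 4 * X := by
  rcases hX with rfl | rfl | rfl | rfl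
  · rw [flip_fourB]; ext a b; fin_cases a <;> fin_cases b <;> simp
  · rw [flip_fourW]; ext a b; fin_cases a <;> fin_cases b <;> simp
  · rw [flip_fourC]; ext a b; fin_cases a <;> fin_cases b <;> simp
  · rw [Matrix.mul_one, flipGram_transpose]

lemma fourA_isom : ((fourA : GL (Fin 4) F) : Matrix (Fin 4) (Fin 4) F)ᵀ * flipGram 4 * ((fourA : GL (Fin 4) F) : Matrix (Fin 4) (Fin 4) F) =
    flipGram 4 := by
  rw [Matrix.mul_assoc]
  ext a b; fin_cases a <;> fin_cases b <;>
    simp [Matrix.mul_apply, Fin.sum_univ_four, fourA, Fin.rev, flipGram, CharTwo.add_self_eq_zero]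

lemma fourA_conj : ((fourA : GL (Fin 4) F) : Matrix (Fin 4) (Fin 4) F) * fourW *
    (((fourA : GL (Fin 4) F)⁻¹ : GL (Fin 4) F) : Matrix (Fin 4) (Fin 4) F) + fourW = fourB := by
  show !![1, 0, 0, 0; 0, 1, 0, 0; 0, 1, 1, 0; 0, 0, 0, 1] * fourW *
    !![1, 0, 0, 0; 0, 1, 0, 0; 0, 1, 1, 0; 0, 0, 0, 1] + fourW = fourB
  ext a b; fin_cases a <;> fin_cases b <;>
    simp [fourB, fourW, Matrix.mul_apply, Fin.sum_univ_four, CharTwo.add_self_eq_zero]

set_option maxHeartbeats 1000000 in
/-- Four-spaces. -/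
theorem exists_between_four_dim {e : ι ≃ (Fin t → Fin 4)} (ht : 2 ≤ t)
    (hq : PowerForm (fun x => Q (point e P x)) c) :
    ∃ K : Subgroup (GL ι F), tensorWreathSubgroup 4 t e P ⊓ omegaGL (⇑Q) < K ∧ K < omegaGL (⇑Q) := by
  classical
  let i0 : Fin t := ⟨0, by omega⟩
  let i1 : Fin t := ⟨1, by omega⟩
  have h01 : i0 ≠ i1 := by simp [i0, i1]
  have hsq := four_sq (F := F)
  have halt : ∀ {X : Matrix (Fin 4) (Fin 4) F}, X = fourB ∨ X = fourW ∨ X = fourP →
      ∀ x, x ⬝ᵥ ((flipGram 4 * X) *ᵥ x) = 0 := fun h => four_alt h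
  have hdiag : ∀ a, (flipGram 4 * fourW : Matrix (Fin 4) (Fin 4) F) a a = 0 := fun a => by
    rw [flip_fourW]; fin_cases a <;> simp
  let cu : Fin t → Matrix (Fin 4) (Fin 4) F := Function.update (Function.update 1 i0 fourW) i1 fourB
  let cg : Fin t → Matrix (Fin 4) (Fin 4) F := Function.update (Function.update 1 i0 fourC) i1 fourW
  refine exists_between_of_mixers (B := fourB) (a₀ := 0) (a₁ := 1) (cu := cu) (iu := i0) (ju := i1) (bu := fourB)
    (i := i0) (j := i1) (cg := cg) (ig := i1) (jg := i0) (bg := fourB) (l := i0) (l' := i1)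
    (X := fourP) (x := fun _ => 0) (y := fun r => if r = i0 ∨ r = i1 then 1 else 0)
    (p := i0) (p' := i1) (by omega) (by norm_num) hq ⟨⟨0, by rw [hsq.1, zero_smul]⟩, fun _ => halt (X := fourB) (Or.inl rfl)⟩
    hsq.1 ?_ (by decide) ?_ ⟨?_, ⟨i1, ?_⟩, h01.symm, ?_, fourA, fourA_isom, ?_⟩ h01 ?_ ⟨?_, ⟨i1, ?_⟩, h01, ?_, fourA, fourA_isom, ?_⟩
    h01.symm ?_ ⟨⟨0, by rw [hsq.2.2.2, zero_smul]⟩, fun _ => halt (X := fourP) (Or.inr (Or.inr rfl))⟩ h01 (by simp)
    (by simp) ?_
  · rintro X ⟨⟨d, hd⟩, hX⟩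
    have hdg : ∀ a, (flipGram 4 * X : Matrix (Fin 4) (Fin 4) F) a a = 0 := fun a => by
      have := hX rfl (Pi.single a 1)
      rwa [single_dotProduct, one_mul, Matrix.mulVec_single_one] at this
    have hoff : ∀ a b, (flipGram 4 * X : Matrix (Fin 4) (Fin 4) F) a b = (flipGram 4 * X : Matrix (Fin 4) (Fin 4) F) b a := fun a b => by
      have := hX rfl (Pi.single a 1 + Pi.single b 1)
      simp only [add_dotProduct, single_dotProduct, one_mul, Matrix.mulVec_add, Matrix.mulVec_single_one,
        Pi.add_apply, Matrix.col_apply, hdg, zero_add, add_zero] at this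
      exact CharTwo.add_eq_zero.mp this
    simp only [flipGram_mul] at hdg hoff
    have e0 : X 3 0 = 0 := hdg 0
    have e1 : X 2 1 = 0 := hdg 1
    have e2 : X 1 2 = 0 := hdg 2
    have e3 : X 0 3 = 0 := hdg 3
    have e4 : X 3 1 = X 2 0 := hoff 0 1
    have e5 : X 3 2 = X 1 0 := hoff 0 2
    have e6 : X 3 3 = X 0 0 := hoff 0 3
    have e7 : X 2 2 = X 1 1 := hoff 1 2
    have e8 : X 2 3 = X 0 1 := hoff 1 3
    have e9 : X 1 3 = X 0 2 := hoff 2 3
    have h00 := congrFun (congrFun hd 0) 0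
    have h11 := congrFun (congrFun hd 1) 1
    simp [Matrix.mul_apply, Fin.sum_univ_four, e0, e1, e2, e3, e4, e5, e6, e7, e8, e9] at h00 h11
    have heq : X 0 0 = X 1 1 := eq_of_sq_eq (by linear_combination h00 - h11)
    refine ⟨X 1 0, ?_⟩
    ext a b; fin_cases a <;> fin_cases b <;> simp [fourB, Matrix.mul_apply, Matrix.vecMul, Matrix.mulVec, dotProduct, Fin.sum_univ_four, e0, e1, e2, e3,
      e4, e5, e6, e7, e8, e9, heq, CharTwo.add_self_eq_zero]
  · ext a; fin_cases a <;> simp [fourB]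
  · intro i
    by_cases h1 : i = i1
    · subst h1; rw [show cu i1 = fourB by simp [cu]]; exact four_sym (Or.inl rfl)
    by_cases h0 : i = i0
    · subst h0; rw [show cu i0 = fourW by simp [cu, h1]]; exact four_sym (Or.inr (Or.inl rfl))
    · rw [show cu i = 1 by simp [cu, h0, h1]]; exact four_sym (Or.inr (Or.inr (Or.inr rfl)))
  · intro a
    have : ∀ b, (flipGram 4 * fourB : Matrix (Fin 4) (Fin 4) F) b b = 0 := fun b => by
      have := halt (X := fourB) (Or.inl rfl) (Pi.single b 1)
      rwa [single_dotProduct, one_mul, Matrix.mulVec_single_one] at this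
    simpa [cu] using this a
  · simpa [cu] using hsq.1
  · simpa [cu, h01] using fourA_conj
  · funext r
    by_cases h1 : r = i1
    · subst h1; simp [cu, h01.symm]
    by_cases h0 : r = i0
    · subst h0; simp [cu, h1]
    · simp [cu, h0, h1]
  · intro i
    by_cases h1 : i = i1
    · subst h1; rw [show cg i1 = fourW by simp [cg]]; exact four_sym (Or.inr (Or.inl rfl))
    by_cases h0 : i = i0
    · subst h0; rw [show cg i0 = fourC by simp [cg, h1]]; exact four_sym (Or.inr (Or.inr (Or.inl rfl)))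
    · rw [show cg i = 1 by simp [cg, h0, h1]]; exact four_sym (Or.inr (Or.inr (Or.inr rfl)))
  · intro a; simpa [cg] using hdiag a
  · simpa [cg, h01] using hsq.2.2.1
  · simpa [cg] using fourA_conj
  · simpa using hsq.1
  · simp only [pureMat, Matrix.of_apply]
    refine Finset.prod_ne_zero_iff.2 fun r _ => ?_
    by_cases h0 : r = i0
    · subst h0; simp [cg, fourC, fourP, h01, Matrix.mul_apply, Fin.sum_univ_four]
    by_cases h1 : r = i1
    · subst h1; simp [h0, fourB]
    · simp [cg, h0, h1]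

/-- A symplectic basis in anti-diagonal order. -/
lemma exists_flip_basis {f : (Fin m → F) → (Fin m → F) → F} (hf : IsSymplecticForm f) :
    ∃ A : GL (Fin m) F, (A : Matrix (Fin m) (Fin m) F)ᵀ * gramMatrix f * (A : Matrix (Fin m) (Fin m) F) =
      flipGram m := by
  classical
  obtain ⟨k, b, hef, hee, hff⟩ := Orth.exists_symp_basis hf
  have hmk : m = k + k := by
    have := Module.finrank_eq_card_basis b
    rwa [Module.finrank_fin_fun, Fintype.card_sum, Fintype.card_fin] at this
  let τ : Fin m → Fin k ⊕ Fin k := fun a =>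
    if h : (a : ℕ) < k then Sum.inl ⟨a, h⟩ else Sum.inr ⟨m - 1 - a, by omega⟩
  have hτ : Function.Injective τ := by
    intro a a' h
    simp only [τ] at h
    split_ifs at h with h1 h2 h3 <;> simp [Fin.ext_iff] at h <;> exact Fin.ext (by omega)
  let M : Matrix (Fin m) (Fin m) F := Matrix.of fun r a => b (τ a) r
  have hM : M.det ≠ 0 := by
    rw [← isUnit_iff_ne_zero, ← Matrix.isUnit_iff_isUnit_det, ← Matrix.linearIndependent_cols_iff_isUnit]
    exact b.linearIndependent.comp τ hτ
  refine ⟨Matrix.GeneralLinearGroup.mkOfDetNeZero M hM, Matrix.ext fun a a' => ?_⟩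
  show (Mᵀ * gramMatrix f * M) a a' = _
  have hcol : ∀ a, M *ᵥ Pi.single a 1 = b (τ a) := fun a => by rw [Matrix.mulVec_single_one]; rfl
  have hval : (Mᵀ * gramMatrix f * M) a a' = f (b (τ a)) (b (τ a')) := by
    rw [Orth.bilinear_eq_formOfGram hf.bilinear]
    simp only [Cfsg.Geo.formOfGram, id, Matrix.mul_apply, Matrix.transpose_apply, M, Matrix.of_apply,
      Finset.sum_mul]
    exact Finset.sum_comm
  have hneg : ∀ x y, f x y = f y x := fun x y => by rw [hf.skew, CharTwo.neg_eq]
  rw [hval]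
  simp only [flipGram, Matrix.of_apply, τ]
  split_ifs with h1 h2 h3 <;>
    simp only [hee, hff, hef, hneg (b (Sum.inr _)) (b (Sum.inl _))] <;>
    simp [Fin.ext_iff, Fin.val_rev] at * <;> omega

/-- The wreath product stabiliser of a tensor power of symplectic planes or four-spaces is not maximal. -/
theorem exists_between (Q : QuadraticForm F (ι → F)) (ht : 2 ≤ t) (hm : m = 2 ∧ 4 ≤ t ∧ 2 < Fintype.card F ∨ m = 4)
    (e : ι ≃ (Fin t → Fin m)) (P : GL ι F) {f : (Fin m → F) → (Fin m → F) → F} (hf : IsSymplecticForm f)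
    (hT : IsTensorPowerFormStructure id (QuadraticMap.polar Q) f e P)
    (hpure : ∀ v : Fin t → Fin m → F, Q (point e P (pureTensorVec v)) = 0) :
    ∃ K : Subgroup (GL ι F), tensorWreathSubgroup m t e P ⊓ omegaGL (⇑Q) < K ∧ K < omegaGL (⇑Q) := by
  classical
  obtain ⟨A, hA⟩ := exists_flip_basis hf
  obtain ⟨c, hc, hgram⟩ := hT
  set z : GL (Fin t → Fin m) F := pureGL fun _ => A
  have hz : z ∈ tensorWreathStandard m t F := Subgroup.subset_closure (Or.inl ⟨fun _ => A, fun x y => rfl⟩)
  set P' := P * glReindex e.symm z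
  have hpt : ∀ x, point e P' x = point e P ((z : Matrix _ _ F) *ᵥ x) := fun x => by
    show ((P : Matrix ι ι F) * _) *ᵥ _ = (P : Matrix ι ι F) *ᵥ _
    rw [← Matrix.mulVec_mulVec]
    congr 1
    funext i
    simp only [glReindex, Units.coe_mapEquiv, Matrix.mulVec, dotProduct, Function.comp_apply]
    rw [← Equiv.sum_comp e.symm]
    simp
  have hq : PowerForm (fun x => Q (point e P' x)) c := by
    refine ⟨hc, fun s x => ?_, fun x y => ?_, fun v => ?_⟩
    · rw [show point e P' (s • x) = s • point e P' x from CfsgLib.SmallDim.OrthEven.point_smul ..,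
        QuadraticMap.map_smul, smul_eq_mul, _root_.sq]
    · have h1 : QuadraticMap.polar (fun x => Q (point e P' x)) x y =
          QuadraticMap.polar Q (point e P ((z : Matrix _ _ F) *ᵥ x)) (point e P ((z : Matrix _ _ F) *ᵥ y)) := by
        simp only [QuadraticMap.polar]
        rw [CfsgLib.SmallDim.OrthEven.point_add, hpt, hpt]
      rw [h1]
      refine (hgram _ _).trans (congrArg (c * ·) ?_)
      have hsum : ∀ u w : (Fin t → Fin m) → F,
          ∑ a, ∑ b, u a * (∏ i, gramMatrix f (a i) (b i)) * id (w b) =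
            u ⬝ᵥ (pureMat (fun _ : Fin t => gramMatrix f) *ᵥ w) := fun u w => by
        simp [dotProduct, Matrix.mulVec, pureMat, Finset.mul_sum, mul_assoc]
      rw [hsum, Matrix.mulVec_mulVec, ← Matrix.vecMul_transpose, ← Matrix.dotProduct_mulVec,
        Matrix.mulVec_mulVec, ← Matrix.mul_assoc]
      congr 2
      show (pureMat fun _ => (A : Matrix (Fin m) (Fin m) F))ᵀ * _ * pureMat (fun _ => (A : Matrix (Fin m) (Fin m) F)) = _
      rw [pureMat_transpose, ← pureMat_mul, ← pureMat_mul]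
      exact congrArg pureMat (funext fun _ => hA)
    · show Q (point e P' _) = 0
      rw [hpt]
      show Q (point e P (pureMat (fun _ => (A : Matrix (Fin m) (Fin m) F)) *ᵥ _)) = 0
      rw [pureMat_mulVec]
      exact hpure _
  have heq : tensorWreathSubgroup m t e P = tensorWreathSubgroup m t e P' := by
    refine le_antisymm (tensorWreathSubgroup_absorb e P hz) ?_
    have := tensorWreathSubgroup_absorb e P' (inv_mem hz)
    rwa [map_inv, mul_inv_cancel_right] at this
  rw [heq]
  rcases hm with ⟨rfl, ht4, hF⟩ | rfl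
  · exact exists_between_two_dim ht4 hF hq
  · exact exists_between_four_dim ht hq

end CfsgLib.Geometric.TensorClifford
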