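import Cfsg.Agent.Lib.Geometric.Orth.ExtQuad
import Cfsg.Agent.Lib.Geometric.ExtField.Normaliser

/-!
The normaliser in `omegaGL` of a quadratic extension field acting by similitudes, not self-adjointly,
is maximal, in dimension at least ten.
-/

set_option autoImplicit false

namespace CfsgLib.Geometric.Orth

open Matrix

/-- The unitary-type subgroup of an orthogonal group is maximal in dimension at least ten. -/
theorem unitaryType_isMaximalIn_ten {ι : Type} [Fintype ι] [DecidableEq ι] {F : Type*} [Field F] [Fintype F]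
    {Q : (ι → F) → F} (hQ : Cfsg.Geo.IsNondegenerateQuadraticForm Q) (hcard : 10 ≤ Fintype.card ι)
    (K : Subalgebra F (Matrix ι ι F)) (hK : Cfsg.Geo.IsFieldSubalgebra 2 K)
    (hac : Cfsg.Geo.IsAdjointClosedFor (QuadraticMap.polar Q) K)
    (hsc : ∀ k ∈ K, ∃ c : F, ∀ v : ι → F, Q (Matrix.mulVec k v) = c * Q v) :
    Cfsg.Geo.IsMaximalIn (Cfsg.Geo.omegaGL Q)
      (Cfsg.Geo.subalgebraNormalizer K ⊓ Cfsg.Geo.omegaGL Q) := by
  letI := CfsgLib.Geometric.ExtF.fieldOfSubalg hK two_ne_zero
  have hfr : Module.finrank F K = 2 := hK.finrank_eq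
  obtain ⟨d, hd⟩ := CfsgLib.Geometric.ExtF.exists_notMem_range (F := F) (E := K)
    (by rw [hfr]; exact Nat.prime_two)
  set δ : Matrix ι ι F := (d : Matrix ι ι F) with hδdef
  have hspan : ∀ k ∈ K, ∃ a b : F, k = a • 1 + b • δ := by
    intro k hk
    have hind : LinearIndependent F ![(1 : K), d] := by
      rw [LinearIndependent.pair_iff' one_ne_zero]
      intro a ha
      exact hd ⟨a, by rw [← ha, Algebra.algebraMap_eq_smul_one]⟩
    have hm : (⟨k, hk⟩ : K) ∈ Submodule.span F (Set.range ![(1 : K), d]) := by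
      rw [hind.span_eq_top_of_card_eq_finrank (by simp [hfr])]
      exact Submodule.mem_top
    rw [Submodule.mem_span_range_iff_exists_fun] at hm
    obtain ⟨c, hc⟩ := hm
    refine ⟨c 0, c 1, ?_⟩
    simpa [Fin.sum_univ_two] using (congrArg Subtype.val hc).symm
  set Q' := CfsgLib.Geometric.Orth.toQF hQ with hQ'
  have hQc : ∀ v, Q' v = Q v := fun v => rfl
  have hnd : CfsgLib.ClassicalForms.Nondeg Q' := CfsgLib.Geometric.Orth.nondeg_toQF hQ
  obtain ⟨δ', hδ'K, hadj⟩ := hac δ d.2
  obtain ⟨N, hN⟩ := hsc δ d.2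
  obtain ⟨N₁, hN₁⟩ := hsc (1 + δ) (K.add_mem K.one_mem d.2)
  have hext : ∀ a b : ι → F,
      (∀ x, QuadraticMap.polar Q x a = QuadraticMap.polar Q x b) → a = b := by
    intro a b h
    refine sub_eq_zero.mp (hnd _ fun y => ?_)
    rw [QuadraticMap.polar_comm, QuadraticMap.polar_sub_right]
    exact sub_eq_zero.mpr (h y)
  have hmap : ∀ (k : Matrix ι ι F) (c : F), (∀ v, Q (k *ᵥ v) = c * Q v) →
      ∀ u v, QuadraticMap.polar Q (k *ᵥ u) (k *ᵥ v) = c * QuadraticMap.polar Q u v := by
    intro k c h u v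
    simp only [QuadraticMap.polar, ← Matrix.mulVec_add, h]
    ring
  have hNv : ∀ v, δ' *ᵥ (δ *ᵥ v) = N • v := fun v => hext _ _ fun x => by
    rw [← hadj, hmap δ N hN]
    show _ = QuadraticMap.polar Q' x (N • v)
    rw [QuadraticMap.polar_smul_right, smul_eq_mul]
    rfl
  set t := N₁ - 1 - N with ht
  have hsum : ∀ v, δ *ᵥ v + δ' *ᵥ v = t • v := fun v => hext _ _ fun x => by
    have h1 := hmap (1 + δ) N₁ hN₁ x v
    rw [Matrix.add_mulVec, Matrix.add_mulVec, Matrix.one_mulVec, Matrix.one_mulVec] at h1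
    have h2 := hmap δ N hN x v
    have h3 := hadj x v
    show QuadraticMap.polar Q' _ _ = QuadraticMap.polar Q' _ _
    change QuadraticMap.polar Q' _ _ = _ * QuadraticMap.polar Q' _ _ at h1 h2
    change QuadraticMap.polar Q' _ _ = QuadraticMap.polar Q' _ _ at h3
    simp only [QuadraticMap.polar_add_left, QuadraticMap.polar_add_right,
      QuadraticMap.polar_smul_right, smul_eq_mul] at h1 h2 h3 ⊢
    rw [ht]
    linear_combination h1 - h2 - h3
  let S : CfsgLib.Geometric.Orth.QuadExtData Q' :=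
    { D := Matrix.toLin' δ
      t := t
      N := N
      sq := fun x => by
        simp only [Matrix.toLin'_apply]
        have h1 := hsum (δ *ᵥ x)
        rw [hNv] at h1
        rw [← h1]
        abel
      adj := fun x y => by
        rw [Matrix.toLin'_apply, Matrix.toLin'_apply, ← hsum y, add_sub_cancel_left]
        exact hadj x y
      map := fun x => by rw [Matrix.toLin'_apply]; exact hN x
      self := fun x => by
        rw [Matrix.toLin'_apply]
        have h1 := hN₁ x
        rw [Matrix.add_mulVec, Matrix.one_mulVec] at h1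
        show Q (x + δ *ᵥ x) - Q x - Q (δ *ᵥ x) = t * Q x
        rw [h1, hN, ht]
        ring
      irred := fun x hx c hc => by
        rw [Matrix.toLin'_apply] at hc
        have hne : δ - c • 1 ≠ 0 := fun h => hd ⟨c, Subtype.ext (by
          rw [sub_eq_zero] at h
          rw [← hδdef, h]
          exact Algebra.algebraMap_eq_smul_one c)⟩
        obtain ⟨y, hy, hxy⟩ := hK.inv _ (K.sub_mem d.2 (K.smul_mem K.one_mem c)) hne
        rw [hK.comm _ (K.sub_mem d.2 (K.smul_mem K.one_mem c)) y hy] at hxy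
        refine hx ?_
        rw [← Matrix.one_mulVec x, ← hxy, ← Matrix.mulVec_mulVec, Matrix.sub_mulVec,
          Matrix.smul_mulVec, Matrix.one_mulVec, hc, sub_self, Matrix.mulVec_zero] }
  have hD : ∀ x, S.D x = δ *ᵥ x := fun x => Matrix.toLin'_apply δ x
  -- the normaliser
  have hnorm : ∀ g : GL ι F, g ∈ Cfsg.Geo.subalgebraNormalizer K ↔
      ∃ a b : F, ∀ x, CfsgLib.Geometric.ap g (S.D x) =
        a • CfsgLib.Geometric.ap g x + b • S.D (CfsgLib.Geometric.ap g x) := by
    intro g
    have key : ∀ a b : F, (∀ x, CfsgLib.Geometric.ap g (S.D x) =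
        a • CfsgLib.Geometric.ap g x + b • S.D (CfsgLib.Geometric.ap g x)) ↔
        (g : Matrix ι ι F) * δ = (a • 1 + b • δ) * g := by
      intro a b
      simp only [hD, CfsgLib.Geometric.ap_def, Matrix.mulVec_mulVec]
      constructor
      · intro h
        refine Matrix.ext_of_mulVec_single fun i => ?_
        rw [h, Matrix.add_mul, Matrix.smul_mul, Matrix.smul_mul, Matrix.one_mul, Matrix.add_mulVec,
          Matrix.smul_mulVec, Matrix.smul_mulVec]
      · intro h x
        rw [h, Matrix.add_mul, Matrix.smul_mul, Matrix.smul_mul, Matrix.one_mul, Matrix.add_mulVec,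
          Matrix.smul_mulVec, Matrix.smul_mulVec]
    simp only [key]
    constructor
    · intro hg
      obtain ⟨a, b, hab⟩ := hspan _ ((hg δ).mp d.2)
      exact ⟨a, b, by rw [← hab, Matrix.mul_assoc, Units.inv_mul, Matrix.mul_one]⟩
    · rintro ⟨a, b, hab⟩
      have hfwd : ∀ k ∈ K, (g : Matrix ι ι F) * k *
          ((g⁻¹ : GL ι F) : Matrix ι ι F) ∈ K := by
        intro k hk
        obtain ⟨c, e, rfl⟩ := hspan k hk
        rw [Matrix.mul_add, Matrix.mul_smul, Matrix.mul_smul, Matrix.mul_one, hab, Matrix.add_mul,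
          Matrix.smul_mul, Matrix.smul_mul, Matrix.mul_assoc, Units.mul_inv, Matrix.mul_one]
        exact K.add_mem (K.smul_mem K.one_mem c)
          (K.smul_mem (K.add_mem (K.smul_mem K.one_mem a) (K.smul_mem d.2 b)) e)
      have : Finite K := Finite.of_injective (fun x : K => (x : Matrix ι ι F))
        Subtype.val_injective
      let φ : K → K := fun k => ⟨_, hfwd k k.2⟩
      have hφ : Function.Injective φ := fun x y h => Subtype.ext (by
        have h' : (g : Matrix ι ι F) * (x : Matrix ι ι F) * ((g⁻¹ : GL ι F) : Matrix ι ι F) =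
          g * (y : Matrix ι ι F) * ((g⁻¹ : GL ι F) : Matrix ι ι F) := congrArg Subtype.val h
        rwa [Units.mul_left_inj, Units.mul_right_inj] at h')
      intro k
      refine ⟨hfwd k, fun hk => ?_⟩
      obtain ⟨k', hk'⟩ := (Finite.injective_iff_surjective.mp hφ) ⟨_, hk⟩
      have h' : (g : Matrix ι ι F) * (k' : Matrix ι ι F) * ((g⁻¹ : GL ι F) : Matrix ι ι F) =
        g * k * ((g⁻¹ : GL ι F) : Matrix ι ι F) := congrArg Subtype.val hk'
      rw [Units.mul_left_inj, Units.mul_right_inj] at h'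
      exact h' ▸ k'.2
  refine ⟨lt_of_le_of_ne inf_le_right fun h => ?_, fun M hNM hMI => ?_⟩
  · obtain ⟨g, hg, hgn⟩ := S.exists_not_normalize hnd hcard
    exact hgn ((hnorm g).mp (inf_eq_right.mp h hg))
  by_cases hle : M ≤ Cfsg.Geo.subalgebraNormalizer K
  · exact Or.inl (le_antisymm (le_inf hle hMI) hNM)
  obtain ⟨g, hg, hgN⟩ := SetLike.not_le_iff_exists.mp hle
  refine Or.inr (le_antisymm hMI (S.le_of_not_normalize hnd hcard
    (hMI.trans (CfsgLib.Geometric.Orth.omegaGL_le (Q := Q'))) (fun g hg hcomm => hNM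
      ⟨(hnorm g).mpr ⟨0, 1, fun x => by rw [zero_smul, zero_add, one_smul]; exact (hcomm x).symm⟩, hg⟩)
    ⟨g, hg, fun h => hgN ((hnorm g).mpr h)⟩))

/-- The unitary-type subgroup of an orthogonal group is maximal: in dimension at least thirteen, or at
least twelve with a totally singular subspace of dimension six. -/
theorem unitaryType_isMaximalIn {ι : Type} [Fintype ι] [DecidableEq ι] {F : Type*} [Field F] [Fintype F]
    {Q : (ι → F) → F} (hQ : Cfsg.Geo.IsNondegenerateQuadraticForm Q) (hcard : 12 ≤ Fintype.card ι)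
    (_hWit : 13 ≤ Fintype.card ι ∨
      ∃ W : Submodule F (ι → F), (∀ x ∈ W, Q x = 0) ∧ 5 < Module.finrank F W)
    (K : Subalgebra F (Matrix ι ι F)) (hK : Cfsg.Geo.IsFieldSubalgebra 2 K)
    (hac : Cfsg.Geo.IsAdjointClosedFor (QuadraticMap.polar Q) K)
    (hsc : ∀ k ∈ K, ∃ c : F, ∀ v : ι → F, Q (Matrix.mulVec k v) = c * Q v) :
    Cfsg.Geo.IsMaximalIn (Cfsg.Geo.omegaGL Q)
      (Cfsg.Geo.subalgebraNormalizer K ⊓ Cfsg.Geo.omegaGL Q) :=
  unitaryType_isMaximalIn_ten hQ (by omega) K hK hac hsc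

end CfsgLib.Geometric.Orth
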